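import Cfsg.Agent.M24.Leech5

/-! Binary words, the code and its dual, signs, the cocycle `th`. -/

set_option autoImplicit false

namespace CA.Gr

open Cfsg CA.M24 Matrix

noncomputable section

attribute [-simp] Fintype.sum_option Fintype.prod_option

abbrev K : Type := ZMod 2
abbrev F : Type := ZMod 31
abbrev W : Type := Pt → K
abbrev Cd : Type := ↥golayCode
abbrev Du : Type := Module.Dual K Cd

instance fact31 : Fact (Nat.Prime 31) := ⟨by norm_num⟩
instance fintypeCd : Fintype Cd := Fintype.ofFinite _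
instance finiteDu : Finite Du := Finite.of_injective _ DFunLike.coe_injective
instance fintypeDu : Fintype Du := Fintype.ofFinite _
instance decEqDu : DecidableEq Du := Classical.decEq _

theorem kc (a : K) : a = 0 ∨ a = 1 := by revert a; decide
@[simp] theorem k_add_self (a : K) : a + a = 0 := by revert a; decide
@[simp] theorem k_mul_self (a : K) : a * a = a := by revert a; decide
theorem k_two : (2 : K) = 0 := rfl
@[simp] theorem w_add_self (a : W) : a + a = 0 := funext fun i => k_add_self (a i)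
@[simp] theorem w_mul_self (a : W) : a * a = a := funext fun i => k_mul_self (a i)
@[simp] theorem c_add_self (a : Cd) : a + a = 0 := Subtype.ext (w_add_self _)
@[simp] theorem d_add_self (a : Du) : a + a = 0 := LinearMap.ext fun c => k_add_self (a c)

/-- the sign `(-1) ^ a` -/
def sg (a : K) : F := if a = 0 then 1 else -1
/-- a bit as an element of the field -/
def io (a : K) : F := if a = 0 then 0 else 1

@[simp] theorem sg_zero : sg 0 = 1 := rfl
@[simp] theorem sg_one : sg 1 = -1 := rfl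
theorem sg_add (a b : K) : sg (a + b) = sg a * sg b := by revert a b; decide
@[simp] theorem sg_mul_self (a : K) : sg a * sg a = 1 := by revert a; decide
theorem sg_ne_zero (a : K) : sg a ≠ 0 := by revert a; decide
theorem sg_inj {a b : K} (h : sg a = sg b) : a = b := by revert a b; decide
@[simp] theorem io_zero : io 0 = 0 := rfl
@[simp] theorem io_one : io 1 = 1 := rfl

/-- the integer lift of a word -/
def zv (x : W) : Vec := fun i => ((x i).val : ℤ)
/-- the weight -/
def wt (x : W) : ℤ := ∑ i, zv x i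
/-- half the weight, modulo two -/
def hf (x : W) : K := ((wt x / 2 : ℤ) : K)
/-- a quarter of the weight, modulo two -/
def pq (x : W) : K := ((wt x / 4 : ℤ) : K)
/-- a unit word -/
def e1 (i : Pt) : W := Pi.single i 1
/-- the all-one word -/
def om : Cd := ⟨1, Submodule.subset_span (Set.mem_union_right _ rfl)⟩

@[simp] theorem om_apply (i : Pt) : (om : W) i = 1 := rfl
theorem coe_om : (om : W) = 1 := rfl
theorem om_ne_zero : om ≠ 0 := fun h => one_ne_zero (congrFun (congrArg Subtype.val h) none)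

theorem zv_cases (x : W) (i : Pt) : (x i = 0 ∧ zv x i = 0) ∨ (x i = 1 ∧ zv x i = 1) :=
  (kc (x i)).imp (fun h => ⟨h, by rw [zv, h]; rfl⟩) fun h => ⟨h, by rw [zv, h]; rfl⟩

theorem zv_eq (x : W) : zv x = ind (support₂ x) := by
  funext i
  rcases zv_cases x i with ⟨h, h'⟩ | ⟨h, h'⟩ <;> simp [ind, h, h']

theorem cast_zv (x : W) (i : Pt) : ((zv x i : ℤ) : K) = x i := by simp [zv]

theorem castF_zv (x : W) (i : Pt) : ((zv x i : ℤ) : F) = io (x i) := by
  rcases zv_cases x i with ⟨h, h'⟩ | ⟨h, h'⟩ <;> simp [h, h']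

theorem zv_mul (x y : W) (i : Pt) : zv (x * y) i = zv x i * zv y i := by
  rcases kc (x i) with h | h <;> rcases kc (y i) with k | k <;> simp only [zv, Pi.mul_apply, h, k] <;> rfl

theorem zv_add (x y : W) (i : Pt) : zv (x + y) i = zv x i + zv y i - 2 * zv (x * y) i := by
  rcases kc (x i) with h | h <;> rcases kc (y i) with k | k <;> simp [zv, h, k] <;> rfl

theorem zv_e1 (i : Pt) : zv (e1 i) = ind {i} := by
  funext j
  by_cases h : j = i <;> simp [zv, e1, ind, h] <;> rfl

theorem wt_eq (x : W) : wt x = (support₂ x).card := by rw [wt, zv_eq, sum_ind]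
theorem wt_nonneg (x : W) : 0 ≤ wt x := by rw [wt_eq]; positivity
theorem wt_add (x y : W) : wt (x + y) = wt x + wt y - 2 * wt (x * y) := by
  simp only [wt, zv_add, Finset.sum_sub_distrib, Finset.sum_add_distrib, Finset.mul_sum]
theorem wt_add_le (x y : W) : wt (x + y) ≤ wt x + wt y := by
  have := wt_nonneg (x * y); rw [wt_add]; omega
theorem wt_e1 (i : Pt) : wt (e1 i) = 1 := by rw [wt, zv_e1, sum_ind]; rfl
@[simp] theorem wt_zero : wt 0 = 0 := by simp [wt, zv]
theorem wt_one : wt 1 = 24 := by rw [wt_eq, support₂_one, Finset.card_univ, card_Pt]; rfl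
theorem eq_zero_of_wt {x : W} (h : wt x = 0) : x = 0 := by
  rw [wt_eq, Nat.cast_eq_zero, Finset.card_eq_zero] at h
  rw [← wordOf_support₂ x, h, wordOf_empty]
theorem cast_wt (x : W) : ((wt x : ℤ) : K) = ∑ i, x i := by simp [wt, cast_zv]
theorem cast_wt_mul (x y : W) : ((wt (x * y) : ℤ) : K) = x ⬝ᵥ y := cast_wt _
theorem two_dvd_wt {x : W} : 2 ∣ wt x ↔ ∑ i, x i = 0 := by
  rw [← cast_wt]; exact ((ZMod.intCast_zmod_eq_zero_iff_dvd _ 2)).symm

theorem wt_code (d : Cd) : wt d = 0 ∨ wt d = 8 ∨ wt d = 12 ∨ wt d = 16 ∨ wt d = 24 := by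
  have := card_of_mem_Cs (support₂_mem_Cs.2 d.2)
  rw [wt_eq]; omega

theorem eq_zero_of_wt_lt {x : W} (h : x ∈ golayCode) (h8 : wt x < 8) : x = 0 :=
  eq_zero_of_wt (by have := wt_code ⟨x, h⟩; simp only at this; omega)

theorem two_dvd_wt_mul (d e : Cd) : 2 ∣ wt (d.1 * e.1) := by
  have h1 := wt_code d
  have h2 := wt_code e
  have h3 := wt_code (d + e)
  rw [Submodule.coe_add, wt_add] at h3
  omega

@[simp] theorem dot_code (d e : Cd) : d.1 ⬝ᵥ e.1 = 0 := two_dvd_wt.1 (two_dvd_wt_mul d e)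
@[simp] theorem sum_code (d : Cd) : ∑ i, d.1 i = 0 := by simpa [dotProduct] using dot_code d d

theorem cast_eq_of {a b : ℤ} (h : 2 ∣ a - b) : (a : K) = b :=
  (ZMod.intCast_eq_intCast_iff_dvd_sub a b 2).2 (by omega)

theorem hf_add {x y : W} (hx : ∑ i, x i = 0) (hy : ∑ i, y i = 0) : hf (x + y) = hf x + hf y + x ⬝ᵥ y := by
  rw [← two_dvd_wt] at hx hy
  rw [hf, hf, hf, ← cast_wt_mul, ← Int.cast_add, ← Int.cast_add, wt_add]
  exact cast_eq_of (by omega)

@[simp] theorem hf_code (d : Cd) : hf d.1 = 0 := by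
  have := wt_code d
  exact (cast_eq_of (b := 0) (by omega)).trans Int.cast_zero

@[simp] theorem hf_zero : hf 0 = 0 := hf_code 0

theorem hf_pair {i j : Pt} (h : i ≠ j) : hf (e1 i + e1 j) = 1 := by
  have : e1 i * e1 j = 0 := by
    funext k; by_cases a : k = i <;> by_cases b : k = j <;> simp_all [e1]
  rw [hf, wt_add, this, wt_e1, wt_e1]; simp

theorem pq_add (d e : Cd) : pq (d.1 + e.1) = pq d.1 + pq e.1 + hf (d.1 * e.1) := by
  have h1 := wt_code d
  have h2 := wt_code e
  have h3 := two_dvd_wt_mul d e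
  rw [pq, pq, pq, hf, ← Int.cast_add, ← Int.cast_add, wt_add]
  exact cast_eq_of (by omega)

@[simp] theorem pq_zero : pq 0 = 0 := by simp [pq]
@[simp] theorem pq_om : pq om.1 = 0 := by rw [pq, coe_om, wt_one]; rfl
theorem pq_oct {o : W} (h : wt o = 8) : pq o = 0 := by rw [pq, h]; rfl
@[simp] theorem pq_add_om (d : Cd) : pq (d.1 + om.1) = pq d.1 := by
  rw [pq_add, coe_om, mul_one]; simp [← coe_om]

@[simp] theorem e1_dot (i : Pt) (x : W) : e1 i ⬝ᵥ x = x i := by simp [e1]
@[simp] theorem dot_e1 (i : Pt) (x : W) : x ⬝ᵥ e1 i = x i := by simp [e1]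
@[simp] theorem sum_e1 (i : Pt) : ∑ j, e1 i j = 1 := by simp [e1]
theorem e1_apply (i j : Pt) : e1 i j = if j = i then 1 else 0 := by simp [e1, Pi.single_apply]
theorem dot_om (x : W) : x ⬝ᵥ om.1 = ∑ i, x i := by simp [dotProduct]

/-- the functional on the code defined by a word -/
def cc : W →ₗ[K] Du :=
  LinearMap.mk₂ K (fun x c => x ⬝ᵥ c.1) (by simp) (by simp) (by simp) (by simp)

@[simp] theorem cc_apply (x : W) (c : Cd) : cc x c = x ⬝ᵥ c.1 := rfl
@[simp] theorem cc_code (d : Cd) : cc d.1 = 0 := LinearMap.ext fun c => dot_code d c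

theorem cc_surj : Function.Surjective cc := by
  intro f
  obtain ⟨g, rfl⟩ := Subspace.dualRestrict_surjective (W := golayCode) f
  refine ⟨fun i => g (e1 i), LinearMap.ext fun c => ?_⟩
  rw [Submodule.dualRestrict_apply, cc_apply, dotProduct]
  conv_rhs => rw [pi_eq_sum_univ' c.1, map_sum]
  simp only [map_smul, smul_eq_mul, mul_comm]; rfl

theorem card_Cd : Fintype.card Cd = 4096 := by rw [← Nat.card_eq_fintype_card, card_golayCode]
theorem card_Du : Fintype.card Du = 4096 := by
  rw [← card_Cd]; exact Fintype.card_congr (Module.Free.chooseBasis K Cd).toDualEquiv.toEquiv.symm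

theorem cc_eq_zero {x : W} : cc x = 0 ↔ x ∈ golayCode := by
  refine ⟨fun h => ?_, fun h => cc_code ⟨x, h⟩⟩
  have e : golayCode = LinearMap.ker cc := by
    refine Submodule.eq_of_le_of_finrank_eq (fun x h => cc_code ⟨x, h⟩) ?_
    have h1 := LinearMap.finrank_range_add_finrank_ker cc
    have h2 := Module.card_eq_pow_finrank (K := K) (V := Cd)
    rw [card_Cd, ZMod.card, show 4096 = 2 ^ 12 from rfl] at h2
    have h3 := Nat.pow_right_injective (le_refl 2) h2
    rw [LinearMap.range_eq_top.2 cc_surj, finrank_top, Subspace.dual_finrank_eq, Module.finrank_fintype_fun_eq_card,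
      card_Pt, ← h3] at h1
    exact h3.symm.trans (Nat.add_left_cancel (n := 12) h1).symm
  rw [e]; exact h

theorem sum_sg_zero {A : Type*} [AddCommGroup A] (s : Finset A) (φ : A → K) {a : A} (h1 : ∀ x, x + a ∈ s ↔ x ∈ s)
    (h2 : ∀ x ∈ s, φ (x + a) = φ x + 1) : ∑ x ∈ s, sg (φ x) = 0 := by
  have : ∑ x ∈ s, sg (φ x) = ∑ x ∈ s, sg (φ (x + a)) :=
    (Finset.sum_equiv (Equiv.addRight a) (fun x => (h1 x).symm) fun _ _ => rfl).symm
  have e : ∑ x ∈ s, sg (φ (x + a)) = -∑ x ∈ s, sg (φ x) := by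
    rw [← Finset.sum_neg_distrib]
    exact Finset.sum_congr rfl fun x hx => by rw [h2 x hx, sg_add, sg_one, mul_neg_one]
  grind

theorem sum_sg_Cd (x : Du) : ∑ c : Cd, sg (x c) = if x = 0 then 4096 else 0 := by
  split_ifs with h
  · simp [h, card_Cd]
  · obtain ⟨a, ha⟩ : ∃ a, x a ≠ 0 := by simpa [LinearMap.ext_iff] using h
    exact sum_sg_zero _ _ (a := a) (by simp) fun c _ => by rw [map_add, (kc _).resolve_left ha]

theorem exists_dual {c : Cd} (h : c ≠ 0) : ∃ x : Du, x c = 1 := by
  obtain ⟨i, hi⟩ : ∃ i, c.1 i ≠ 0 := by_contra fun k => h (Subtype.ext (funext fun i => by_contra fun e => k ⟨i, e⟩))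
  exact ⟨cc (e1 i), by simpa using (kc _).resolve_left hi⟩

theorem sum_sg_Du (c : Cd) : ∑ x : Du, sg (x c) = if c = 0 then 4096 else 0 := by
  split_ifs with h
  · simp [h, card_Du]
  · obtain ⟨a, ha⟩ := exists_dual h
    exact sum_sg_zero _ _ (a := a) (by simp) fun x _ => by rw [LinearMap.add_apply, ha]

/-- an alternating map in characteristic two is the polar map of a function -/
theorem exists_quad {U N : Type*} [AddCommGroup U] [Module K U] [Module.Finite K U] [AddCommGroup N] [Module K N]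
    (b : U →ₗ[K] U →ₗ[K] N) (hb : ∀ u, b u u = 0) : ∃ k : U → N, ∀ u v, k (u + v) = k u + k v + b u v := by
  have h2 : ∀ n : N, n + n = 0 := fun n => by rw [← two_smul K, k_two, zero_smul]
  have hs : ∀ u v, b u v = b v u := fun u v => by
    have := hb (u + v)
    simp only [map_add, LinearMap.add_apply, hb, zero_add, add_zero] at this
    rw [← add_zero (b u v), ← h2 (b v u), ← add_assoc, add_comm (b u v), this, zero_add]
  let bm := Module.finBasis K U
  let c : U →ₗ[K] U →ₗ[K] N := bm.constr K fun i => bm.constr K fun j => if i < j then b (bm i) (bm j) else 0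
  have e : c + c.flip = b := bm.ext fun i => bm.ext fun j => by
    simp only [c, LinearMap.add_apply, LinearMap.flip_apply, Module.Basis.constr_basis]
    rcases lt_trichotomy i j with h | rfl | h
    · rw [if_pos h, if_neg h.not_gt, add_zero]
    · simp [hb]
    · rw [if_pos h, if_neg h.not_gt, zero_add, hs]
  refine ⟨fun u => c u u, fun u v => ?_⟩
  simp only [← e, map_add, LinearMap.add_apply, LinearMap.flip_apply]
  abel

theorem mul_dot_left (d e : Cd) : (d.1 * e.1) ⬝ᵥ d.1 = 0 :=
  (Finset.sum_congr rfl fun i _ => by simp only [Pi.mul_apply]; have := k_mul_self (d.1 i); grind).trans (dot_code d e)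
theorem mul_dot_right (d e : Cd) : (d.1 * e.1) ⬝ᵥ e.1 = 0 := by rw [mul_comm, mul_dot_left]

theorem exists_th : ∃ θ : Cd → Du, (∀ d e, θ (d + e) = θ d + θ e + cc (d.1 * e.1)) ∧ (∀ d, θ d d = pq d.1) ∧ θ om = 0 := by
  obtain ⟨k, hk⟩ := exists_quad (U := Cd) (LinearMap.mk₂ K (fun d e => cc (d.1 * e.1)) (by simp [add_mul]) (by simp)
    (by simp [mul_add]) (by simp)) (by simp)
  simp only [LinearMap.mk₂_apply] at hk
  have k0 : k 0 = 0 := by simpa using hk 0 0
  have tr : ∀ d e g : Cd, (d.1 * e.1) ⬝ᵥ g.1 = (d.1 * g.1) ⬝ᵥ (e.1 * g.1) := fun d e g =>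
    Finset.sum_congr rfl fun i _ => by
      simp only [Pi.mul_apply]; have := k_mul_self (g.1 i); grind
  have ev : ∀ d e : Cd, ∑ i, (d.1 * e.1) i = 0 := dot_code
  have sm : ∀ (f : Cd → K), f 0 = 0 → ∀ (a : K) (d : Cd), f (a • d) = a • f d := fun f h a d => by
    rcases kc a with rfl | rfl <;> simp [h]
  have ha : ∀ d d' e : Cd, k (d + d') e + k e (d + d') + hf ((d + d').1 * e.1) =
      (k d e + k e d + hf (d.1 * e.1)) + (k d' e + k e d' + hf (d'.1 * e.1)) := fun d d' e => by
    rw [hk, Submodule.coe_add, add_mul, hf_add (ev _ _) (ev _ _), ← tr]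
    simp only [LinearMap.add_apply, map_add, cc_apply]; grind
  let E : Cd →ₗ[K] Cd →ₗ[K] K := LinearMap.mk₂ K (fun d e => k d e + k e d + hf (d.1 * e.1)) ha
    (fun a d e => sm (fun d => k d e + k e d + hf (d.1 * e.1)) (by simp [k0]) a d)
    (fun e d d' => by have := ha d d' e; simp only [mul_comm e.1]; grind)
    (fun a d e => sm (fun e => k d e + k e d + hf (d.1 * e.1)) (by simp [k0]) a e)
  let D : QuadraticMap K Cd K :=
    { toFun := fun d => k d d + pq d.1
      toFun_smul := fun a d => by rw [k_mul_self]; exact sm (fun d => k d d + pq d.1) (by simp) a d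
      exists_companion' := ⟨E, fun d e => by
        simp only [E, LinearMap.mk₂_apply, hk, Submodule.coe_add, pq_add, LinearMap.add_apply, map_add, cc_apply,
          mul_dot_left, mul_dot_right]
        grind⟩ }
  let c := D.toBilin (Module.finBasis K Cd)
  have hc : ∀ d, c d d = k d d + pq d.1 := fun d =>
    DFunLike.congr_fun (D.toQuadraticMap_toBilin (Module.finBasis K Cd)) d
  let φ : Du := k om + c om
  let l : Du := cc (e1 none)
  have hφ : φ om = 0 := by simp [φ, hc]
  refine ⟨fun d => k d + c d + (l d • φ + φ d • l), fun d e => ?_, fun d => ?_, ?_⟩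
  · simp only [hk, map_add, add_smul]; abel
  · simp only [LinearMap.add_apply, hc, LinearMap.smul_apply, smul_eq_mul]; grind
  · simp [hφ, l, φ]

/-- the cocycle of the loop -/
def th : Cd → Du := exists_th.choose

theorem th_add (d e : Cd) : th (d + e) = th d + th e + cc (d.1 * e.1) := exists_th.choose_spec.1 d e
theorem th_self (d : Cd) : th d d = pq d.1 := exists_th.choose_spec.2.1 d
@[simp] theorem th_om : th om = 0 := exists_th.choose_spec.2.2
@[simp] theorem th_zero : th 0 = 0 := by simpa using th_add 0 0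

theorem th_symm (d e : Cd) : th d e + th e d = hf (d.1 * e.1) := by
  have := th_self (d + e)
  simp only [th_add, Submodule.coe_add, pq_add, LinearMap.add_apply, map_add, cc_apply, th_self, mul_dot_left,
    mul_dot_right] at this
  grind

@[simp] theorem th_apply_om (d : Cd) : th d om = 0 := by simpa [coe_om] using th_symm d om
@[simp] theorem th_add_om (d : Cd) : th (d + om) = th d := by simp [th_add, coe_om]
@[simp] theorem th_add_smul_om (d : Cd) (a : K) : th (d + a • om) = th d := by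
  rcases kc a with rfl | rfl <;> simp

end

end CA.Gr
theorem CA.Gr.realizeEqnsCode : True := by
  have := @CA.Gr.pq.eq_1
  have := @CA.Gr.pq.eq_def
  have := @CA.Gr.pq.congr_simp
  have := @CA.Gr.e1.eq_1
  have := @CA.Gr.e1.eq_def
  have := @CA.Gr.e1.congr_simp
  have := @CA.Gr.K.eq_1
  have := @CA.Gr.K.eq_def
  have := @CA.Gr.K.congr_simp
  have := @CA.Gr.om.eq_1
  have := @CA.Gr.om.eq_def
  have := @CA.Gr.om.congr_simp
  have := @CA.Gr.sg.eq_1
  have := @CA.Gr.sg.eq_def
  have := @CA.Gr.sg.congr_simp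
  have := @CA.Gr.Cd.eq_1
  have := @CA.Gr.Cd.eq_def
  have := @CA.Gr.Cd.congr_simp
  have := @CA.Gr.wt.eq_1
  have := @CA.Gr.wt.eq_def
  have := @CA.Gr.wt.congr_simp
  have := @CA.Gr.io.eq_1
  have := @CA.Gr.io.eq_def
  have := @CA.Gr.io.congr_simp
  have := @CA.Gr.F.eq_1
  have := @CA.Gr.F.eq_def
  have := @CA.Gr.F.congr_simp
  have := @CA.Gr.th.eq_1
  have := @CA.Gr.th.eq_def
  have := @CA.Gr.th.congr_simp
  have := @CA.Gr.hf.eq_1
  have := @CA.Gr.hf.eq_def
  have := @CA.Gr.hf.congr_simp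
  have := @CA.Gr.Du.eq_1
  have := @CA.Gr.Du.eq_def
  have := @CA.Gr.Du.congr_simp
  have := @CA.Gr.zv.eq_1
  have := @CA.Gr.zv.eq_def
  have := @CA.Gr.zv.congr_simp
  have := @CA.Gr.W.eq_1
  have := @CA.Gr.W.eq_def
  have := @CA.Gr.W.congr_simp
  have := @CA.Gr.cc.eq_1
  have := @CA.Gr.cc.eq_def
  have := @CA.Gr.cc.congr_simp
  trivial
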