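import Cfsg.Agent.Gr.Lam

/-! The algebra: the space, the bilinear and the trilinear form, their group. -/

set_option autoImplicit false

namespace CA.Gr

open Cfsg CA.M24 Matrix
open scoped Kronecker

noncomputable section

abbrev Mat : Type := Matrix Pt Pt F
abbrev Ix : Type := Pt × Cd
abbrev Big : Type := Mat × (Q → F) × (Ix → F)

/-- symmetric matrices, odd functions on short elements, tensors -/
def Bs : Submodule F Big where
  carrier := {b | b.1ᵀ = b.1 ∧ (∀ q, b.2.1 (zq * q) = -b.2.1 q) ∧ ∀ q, ¬ Short q → b.2.1 q = 0}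
  zero_mem' := ⟨by simp, by simp, by simp⟩
  add_mem' := fun {a b} ha hb => ⟨by simp [ha.1, hb.1], fun q => by simp [ha.2.1, hb.2.1, add_comm],
    fun q h => by simp [ha.2.2 q h, hb.2.2 q h]⟩
  smul_mem' := fun c {a} ha => ⟨by simp [ha.1], fun q => by simp [ha.2.1], fun q h => by simp [ha.2.2 q h]⟩

/-- the space of dimension 196884 -/
abbrev B : Type := ↥Bs

/-- the three components -/
def cA : B →ₗ[F] Mat := (LinearMap.fst F _ _).comp Bs.subtype
def cX : B →ₗ[F] Q → F := ((LinearMap.fst F _ _).comp (LinearMap.snd F _ _)).comp Bs.subtype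
def cW : B →ₗ[F] Ix → F := ((LinearMap.snd F _ _).comp (LinearMap.snd F _ _)).comp Bs.subtype

theorem cA_symm (b : B) : (cA b)ᵀ = cA b := b.2.1
theorem cX_zq (b : B) (q : Q) : cX b (zq * q) = -cX b q := b.2.2.1 q
theorem cX_zero (b : B) {q : Q} (h : ¬ Short q) : cX b q = 0 := b.2.2.2 q h
theorem cX_zs (b : B) (k : K) (q : Q) : cX b (zs k * q) = sg k * cX b q := by
  rcases kc k with rfl | rfl <;> simp [cX_zq]
@[ext] theorem B.ext {a b : B} (h1 : cA a = cA b) (h2 : cX a = cX b) (h3 : cW a = cW b) : a = b :=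
  Subtype.ext (Prod.ext h1 (Prod.ext h2 h3))

/-- an element from its components -/
def mkB (A : Mat) (ξ : Q → F) (w : Ix → F) (h1 : Aᵀ = A) (h2 : ∀ q, ξ (zq * q) = -ξ q) (h3 : ∀ q, ¬ Short q → ξ q = 0) : B :=
  ⟨(A, ξ, w), h1, h2, h3⟩
@[simp] theorem cA_mkB {A ξ w h1 h2 h3} : cA (mkB A ξ w h1 h2 h3) = A := rfl
@[simp] theorem cX_mkB {A ξ w h1 h2 h3} : cX (mkB A ξ w h1 h2 h3) = ξ := rfl
@[simp] theorem cW_mkB {A ξ w h1 h2 h3} : cW (mkB A ξ w h1 h2 h3) = w := rfl

/-- a symmetric matrix as an element -/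
def vA (A : Mat) (h : Aᵀ = A) : B := mkB A 0 0 h (by simp) (by simp)
/-- a tensor as an element -/
def vW : (Ix → F) →ₗ[F] B where
  toFun w := mkB 0 0 w (by simp) (by simp) (by simp)
  map_add' _ _ := B.ext (add_zero _).symm (add_zero _).symm rfl
  map_smul' c _ := B.ext (smul_zero c).symm (smul_zero c).symm rfl
open Classical in
/-- the basis vector of a short element -/
def xv (r : Q) : B := mkB 0 (fun q => if Short r then sig (r * q) else 0) 0 (by simp)
  (fun q => by rw [← mul_assoc, zq_comm, mul_assoc, sig_zq_mul]; split_ifs <;> simp)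
  fun q h => ite_eq_right_iff.2 fun hr => sig_eq_zero (fun e => h (by rwa [← inv_eq_of_mul_eq_one_right e, hr.inv]))
    fun e => h (by rw [eq_inv_mul_of_mul_eq e, hr.inv, zq_comm]; exact (short_zs_mul 1).2 hr)

@[simp] theorem cA_vA (A : Mat) (h) : cA (vA A h) = A := rfl
@[simp] theorem cX_vA (A : Mat) (h) : cX (vA A h) = 0 := rfl
@[simp] theorem cW_vA (A : Mat) (h) : cW (vA A h) = 0 := rfl
@[simp] theorem cA_vW (w : Ix → F) : cA (vW w) = 0 := rfl
@[simp] theorem cX_vW (w : Ix → F) : cX (vW w) = 0 := rfl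
@[simp] theorem cW_vW (w : Ix → F) : cW (vW w) = w := rfl
@[simp] theorem cA_xv (r : Q) : cA (xv r) = 0 := rfl
@[simp] theorem cW_xv (r : Q) : cW (xv r) = 0 := rfl
theorem cX_xv {r : Q} (h : Short r) (q : Q) : cX (xv r) q = sig (r * q) := if_pos h

/-- the bilinear form -/
def be : B →ₗ[F] B →ₗ[F] F := LinearMap.mk₂ F
  (fun a b => (cA a * cA b).trace + 2⁻¹ * (cX a ⬝ᵥ cX b) + 2⁻¹ * (cW a ⬝ᵥ cW b))
  (fun _ _ _ => by simp only [map_add, add_mul, trace_add, add_dotProduct]; ring)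
  (fun _ _ _ => by simp only [map_smul, smul_mul_assoc, trace_smul, smul_dotProduct, smul_eq_mul]; ring)
  (fun _ _ _ => by simp only [map_add, mul_add, trace_add, dotProduct_add]; ring)
  (fun _ _ _ => by simp only [map_smul, mul_smul_comm, trace_smul, dotProduct_smul, smul_eq_mul]; ring)

theorem be_apply (a b : B) : be a b = (cA a * cA b).trace + 2⁻¹ * (cX a ⬝ᵥ cX b) + 2⁻¹ * (cW a ⬝ᵥ cW b) := rfl

/-- the multiplication operator on tensors -/
def Lm : B →ₗ[F] Matrix Ix Ix F where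
  toFun b := (cA b + ((8 : F)⁻¹ * (cA b).trace) • (1 : Mat)) ⊗ₖ (1 : Matrix Cd Cd F) +
    ∑ r, ((16 : F)⁻¹ * cX b r) • ((1 - (2 : F) • R r) ⊗ₖ rho r)
  map_add' a b := by
    simp only [map_add, trace_add, mul_add, add_smul, add_kronecker, Pi.add_apply, Finset.sum_add_distrib]; abel
  map_smul' c a := by
    simp only [map_smul, trace_smul, smul_eq_mul, mul_left_comm _ c, mul_smul, ← smul_add, smul_kronecker, Pi.smul_apply,
      ← Finset.smul_sum, RingHom.id_apply]

theorem Lm_apply (b : B) : Lm b = (cA b + ((8 : F)⁻¹ * (cA b).trace) • (1 : Mat)) ⊗ₖ (1 : Matrix Cd Cd F) +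
    ∑ r, ((16 : F)⁻¹ * cX b r) • ((1 - (2 : F) • R r) ⊗ₖ rho r) := rfl

/-- matrix, short, short -/
def fAX (a b c : B) : F := 2⁻¹ * ∑ r, (cA a * R r).trace * cX b r * cX c r
/-- short, short, short -/
def fXX (a b c : B) : F := 4⁻¹ * ∑ r, ∑ s, cX a r * cX b s * cX c (r * s)⁻¹
/-- anything, tensor, tensor -/
def fW (a b c : B) : F := 2⁻¹ * (cW b ⬝ᵥ Lm a *ᵥ cW c)
/-- the trilinear form as a function -/
def ff (a b c : B) : F := 4 * (cA a * cA b * cA c).trace + (fAX a b c + fAX b a c + fAX c a b) + fXX a b c +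
  (fW a b c + fW b a c + fW c a b)

/-- the trilinear form -/
def fm : B →ₗ[F] B →ₗ[F] B →ₗ[F] F := LinearMap.mk₂ F
  (fun a b => ⟨⟨ff a b, fun _ _ => by
      simp only [ff, fAX, fXX, fW, map_add, mul_add, add_mul, trace_add, Pi.add_apply, Finset.sum_add_distrib, mulVec_add,
        add_mulVec, dotProduct_add]; ring⟩, fun k _ => by
      simp only [ff, fAX, fXX, fW, map_smul, mul_smul_comm, smul_mul_assoc, trace_smul, Pi.smul_apply, smul_eq_mul,
        mulVec_smul, smul_mulVec, dotProduct_smul, RingHom.id_apply, mul_add, Finset.mul_sum, mul_left_comm _ k,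
        mul_assoc k]⟩)
  (fun _ _ _ => LinearMap.ext fun _ => by
      simp only [LinearMap.add_apply, LinearMap.coe_mk, AddHom.coe_mk, ff, fAX, fXX, fW, map_add, mul_add, add_mul, trace_add,
        Pi.add_apply, Finset.sum_add_distrib, add_dotProduct, add_mulVec, mulVec_add, dotProduct_add]; ring)
  (fun k _ _ => LinearMap.ext fun _ => by
      simp only [LinearMap.smul_apply, LinearMap.coe_mk, AddHom.coe_mk, ff, fAX, fXX, fW, map_smul, mul_smul_comm,
        smul_mul_assoc, trace_smul, Pi.smul_apply, smul_eq_mul, smul_dotProduct, smul_mulVec, mulVec_smul, dotProduct_smul, mul_add,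
        Finset.mul_sum, mul_left_comm _ k, mul_assoc k])
  (fun _ _ _ => LinearMap.ext fun _ => by
      simp only [LinearMap.add_apply, LinearMap.coe_mk, AddHom.coe_mk, ff, fAX, fXX, fW, map_add, mul_add, add_mul, trace_add,
        Pi.add_apply, Finset.sum_add_distrib, add_dotProduct, add_mulVec, mulVec_add, dotProduct_add]; ring)
  (fun k _ _ => LinearMap.ext fun _ => by
      simp only [LinearMap.smul_apply, LinearMap.coe_mk, AddHom.coe_mk, ff, fAX, fXX, fW, map_smul, mul_smul_comm,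
        smul_mul_assoc, trace_smul, Pi.smul_apply, smul_eq_mul, smul_dotProduct, smul_mulVec, mulVec_smul, dotProduct_smul, mul_add,
        Finset.mul_sum, mul_left_comm _ k, mul_assoc k])

theorem fm_apply (a b c : B) : fm a b c = 4 * (cA a * cA b * cA c).trace + (fAX a b c + fAX b a c + fAX c a b) +
    fXX a b c + (fW a b c + fW b a c + fW c a b) := rfl

/-- the group of the two forms -/
def GG : Subgroup (B ≃ₗ[F] B) where
  carrier := {g | (∀ a b, be (g a) (g b) = be a b) ∧ ∀ a b c, fm (g a) (g b) (g c) = fm a b c}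
  one_mem' := ⟨fun _ _ => rfl, fun _ _ _ => rfl⟩
  mul_mem' := fun {g h} hg hh => ⟨fun a b => (hg.1 _ _).trans (hh.1 a b), fun a b c => (hg.2 _ _ _).trans (hh.2 a b c)⟩
  inv_mem' := fun {g} hg => ⟨fun a b => by rw [← hg.1]; simp, fun a b c => by rw [← hg.2]; simp⟩

abbrev G : Type := ↥GG

instance finiteB : Finite B := inferInstance
instance finiteG : Finite G := Finite.of_injective (fun g : G => (g.1 : B → B)) fun _ _ h =>
  Subtype.ext (DFunLike.coe_injective h)

end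

end CA.Gr
theorem CA.Gr.realizeEqnsDefs : True := by
  have := @CA.Gr.xv.eq_1
  have := @CA.Gr.xv.eq_def
  have := @CA.Gr.xv.congr_simp
  have := @CA.Gr.ff.eq_1
  have := @CA.Gr.ff.eq_def
  have := @CA.Gr.ff.congr_simp
  have := @CA.Gr.G.eq_1
  have := @CA.Gr.G.eq_def
  have := @CA.Gr.G.congr_simp
  have := @CA.Gr.cW.eq_1
  have := @CA.Gr.cW.eq_def
  have := @CA.Gr.cW.congr_simp
  have := @CA.Gr.fm.eq_1
  have := @CA.Gr.fm.eq_def
  have := @CA.Gr.fm.congr_simp
  have := @CA.Gr.Big.eq_1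
  have := @CA.Gr.Big.eq_def
  have := @CA.Gr.Big.congr_simp
  have := @CA.Gr.fW.eq_1
  have := @CA.Gr.fW.eq_def
  have := @CA.Gr.fW.congr_simp
  have := @CA.Gr.GG.eq_1
  have := @CA.Gr.GG.eq_def
  have := @CA.Gr.GG.congr_simp
  have := @CA.Gr.be.eq_1
  have := @CA.Gr.be.eq_def
  have := @CA.Gr.be.congr_simp
  have := @CA.Gr.Ix.eq_1
  have := @CA.Gr.Ix.eq_def
  have := @CA.Gr.Ix.congr_simp
  have := @CA.Gr.cA.eq_1
  have := @CA.Gr.cA.eq_def
  have := @CA.Gr.cA.congr_simp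
  have := @CA.Gr.vW.eq_1
  have := @CA.Gr.vW.eq_def
  have := @CA.Gr.vW.congr_simp
  have := @CA.Gr.vA.eq_1
  have := @CA.Gr.vA.eq_def
  have := @CA.Gr.vA.congr_simp
  have := @CA.Gr.B.eq_1
  have := @CA.Gr.B.eq_def
  have := @CA.Gr.B.congr_simp
  have := @CA.Gr.Lm.eq_1
  have := @CA.Gr.Lm.eq_def
  have := @CA.Gr.Lm.congr_simp
  have := @CA.Gr.Bs.eq_1
  have := @CA.Gr.Bs.eq_def
  have := @CA.Gr.Bs.congr_simp
  have := @CA.Gr.fXX.eq_1
  have := @CA.Gr.fXX.eq_def
  have := @CA.Gr.fXX.congr_simp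
  have := @CA.Gr.cX.eq_1
  have := @CA.Gr.cX.eq_def
  have := @CA.Gr.cX.congr_simp
  have := @CA.Gr.mkB.eq_1
  have := @CA.Gr.mkB.eq_def
  have := @CA.Gr.mkB.congr_simp
  have := @CA.Gr.Mat.eq_1
  have := @CA.Gr.Mat.eq_def
  have := @CA.Gr.Mat.congr_simp
  have := @CA.Gr.fAX.eq_1
  have := @CA.Gr.fAX.eq_def
  have := @CA.Gr.fAX.congr_simp
  trivial
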