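import Cfsg.Agent.Gr.Defs

/-! Symmetry, nondegeneracy and the values of the forms on the standard vectors. -/

set_option autoImplicit false

namespace CA.Gr

open Cfsg CA.M24 Matrix
open scoped Kronecker

noncomputable section

theorem be_comm (a b : B) : be a b = be b a := by
  rw [be_apply, be_apply, trace_mul_comm, dotProduct_comm (cX a), dotProduct_comm (cW a)]

theorem Lm_symm (a : B) : (Lm a)ᵀ = Lm a := by
  simp only [Lm_apply, transpose_add, transpose_sum, transpose_smul, ← kroneckerMap_transpose, cA_symm, transpose_one,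
    transpose_sub, R_symm, rho_transpose]
  refine congrArg _ (Finset.sum_congr rfl fun r _ => ?_)
  by_cases h : Short r
  · rw [h.inv]
  · simp [cX_zero a h]

theorem cX_inv (a : B) (q : Q) : cX a q⁻¹ = cX a q := by
  by_cases h : Short q
  · rw [h.inv]
  · rw [cX_zero a h, cX_zero a fun k => h (by rw [← inv_inv q, k.inv]; exact k)]

theorem fAX_comm (a b c : B) : fAX a b c = fAX a c b :=
  congrArg _ (Finset.sum_congr rfl fun _ _ => mul_right_comm _ _ _)
theorem fW_comm (a b c : B) : fW a b c = fW a c b := by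
  rw [fW, fW, dotProduct_mulVec, ← mulVec_transpose, Lm_symm, dotProduct_comm]
theorem fXX_swap12 (a b c : B) : fXX a b c = fXX b a c := by
  rw [fXX, fXX, Finset.sum_comm]
  refine congrArg _ (Finset.sum_congr rfl fun s _ => Finset.sum_congr rfl fun r _ => ?_)
  by_cases h : Short r
  · by_cases k : Short s
    · rw [cX_inv c (s * r), _root_.mul_inv_rev, h.inv, k.inv, mul_comm (cX a r)]
    · simp [cX_zero b k]
  · simp [cX_zero a h]
theorem fXX_swap23 (a b c : B) : fXX a b c = fXX a c b := by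
  rw [fXX, fXX]
  refine congrArg _ (Finset.sum_congr rfl fun r _ => ?_)
  by_cases h : Short r
  · refine (Fintype.sum_equiv (Equiv.mulLeft r) _ _ fun s => ?_)
    rw [Equiv.coe_mulLeft, ← mul_assoc r, h.sq, one_mul, cX_inv, cX_inv, mul_right_comm]
  · simp [cX_zero a h]
theorem trace_swap {A A' A'' : Mat} (h : Aᵀ = A) (h' : A'ᵀ = A') (h'' : A''ᵀ = A'') :
    (A * A' * A'').trace = (A' * A * A'').trace := by
  rw [← trace_transpose, transpose_mul, transpose_mul, h, h', h'', trace_mul_comm]

theorem fm_swap12 (a b c : B) : fm a b c = fm b a c := by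
  rw [fm_apply, fm_apply, trace_swap (cA_symm a) (cA_symm b) (cA_symm c), fXX_swap12, fAX_comm c, fW_comm c]; ring
theorem fm_swap23 (a b c : B) : fm a b c = fm a c b := by
  rw [fm_apply, fm_apply, trace_swap (cA_symm a) (cA_symm b) (cA_symm c), trace_mul_cycle (cA a) (cA c), fXX_swap23,
    fAX_comm a, fW_comm a, fAX_comm b, fW_comm b, fAX_comm c, fW_comm c]; ring
theorem fm_rot (a b c : B) : fm a b c = fm b c a := by rw [fm_swap12, fm_swap23]

theorem xv_zs (k : K) (r : Q) : xv (zs k * r) = sg k • xv r := by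
  refine B.ext (by simp) (funext fun q => ?_) (by simp)
  by_cases h : Short r
  · rw [map_smul, Pi.smul_apply, cX_xv h, cX_xv ((short_zs_mul k).2 h), mul_assoc, sig_zs_mul, smul_eq_mul]
  · rw [map_smul, Pi.smul_apply, smul_eq_mul]
    exact (if_neg (mt (short_zs_mul k).1 h)).trans ((congrArg _ (if_neg h)).trans (mul_zero _)).symm

theorem sum_sig {V : Type*} [AddCommGroup V] [Module F V] {r : Q} (h : Short r) (g : Q → V) (hg : g (zq * r) = -g r) :
    ∑ q, sig (r * q) • g q = (2 : F) • g r := by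
  rw [Fintype.sum_eq_add r (zq * r) (zq_mul_ne r).symm fun q e => ?_]
  · rw [← mul_assoc, zq_comm, mul_assoc, h.sq, hg, two_smul]; simp
  · rw [sig_eq_zero (fun k => e.1 (by rw [← inv_eq_of_mul_eq_one_right k, h.inv]))
      fun k => e.2 (by rw [eq_inv_mul_of_mul_eq k, h.inv, zq_comm]), zero_smul]

theorem be_vA (A : Mat) (h) (b : B) : be (vA A h) b = (A * cA b).trace := by simp [be_apply]
theorem be_xv {r : Q} (h : Short r) (b : B) : be (xv r) b = cX b r := by
  have := sum_sig h (cX b) (cX_zq b r)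
  simp only [be_apply, cA_xv, cW_xv, zero_mul, trace_zero, zero_dotProduct, dotProduct, cX_xv h, smul_eq_mul, Pi.zero_apply,
    Finset.sum_const_zero] at *
  grind
theorem be_vW (w : Ix → F) (b : B) : be (vW w) b = 2⁻¹ * (w ⬝ᵥ cW b) := by simp [be_apply]

theorem decomp (b : B) : b = vA (cA b) (cA_symm b) + ∑ r, (2⁻¹ * cX b r) • xv r + vW (cW b) := by
  refine B.ext (by simp) (funext fun q => ?_) (by simp)
  simp only [map_add, map_sum, map_smul, cX_vA, cX_vW, zero_add, add_zero, Finset.sum_apply, Pi.smul_apply, smul_eq_mul]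
  by_cases h : Short q
  · rw [← be_xv h b, be_apply]
    simp only [cA_xv, cW_xv, zero_mul, trace_zero, zero_dotProduct, mul_zero, zero_add, add_zero, dotProduct, Finset.mul_sum,
      Pi.zero_apply, Finset.sum_const_zero]
    refine Finset.sum_congr rfl fun r _ => ?_
    by_cases k : Short r
    · rw [cX_xv h, cX_xv k, sig_comm]; ring
    · simp [cX_zero b k]
  · simp [cX_zero _ h]

theorem eq_zero_of_trace {A : Mat} (h : Aᵀ = A) (H : ∀ S : Mat, Sᵀ = S → (S * A).trace = 0) : A = 0 := by
  ext i j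
  have := H (single i j 1 + single j i 1) (by simp [add_comm])
  have e : A j i = A i j := congrFun (congrFun h i) j
  simp only [add_mul, trace_add, trace_single_mul, one_mul, smul_eq_mul, e] at this
  rw [Matrix.zero_apply]; grind

theorem be_nondeg {a : B} (h : ∀ b, be a b = 0) : a = 0 := by
  refine B.ext (eq_zero_of_trace (cA_symm a) fun S hS => by rw [← be_vA S hS, be_comm, h]) (funext fun q => ?_)
    (funext fun p => ?_)
  · by_cases k : Short q
    · rw [← be_xv k, be_comm, h]; rfl
    · exact cX_zero a k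
  · have := h (vW (Pi.single p 1))
    rw [be_comm, be_vW, single_dotProduct] at this
    simp only [map_zero, Pi.zero_apply]; grind

@[simp] theorem Lm_vW (w : Ix → F) : Lm (vW w) = 0 := by simp [Lm_apply]
theorem Lm_vA (A : Mat) (h) : Lm (vA A h) = (A + ((8 : F)⁻¹ * A.trace) • (1 : Mat)) ⊗ₖ (1 : Matrix Cd Cd F) := by
  simp [Lm_apply]
theorem Lm_xv {r : Q} (h : Short r) : Lm (xv r) = ((8 : F)⁻¹ • (1 - (2 : F) • R r)) ⊗ₖ rho r := by
  have := sum_sig h (fun q => (16 : F)⁻¹ • ((1 - (2 : F) • R q) ⊗ₖ rho q)) (by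
    rw [← zs_one, R_zs_mul, rho_mul, rho_zs, smul_mul_assoc, one_mul, kronecker_smul, smul_comm]; simp)
  simp only [Lm_apply, cA_xv, trace_zero, mul_zero, zero_smul, add_zero, zero_kronecker, zero_add, cX_xv h, smul_smul,
    mul_comm (16⁻¹ : F), smul_kronecker] at *
  rw [this]; congr 1; grind

theorem fm_WW (a : B) (w w' : Ix → F) : fm a (vW w) (vW w') = 2⁻¹ * (w ⬝ᵥ Lm a *ᵥ w') := by
  simp [fm_apply, fAX, fXX, fW]
theorem fm_W {a b : B} (ha : cW a = 0) (hb : cW b = 0) (w : Ix → F) : fm a b (vW w) = 0 := by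
  simp [fm_apply, fAX, fXX, fW, ha, hb]
theorem fm_AA (A A' : Mat) (h h') (c : B) : fm (vA A h) (vA A' h') c = 4 * (A * A' * cA c).trace := by
  simp [fm_apply, fAX, fXX, fW]
theorem fm_AX (A : Mat) (h) {r : Q} (hr : Short r) (c : B) : fm (vA A h) (xv r) c = (A * R r).trace * cX c r := by
  have := sum_sig hr (fun q => (A * R q).trace * cX c q) (by rw [← zs_one, R_zs_mul, cX_zs]; simp)
  simp only [smul_eq_mul, mul_left_comm (sig _), ← mul_assoc] at this
  simp only [fm_apply, fAX, fXX, fW, cA_vA, cX_vA, cW_vA, cA_xv, cW_xv, cX_xv hr, this]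
  simp; grind
theorem fm_XXX {r s u : Q} (hr : Short r) (hs : Short s) (hu : Short u) : fm (xv r) (xv s) (xv u) = sig (r * s * u) := by
  have h1 : ∀ a, ∑ b, sig (s * b) • sig (u * (a * b)) = (2 : F) • sig (u * (a * s)) := fun a =>
    sum_sig hs (fun b => sig (u * (a * b))) (by rw [← mul_assoc a, zq_comm, mul_assoc, ← mul_assoc u, zq_comm, mul_assoc, sig_zq_mul])
  have h2 := sum_sig hr (fun a => (2 : F) • sig (u * (a * s))) (by
    rw [mul_assoc, ← mul_assoc u, zq_comm, mul_assoc, sig_zq_mul, smul_neg])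
  have h3 : fXX (xv r) (xv s) (xv u) = 4⁻¹ * ((2 : F) • (2 : F) • sig (u * (r * s))) := by
    simp only [fXX, cX_inv]
    simp only [← h2]
    simp only [← h1, smul_eq_mul, Finset.mul_sum, cX_xv hr, cX_xv hs, cX_xv hu, mul_assoc]
  simp only [fm_apply, h3, fAX, fW, cA_xv, cW_xv, sig_comm u]
  simp; grind

end

end CA.Gr
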