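import Cfsg.Agent.Gr.Gx

/-! The standard spanning family and its image under the extra automorphism. -/

set_option autoImplicit false

namespace CA.Gr

open Cfsg CA.M24 Matrix
open scoped Kronecker

noncomputable section

attribute [-simp] Fintype.sum_option Fintype.prod_option

/-- `E i j + E j i` -/
def EE (i j : Pt) : Mat := single i j 1 + single j i 1
theorem EE_symm (i j : Pt) : (EE i j)ᵀ = EE i j := by simp [EE, add_comm]

def vD (i : Pt) : B := vA (single i i 1) (transpose_single _ _ _)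
def vJx (i j : Pt) : B := vA (EE i j) (EE_symm i j)
def vJy (i j : Pt) : B := xv (xJ i j) - xv (xP i j)
def vJz (i j : Pt) : B := xv (xJ i j) + xv (xP i j)
/-- `[d] ± [d + Ω]` -/
def tv (k : K) (d : Cd) : Cd → F := Pi.single d 1 + sg k • Pi.single (d + om) 1
/-- `e i ⊗ ([d] ± [d + Ω])` -/
def wv (k : K) (d : Cd) (i : Pt) : Ix → F := fun p => (Pi.single i 1 : Pt → F) p.1 * tv k d p.2
def vY (d : Cd) (i : Pt) : B := vW (wv 1 d i)
def vZ (d : Cd) (i : Pt) : B := vW (wv 0 d i)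
/-- the Hadamard transform -/
def vH (o : Cd) (t : W) : B := (sg (o.1 none) * 16⁻¹) • ∑ n ∈ ev o, sg (t ⬝ᵥ n) • xv (xT o n)
def sX (d : Cd) (i : Pt) : F := sg (d.1 i + d.1 none)
def sY (d : Cd) (i : Pt) : F := sg (pq d.1 + d.1 i + d.1 none)

/-- the index set -/
inductive I
  | D (i : Pt)
  | Jx (i j : Pt) (h : i ≠ j)
  | Jy (i j : Pt) (h : i ≠ j)
  | Jz (i j : Pt) (h : i ≠ j)
  | T (o : Cd) (t : W) (ho : wt o.1 = 8) (ht : t ∈ ev o)
  | X (d : Cd) (i : Pt)
  | Y (d : Cd) (i : Pt)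
  | Z (d : Cd) (i : Pt)

/-- the family -/
def v0 : I → B
  | .D i => vD i
  | .Jx i j _ => vJx i j
  | .Jy i j _ => vJy i j
  | .Jz i j _ => vJz i j
  | .T o t _ _ => xv (xT o t)
  | .X d i => xv (xX d i)
  | .Y d i => vY d i
  | .Z d i => vZ d i

/-- its image -/
def v1 : I → B
  | .D i => vD i
  | .Jx i j _ => vJz i j
  | .Jy i j _ => vJy i j
  | .Jz i j _ => vJx i j
  | .T o t _ _ => vH o t
  | .X d i => sX d i • vZ d i
  | .Y d i => sY d i • vY d i
  | .Z d i => sX d i • xv (xX d i)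

theorem i2 : (2 : F)⁻¹ = 16 := by grind
theorem i4 : (4 : F)⁻¹ = 8 := by grind
theorem i8 : (8 : F)⁻¹ = 4 := by grind
theorem i16 : (16 : F)⁻¹ = 2 := by grind

theorem EE_apply (l m i j : Pt) : EE l m i j = (if l = i ∧ m = j then 1 else 0) + if m = i ∧ l = j then 1 else 0 := rfl

theorem span_v0 : Submodule.span F (Set.range v0) = ⊤ := by
  have h : ∀ a, v0 a ∈ Submodule.span F (Set.range v0) := fun a => Submodule.subset_span ⟨a, rfl⟩
  refine Submodule.eq_top_iff'.2 fun b => ?_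
  rw [decomp b]
  refine add_mem (add_mem ?_ (sum_mem fun r _ => Submodule.smul_mem _ _ ?_)) ?_
  · have : vA (cA b) (cA_symm b) = ∑ i, ∑ j, (2⁻¹ * cA b i j) • vJx i j := by
      refine B.ext ?_ (by simp [vJx]) (by simp [vJx])
      ext i j
      have : cA b j i = cA b i j := congrFun (congrFun (cA_symm b) i) j
      simp [vJx, Matrix.sum_apply, EE_apply, mul_add, Finset.sum_add_distrib, ite_and, this]; grind
    rw [this]
    refine sum_mem fun i _ => sum_mem fun j _ => Submodule.smul_mem _ _ ?_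
    by_cases e : i = j
    · subst e
      rw [show vJx i i = vD i + vD i from B.ext rfl (by simp [vJx, vD]) (by simp [vJx, vD])]
      exact add_mem (h (.D i)) (h (.D i))
    · exact h (.Jx i j e)
  · by_cases hr : Short r
    · obtain ⟨k, r, rfl, ⟨i, j, e, rfl⟩ | ⟨i, j, e, rfl⟩ | ⟨o, t, h1, h2, rfl⟩ | ⟨d, i, rfl⟩⟩ := short_cases hr <;>
        rw [xv_zs] <;> refine Submodule.smul_mem _ _ ?_
      · rw [show xv (xJ i j) = (2⁻¹ : F) • (vJy i j + vJz i j) by
          rw [vJy, vJz, sub_add_add_cancel, ← two_smul F, smul_smul, inv_mul_cancel₀ (by decide), one_smul]]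
        exact Submodule.smul_mem _ _ (add_mem (h (.Jy i j e)) (h (.Jz i j e)))
      · rw [show xv (xP i j) = (2⁻¹ : F) • (vJz i j - vJy i j) by
          rw [vJy, vJz, add_sub_sub_cancel, ← two_smul F, smul_smul, inv_mul_cancel₀ (by decide), one_smul]]
        exact Submodule.smul_mem _ _ (sub_mem (h (.Jz i j e)) (h (.Jy i j e)))
      · exact h (.T o t h1 h2)
      · exact h (.X d i)
    · rw [show xv r = 0 from B.ext rfl (funext fun q => if_neg hr) rfl]; exact zero_mem _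
  · rw [pi_eq_sum_univ' (cW b), map_sum]
    refine sum_mem fun p _ => ?_
    have : (Pi.single p 1 : Ix → F) = (2⁻¹ : F) • (wv 1 p.2 p.1 + wv 0 p.2 p.1) := by
      funext q
      simp only [wv, tv, Pi.smul_apply, Pi.add_apply, smul_eq_mul, sg_one, sg_zero, Pi.single_apply, Prod.ext_iff]
      grind
    rw [map_smul, this, map_smul, map_add]
    exact Submodule.smul_mem _ _ (Submodule.smul_mem _ _ (add_mem (h (.Y p.2 p.1)) (h (.Z p.2 p.1))))

/-! ### tensors -/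

/-- the pairing of `[d] ± [d + Ω]` with `[e] ± [e + Ω]` -/
def dl (k : K) (c : Cd) : F := if c = 0 then 1 else if c = om then sg k else 0

theorem add_eq_zero_cd {d e : Cd} : d + e = 0 ↔ e = d :=
  ⟨fun h => by rw [← zero_add e, ← c_add_self d, add_assoc, h, add_zero], fun h => by simp [h]⟩
theorem add_eq_om {d e : Cd} : d + e = om ↔ e = d + om :=
  ⟨fun h => by rw [← h, ← add_assoc, c_add_self, zero_add], fun h => by simp [h, ← add_assoc]⟩
theorem dl_add_om (k : K) (c : Cd) : dl k (c + om) = sg k * dl k c := by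
  have := om_ne_zero
  simp only [dl, add_eq_zero_cd, add_eq_right, eq_comm (a := om)]
  split_ifs <;> simp_all
theorem dl_add_smul (k a : K) (c : Cd) : dl k (c + a • om) = sg (a * k) * dl k c := by
  rcases kc a with rfl | rfl <;> simp [dl_add_om]
@[simp] theorem dl_zero (k : K) : dl k 0 = 1 := if_pos rfl
theorem dl_congr {k : K} {d e : Cd} {x y : F} (h : e = d ∨ e = d + om → x = y) : x * dl k (d + e) = y * dl k (d + e) := by
  by_cases h1 : e = d ∨ e = d + om
  · rw [h h1]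
  · rw [not_or] at h1
    rw [dl, if_neg (mt add_eq_zero_cd.1 h1.1), if_neg (mt add_eq_om.1 h1.2), mul_zero, mul_zero]

theorem rho_single (q : Q) (e : Cd) : rho q *ᵥ Pi.single e 1 = sg (q.s + q.x e) • Pi.single (e + q.d) 1 := by
  funext c; simp [rho_apply, Pi.single_apply]
theorem rho_tv (q : Q) (k : K) (e : Cd) : rho q *ᵥ tv k e = sg (q.s + q.x e) • tv (k + q.x om) (e + q.d) := by
  rw [tv, tv, mulVec_add, mulVec_smul, rho_single, rho_single, smul_add, smul_smul, smul_smul, add_right_comm e, map_add,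
    ← sg_add, ← sg_add]
  congr 3; ring
theorem tv_apply (k : K) (d e : Cd) : tv k e d = dl k (d + e) := by
  have := om_ne_zero
  simp only [tv, Pi.add_apply, Pi.smul_apply, Pi.single_apply, smul_eq_mul, dl, add_comm d, add_eq_zero_cd, add_eq_om]
  split_ifs <;> simp_all
theorem tv_dot (k : K) (d e : Cd) : tv k d ⬝ᵥ tv k e = 2 * dl k (d + e) := by
  have h := sg_mul_self k
  rw [tv, add_dotProduct, smul_dotProduct, single_dotProduct, single_dotProduct, tv_apply, tv_apply, add_right_comm, dl_add_om,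
    smul_eq_mul]
  grind
theorem kron_wv (M : Mat) (N : Matrix Cd Cd F) (k k' : K) (d e : Cd) (i j : Pt) :
    wv k d i ⬝ᵥ (M ⊗ₖ N) *ᵥ wv k' e j = M i j * (tv k d ⬝ᵥ N *ᵥ tv k' e) := by
  simp only [dotProduct, mulVec, wv, Fintype.sum_prod_type, kroneckerMap_apply, Pi.single_apply, ite_mul, one_mul, zero_mul,
    mul_ite, mul_zero, Finset.sum_ite_irrel, Finset.sum_const_zero, Finset.sum_ite_eq', Finset.mem_univ, if_true,
    Finset.mul_sum, mul_assoc, mul_left_comm (M i j)]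
theorem fm_wv {a : B} {M : Mat} {q : Q} (h : Lm a = M ⊗ₖ rho q) {k k' : K} (hk : k' + q.x om = k) (d e : Cd) (i j : Pt) :
    fm a (vW (wv k d i)) (vW (wv k' e j)) = M i j * sg (q.s + q.x e) * dl k (d + e + q.d) := by
  rw [fm_WW, h, kron_wv, rho_tv, hk, dotProduct_smul, tv_dot, add_assoc, smul_eq_mul]; grind
theorem be_wv (k : K) (d e : Cd) (i j : Pt) : be (vW (wv k d i)) (vW (wv k e j)) = (1 : Mat) i j * dl k (d + e) := by
  have := kron_wv 1 1 k k d e i j
  rw [one_kronecker_one, one_mulVec, one_mulVec, tv_dot] at this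
  rw [be_vW, cW_vW, this]; grind
theorem iota_wv {q : Q} (k : K) (d : Cd) (i : Pt) :
    (iota q).1 (vW (wv k d i)) = sg (q.s + q.x d) • vW (wv (k + q.x om) (d + q.d) i) := by
  rw [iota_vW, ← map_smul]
  congr 1
  funext p
  have := congrFun (rho_tv q k d) p.2
  simp only [mulVec, dotProduct, Pi.smul_apply, smul_eq_mul] at this
  simp only [mulVec, dotProduct, wv, Fintype.sum_prod_type, kroneckerMap_apply, Pi.single_apply, one_apply, Pi.smul_apply,
    smul_eq_mul, ite_mul, one_mul, zero_mul, mul_ite, mul_zero, Finset.sum_ite_irrel, Finset.sum_const_zero,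
    Finset.sum_ite_eq', Finset.mem_univ, if_true, this]
theorem wv_add_om (k : K) (d : Cd) (i : Pt) : wv k (d + om) i = sg k • wv k d i := by
  funext p
  have := sg_mul_self k
  simp only [wv, tv, Pi.add_apply, Pi.smul_apply, smul_eq_mul, add_assoc, c_add_self, add_zero]; grind

/-! ### gradings -/

def gz : I → K
  | .Y _ _ => 1
  | .Z _ _ => 1
  | _ => 0
def gO : I → K
  | .X _ _ => 1
  | .Y _ _ => 1
  | _ => 0
/-- an eigenvector -/
def Eig (q : Q) (k : K) (b : B) : Prop := (iota q).1 b = sg k • b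

theorem Eig.add {q k a b} (h : Eig q k a) (h' : Eig q k b) : Eig q k (a + b) := by
  unfold Eig at *; rw [map_add, h, h', smul_add]
theorem Eig.sub {q k a b} (h : Eig q k a) (h' : Eig q k b) : Eig q k (a - b) := by
  unfold Eig at *; rw [map_sub, h, h', smul_sub]
theorem Eig.smul {q k a} (h : Eig q k a) (c : F) : Eig q k (c • a) := by
  unfold Eig at *; rw [map_smul, h, smul_comm]
theorem eig_vA (q : Q) (A h) : Eig q 0 (vA A h) := by simp [Eig, iota_vA]
theorem eig_xv {q r : Q} {k : K} (h : cm q r = k) : Eig q k (xv r) := h ▸ iota_xv q r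
theorem eig_vH {q : Q} {k : K} {o : Cd} (t : W) (h : ∀ n ∈ ev o, cm q (xT o n) = k) : Eig q k (vH o t) := by
  refine Eig.smul ?_ _
  rw [Eig, map_sum, Finset.smul_sum]
  exact Finset.sum_congr rfl fun n hn => (eig_xv (h n hn)).smul _
theorem eig_z_wv (k : K) (d : Cd) (i : Pt) : Eig zq 1 (vW (wv k d i)) := by simp [Eig, iota_wv]
theorem eig_O_wv (k : K) (d : Cd) (i : Pt) : Eig xO k (vW (wv k d i)) := by simp [Eig, iota_wv, wv_add_om]
theorem Eig.fm {q k l m a b c} (h : Eig q k a) (h' : Eig q l b) (h'' : Eig q m c) (e : k + l + m = 1) : fm a b c = 0 := by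
  have := (iota q).2.2 a b c
  rw [h, h', h''] at this
  simp only [map_smul, LinearMap.smul_apply, smul_eq_mul, ← mul_assoc, ← sg_add] at this
  rw [show m + (l + k) = 1 by rw [← e]; ring, sg_one] at this
  grind
theorem Eig.be {q k l a b} (h : Eig q k a) (h' : Eig q l b) (e : k + l = 1) : be a b = 0 := by
  have := (iota q).2.1 a b
  rw [h, h'] at this
  simp only [map_smul, LinearMap.smul_apply, smul_eq_mul, ← mul_assoc, ← sg_add] at this
  rw [add_comm, e, sg_one] at this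
  grind

theorem cm_zq (r : Q) : cm zq r = 0 := by simp [cm]
theorem cm_xO (r : Q) : cm xO r = r.x om := by simp [cm]
theorem xJ_om (i j : Pt) : (xJ i j).x om = 0 := by simp [xJ]
theorem xP_om (i j : Pt) : (xP i j).x om = 0 := by simp [xP]
theorem xT_om {o : Cd} {t : W} (h : t ∈ ev o) : (xT o t).x om = 0 := by simp [xT, dot_om, (mem_ev.1 h).2]
theorem xX_om (d : Cd) (i : Pt) : (xX d i).x om = 1 := by simp [xX]

theorem eig_J {q : Q} (h : ∀ i j, cm q (xJ i j) = 0 ∧ cm q (xP i j) = 0) (i j : Pt) :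
    Eig q 0 (vD i) ∧ Eig q 0 (vJx i j) ∧ Eig q 0 (vJy i j) ∧ Eig q 0 (vJz i j) :=
  ⟨eig_vA _ _ _, eig_vA _ _ _, (eig_xv (h i j).1).sub (eig_xv (h i j).2), (eig_xv (h i j).1).add (eig_xv (h i j).2)⟩

theorem eig_all (a : I) : Eig zq (gz a) (v0 a) ∧ Eig xO (gO a) (v0 a) ∧ Eig zq (gO a) (v1 a) ∧ Eig xO (gz a) (v1 a) := by
  have h1 := eig_J (q := zq) fun i j => ⟨cm_zq _, cm_zq _⟩
  have h2 := eig_J (q := xO) fun i j => ⟨(cm_xO _).trans (xJ_om i j), (cm_xO _).trans (xP_om i j)⟩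
  have h3 : ∀ d i, Eig xO 1 (xv (xX d i)) := fun d i => eig_xv ((cm_xO _).trans (xX_om d i))
  cases a with
  | D i => exact ⟨(h1 i i).1, (h2 i i).1, (h1 i i).1, (h2 i i).1⟩
  | Jx i j => exact ⟨(h1 i j).2.1, (h2 i j).2.1, (h1 i j).2.2.2, (h2 i j).2.2.2⟩
  | Jy i j => exact ⟨(h1 i j).2.2.1, (h2 i j).2.2.1, (h1 i j).2.2.1, (h2 i j).2.2.1⟩
  | Jz i j => exact ⟨(h1 i j).2.2.2, (h2 i j).2.2.2, (h1 i j).2.1, (h2 i j).2.1⟩
  | T o t ho ht => exact ⟨eig_xv (cm_zq _), eig_xv ((cm_xO _).trans (xT_om ht)), eig_vH _ fun _ _ => cm_zq _,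
      eig_vH _ fun n hn => (cm_xO _).trans (xT_om hn)⟩
  | X d i => exact ⟨eig_xv (cm_zq _), h3 d i, (eig_z_wv _ _ _).smul _, (eig_O_wv _ _ _).smul _⟩
  | Y d i => exact ⟨eig_z_wv _ _ _, eig_O_wv _ _ _, (eig_z_wv _ _ _).smul _, (eig_O_wv _ _ _).smul _⟩
  | Z d i => exact ⟨eig_z_wv _ _ _, eig_O_wv _ _ _, (eig_xv (cm_zq _)).smul _, (h3 d i).smul _⟩

theorem exists_sep {o : Cd} (ho : wt o.1 = 8) : ∃ q, (∀ i j, cm q (xJ i j) = 0 ∧ cm q (xP i j) = 0) ∧ ∀ t, cm q (xT o t) = 1 := by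
  obtain ⟨i, hi⟩ : ∃ i, o.1 i = 1 := by_contra fun h => by
    rw [show o.1 = 0 from funext fun i => (kc _).resolve_right fun e => h ⟨i, e⟩, wt_zero] at ho; omega
  obtain ⟨j, hj⟩ : ∃ i, o.1 i = 0 := by_contra fun h => by
    rw [show o.1 = 1 from funext fun i => (kc _).resolve_left fun e => h ⟨i, e⟩, wt_one] at ho; omega
  exact ⟨xJ i j, fun _ _ => ⟨by simp [cm, xJ], by simp [cm, xJ, xP]⟩, fun t => by simp [cm, xJ, xT, hi, hj, add_assoc]⟩

end

end CA.Gr
theorem CA.Gr.realizeEqnsFam : True := by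
  have := @CA.Gr.vH.eq_1
  have := @CA.Gr.vH.eq_def
  have := @CA.Gr.vH.congr_simp
  have := @CA.Gr.v0.eq_1
  have := @CA.Gr.v0.eq_2
  have := @CA.Gr.v0.eq_3
  have := @CA.Gr.v0.eq_4
  have := @CA.Gr.v0.eq_5
  have := @CA.Gr.v0.eq_6
  have := @CA.Gr.v0.eq_7
  have := @CA.Gr.v0.eq_8
  have := @CA.Gr.v0.eq_def
  have := @CA.Gr.v0.congr_simp
  have := @CA.Gr.vY.eq_1
  have := @CA.Gr.vY.eq_def
  have := @CA.Gr.vY.congr_simp
  have := @CA.Gr.vJy.eq_1
  have := @CA.Gr.vJy.eq_def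
  have := @CA.Gr.vJy.congr_simp
  have := @CA.Gr.vD.eq_1
  have := @CA.Gr.vD.eq_def
  have := @CA.Gr.vD.congr_simp
  have := @CA.Gr.Eig.eq_1
  have := @CA.Gr.Eig.eq_def
  have := @CA.Gr.Eig.congr_simp
  have := @CA.Gr.gz.eq_1
  have := @CA.Gr.gz.eq_2
  have := @CA.Gr.gz.eq_3
  have := @CA.Gr.gz.eq_def
  have := @CA.Gr.gz.congr_simp
  have := @CA.Gr.tv.eq_1
  have := @CA.Gr.tv.eq_def
  have := @CA.Gr.tv.congr_simp
  have := @CA.Gr.sX.eq_1
  have := @CA.Gr.sX.eq_def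
  have := @CA.Gr.sX.congr_simp
  have := @CA.Gr.vJz.eq_1
  have := @CA.Gr.vJz.eq_def
  have := @CA.Gr.vJz.congr_simp
  have := @CA.Gr.gO.eq_1
  have := @CA.Gr.gO.eq_2
  have := @CA.Gr.gO.eq_3
  have := @CA.Gr.gO.eq_def
  have := @CA.Gr.gO.congr_simp
  have := @CA.Gr.vZ.eq_1
  have := @CA.Gr.vZ.eq_def
  have := @CA.Gr.vZ.congr_simp
  have := @CA.Gr.vJx.eq_1
  have := @CA.Gr.vJx.eq_def
  have := @CA.Gr.vJx.congr_simp
  have := @CA.Gr.EE.eq_1
  have := @CA.Gr.EE.eq_def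
  have := @CA.Gr.EE.congr_simp
  have := @CA.Gr.sY.eq_1
  have := @CA.Gr.sY.eq_def
  have := @CA.Gr.sY.congr_simp
  have := @CA.Gr.dl.eq_1
  have := @CA.Gr.dl.eq_def
  have := @CA.Gr.dl.congr_simp
  have := @CA.Gr.v1.eq_1
  have := @CA.Gr.v1.eq_2
  have := @CA.Gr.v1.eq_3
  have := @CA.Gr.v1.eq_4
  have := @CA.Gr.v1.eq_5
  have := @CA.Gr.v1.eq_6
  have := @CA.Gr.v1.eq_7
  have := @CA.Gr.v1.eq_8
  have := @CA.Gr.v1.eq_def
  have := @CA.Gr.v1.congr_simp
  have := @CA.Gr.wv.eq_1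
  have := @CA.Gr.wv.eq_def
  have := @CA.Gr.wv.congr_simp
  trivial
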