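import Cfsg.Agent.Gr.Lam
import Cfsg.Agent.Typ.C4
import Cfsg.Agent.Typ.B1

/-! From the local data to a simple group of Monster type. -/

set_option autoImplicit false

namespace CA.Gr

open Cfsg CA.M24 Subgroup CA.Fi

local notation "Λ" => leechLattice

/-- `h` induces the lattice automorphism `γ` -/
def Ind {G : Type} [Group G] (ι : Q →* G) (h : G) (γ : Co0) : Prop :=
  ∀ q v, Lam q v → ∃ q', h * ι q * h⁻¹ = ι q' ∧ Lam q' (act γ v)

open CA.Typ Cfsg.Agent.Orth in
set_option synthInstance.maxSize 2000 in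
set_option synthInstance.maxHeartbeats 200000 in
theorem simple_Co1 : IsSimpleGroup Spor.Co1 := by
  haveI : Finite Spor.Co1 := Finite.of_surjective mk1 mk1_surj
  obtain ⟨Qs, h⟩ := th_Co1
  obtain ⟨π, hm⟩ := h.model8p
  obtain ⟨φ, o, r⟩ := exists_OS h.left hm (h.cQ ▸ h.cH) index8p card_q8p (by decide)
    (refl_nmem hm.nondeg (by simp; omega))
  haveI : IsSimpleGroup φ.range := r ▸ simple8p
  have k : ∀ v, hadd q6p v = 0 ∨ ∃ u, hadd q6p u = 0 ∧ hadd q6p (v - u) = 0 := by qdec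
  exact o.simple (by rw [h.cQ]; decide) h.nwc (by qdec) fun v =>
    (k v).imp_right fun ⟨u, a, b⟩ => ⟨u, v - u, a, b, (add_sub_cancel u v).symm⟩

theorem simple_of_LE {G : Type*} [Group G] [Finite G] {P : Subgroup G} {z : G} (L : LE P z) (h8 : 8 < Nat.card P)
    (nwc : ∃ g : G, g * z * g⁻¹ ∈ P ∧ g * z * g⁻¹ ≠ z) {Y : Type*} [Group Y] [IsSimpleGroup Y]
    (φ : centralizer ({z} : Set G) →* Y) (hs : Function.Surjective φ) (hk : ∀ g, φ g = 1 → g.1 ∈ P)
    (irr : ∀ N : Subgroup G, N.Normal → z ∈ N → P ≤ N) : IsSimpleGroup G := by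
  obtain ⟨g, m, ne⟩ := nwc
  have R := L.pair m (L.mem_conj h8 m) ne.symm
  haveI : Nontrivial G := ⟨z, 1, L.z_ne⟩
  refine ⟨fun N hN => or_iff_not_imp_left.2 fun hb => ?_⟩
  obtain ⟨s, s1, s2⟩ := R.exists_s
  have zN : z ∈ N := by_contra fun hz => hb (PM.normal_eq_bot L.z_sq (isConj_iff.2 ⟨g, rfl⟩)
    (isConj_iff.2 ⟨s * g, by rw [← (R.conj_s s1 s2).2.1]; group⟩) fun x hx c => congrArg Subtype.val
      (PM.LE_inj L L.le_cent (fun _ => mem_cent_iff.1) ((QuotientGroup.mk' N).comp (centralizer {z}).subtype)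
        (fun e => hz ((QuotientGroup.eq_one_iff z).1 e)) (a₁ := ⟨x, mem_cent_iff.2 c⟩) (a₂ := 1)
        (((QuotientGroup.eq_one_iff x).2 hx).trans (map_one _).symm)))
  have QN : P ≤ N := irr N hN zN
  have HN : centralizer {z} ≤ N := by
    have n := (hN.subgroupOf (centralizer {z})).map φ hs
    rcases n.eq_bot_or_eq_top with e | e
    · obtain ⟨x, x1, y, y1, x2, y2, c⟩ := R.right.exists_pair_cent R.z_mem
        (by rw [card_map_of_injective (MulAut.conj g).injective]; exact h8)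
      have t : ∀ x ∈ P.map (MulAut.conj g).toMonoidHom, Commute x z → x ∈ P := by
        rintro _ ⟨x, hx, rfl⟩ c
        have : φ ⟨_, mem_cent_iff.2 c⟩ ∈ (⊥ : Subgroup _) := e ▸ ⟨_, hN.conj_mem x (QN hx) g, rfl⟩
        exact hk _ (mem_bot.1 this)
      have a := t x x1 x2
      have b := t y y1 y2
      exact absurd (commute_of_sq_eq_one (R.E_sq ⟨a, x1⟩) (R.E_sq ⟨b, y1⟩)
        (by rw [pow_two]; exact R.E_sq ⟨mul_mem a b, mul_mem x1 y1⟩)) c
    · intro x hx
      obtain ⟨y, hy, r⟩ : φ ⟨x, hx⟩ ∈ _ := e ▸ mem_top _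
      have : φ (y⁻¹ * ⟨x, hx⟩) = 1 := by rw [map_mul, map_inv, r]; simp
      exact (mul_mem_cancel_left (inv_mem (show y.1 ∈ N from hy))).1 (QN (hk _ this))
  obtain ⟨T, hT⟩ := (L.isPGroup.comap_subtype (K := N)).exists_le_sylow
  have c : ∀ x ∈ T.1.map N.subtype, (∀ y ∈ T.1.map N.subtype, Commute x y) → x = 1 ∨ x = z := fun x _ hx =>
    L.cent' fun y hy => hx y ⟨⟨y, QN hy⟩, hT hy, rfl⟩
  have zT : z ∈ T.1.map N.subtype := ⟨⟨z, zN⟩, hT L.z_mem, rfl⟩
  have cz : ∀ y ∈ T.1.map N.subtype, Commute z y := by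
    haveI : Nontrivial (T.1.map N.subtype) := ⟨⟨z, zT⟩, 1, fun e => L.z_ne (congrArg Subtype.val e)⟩
    haveI := (T.isPGroup'.map N.subtype).center_nontrivial
    obtain ⟨x, hx⟩ := exists_ne (1 : center (T.1.map N.subtype))
    have e : ∀ y ∈ T.1.map N.subtype, Commute x.1.1 y := fun y hy =>
      (congrArg Subtype.val (mem_center_iff.1 x.2 ⟨y, hy⟩)).symm
    exact ((c _ x.1.2 e).resolve_left fun r => hx (Subtype.ext (Subtype.ext r))) ▸ e
  rw [← T.normalizer_sup_eq_top, sup_eq_right.2 fun y hy => HN (mem_cent_iff.2 (conj_eq_iff_commute.1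
    ((c _ ((mem_normalizer_iff.1 hy _).1 zT) fun x hx => commute_conj_left_iff.2 (cz _ ((mem_normalizer_iff''.1 hy _).1 hx))
      ).resolve_left fun e => L.z_ne (by simpa using e))))]

section

variable {G : Type} [Group G] {ι : Q →* G}

theorem kc' (k : K) : k = 0 ∨ k = 1 := by revert k; decide

theorem Ind.mul {h h' : G} {γ γ' : Co0} (a : Ind ι h γ) (b : Ind ι h' γ') : Ind ι (h * h') (γ * γ') := by
  intro q v l
  obtain ⟨q1, e1, l1⟩ := b q v l
  obtain ⟨q2, e2, l2⟩ := a q1 _ l1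
  exact ⟨q2, by rw [← e2, ← e1]; group, by rwa [act_mul]⟩

theorem Ind.inv {h : G} {γ : Co0} (c : Commute h (ι zq)) (a : Ind ι h γ) : Ind ι h⁻¹ γ⁻¹ := by
  intro q v l
  obtain ⟨q1, l1⟩ := exists_lam (act_mem γ⁻¹ l.mem)
  obtain ⟨q2, e2, l2⟩ := a q1 _ l1
  rw [act_act_inv] at l2
  rcases l2.uniq l with r | r
  · exact ⟨q1, by rw [r, ← e2]; group, l1⟩
  · refine ⟨zq * q1, ?_, l1.zq_mul⟩
    rw [r, map_mul, map_mul, ← e2, inv_inv, ← mul_assoc, ← mul_assoc, ← mul_assoc, c.inv_left.eq]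
    group

theorem Ind.ng {h : G} {γ : Co0} (a : Ind ι h γ) : Ind ι h (ng * γ) := by
  intro q v l
  obtain ⟨q1, e1, l1⟩ := a q v l
  exact ⟨q1, e1, by rw [act_mul, act_ng (act_mem _ l.mem)]; exact l1.neg⟩

theorem ind_self (a : Q) : Ind ι (ι a) 1 := fun q v l =>
  ⟨zs (cm a q) * q, by rw [← map_inv, ← map_mul, ← map_mul, conj_eq], by rw [act_one]; exact l.zs_mul _⟩

theorem Ind.uniq (inj : Function.Injective ι) {h : G} {γ γ' : Co0} (a : Ind ι h γ) (b : Ind ι h γ') :
    Typ.mk1 γ = Typ.mk1 γ' := by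
  rw [← inv_mul_eq_one, ← map_inv, ← map_mul, Typ.mk1_eq_one]
  refine eq_of_cong_all fun v hv => ?_
  obtain ⟨q, l⟩ := exists_lam hv
  obtain ⟨q1, e1, l1⟩ := a q v l
  obtain ⟨q2, e2, l2⟩ := b q v l
  obtain rfl := inj (e1.symm.trans e2)
  have := (l2.cong l1).act (act_mem _ hv) γ⁻¹
  rwa [act_inv_act, ← act_mul] at this

theorem Ind.of_mk {h : G} {γ γ' : Co0} (a : Ind ι h γ) (e : Typ.mk1 γ' = Typ.mk1 γ) : Ind ι h γ' := by
  rcases Typ.mk1_eq.1 e with rfl | rfl
  exacts [a, a.ng]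

theorem es_range (inj : Function.Injective ι) : ES ι.range (ι zq) := by
  refine ⟨⟨_, rfl⟩, fun e => zq_ne_one (inj (e.trans (map_one ι).symm)), by rw [← map_mul, zq_mul_zq, map_one],
    ?_, ?_, ?_, ⟨_, ⟨xO, rfl⟩, fun e => ?_, fun e => ?_⟩⟩
  · rintro _ ⟨a, rfl⟩
    exact (show Commute zq a from (zq_comm a).symm).map ι
  · rintro _ ⟨a, rfl⟩ h
    refine (central (a := a) fun b => ?_).imp (fun e => by rw [e, map_one]) fun e => by rw [e]
    have e : a * b = b * a := inj (by rw [map_mul, map_mul]; exact (h _ ⟨b, rfl⟩).eq)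
    rcases kc' (cm a b) with r | r
    · exact r
    · have := mul_comm_cm a b
      rw [r, zs_one, e] at this
      exact absurd this.symm (zq_mul_ne _)
  · rintro _ ⟨a, rfl⟩ _ ⟨b, rfl⟩
    have := mul_comm_cm a b
    rcases kc' (cm a b) with r | r
    · rw [r, zs_zero, one_mul] at this
      exact Or.inl ((show Commute a b from this).map ι)
    · rw [r, zs_one, ← zq_comm] at this
      exact Or.inr (by rw [← map_mul, this, map_mul, map_mul])
  · have := (lam_xO none)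
    rw [inj (e.trans (map_one ι).symm)] at this
    exact not_cong_zero (by rw [sqNorm_e8]; norm_num) (by rw [sqNorm_e8]) this.cong_zero
  · have := (lam_xO none).zq_mul
    rw [inj e, zq_mul_zq] at this
    exact not_cong_zero (by rw [sqNorm_e8]; norm_num) (by rw [sqNorm_e8]) this.cong_zero

end

theorem final {G : Type} [Group G] [Finite G] (ι : Q →* G) (inj : Function.Injective ι)
    (h1 : ∀ γ, ∃ h, Commute h (ι zq) ∧ Ind ι h γ) (h2 : ∀ h, Commute h (ι zq) → ∃ γ, Ind ι h γ)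
    (h3 : ∀ h, Commute h (ι zq) → Ind ι h 1 → ∃ q, h = ι q) (h4 : ∃ σ : G, σ * ι zq * σ⁻¹ = ι xO) :
    IsSimpleGroup G ∧ ¬ IsMulCommutative G ∧ IsGroupOfMonsterType G := by
  have E := es_range inj
  have L : LE ι.range (ι zq) := by
    refine ⟨E, fun c hc => ?_, fun c hc => ?_⟩
    · obtain ⟨q, e⟩ := h3 c (hc _ ⟨_, rfl⟩) fun q v l =>
        ⟨q, conj_eq_iff_commute.2 (hc _ ⟨q, rfl⟩), by rwa [act_one]⟩
      exact ⟨q, e.symm⟩
    · rintro _ ⟨q, rfl⟩
      obtain ⟨γ, a⟩ := h2 c hc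
      obtain ⟨v, l⟩ := exists_vec q
      obtain ⟨q', e, -⟩ := a q v l
      exact ⟨q', e.symm⟩
  have hc : Nat.card ι.range = 2 ^ (2 * 12 + 1) := by
    rw [← Nat.card_congr (MonoidHom.ofInjective inj).toEquiv, card_Q]
  have ne : ι xO ≠ ι zq := fun e => by
    have := (lam_xO none).zq_mul
    rw [inj e, zq_mul_zq] at this
    exact not_cong_zero (by rw [sqNorm_e8]; norm_num) (by rw [sqNorm_e8]) this.cong_zero
  have nwc : ∃ g : G, g * ι zq * g⁻¹ ∈ ι.range ∧ g * ι zq * g⁻¹ ≠ ι zq :=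
    h4.imp fun σ e => by rw [e]; exact ⟨⟨_, rfl⟩, ne⟩
  haveI hn := normal_of_LE L
  obtain ⟨e, he⟩ := exists_equiv_of_rel (ι.range.subgroupOf (centralizer {ι zq}))
    (fun (h : centralizer ({ι zq} : Set G)) (y : Spor.Co1) => ∃ γ, Typ.mk1 γ = y ∧ Ind ι h γ)
    (by rintro d _ d' _ ⟨γ, rfl, a⟩ ⟨γ', rfl, b⟩; exact ⟨γ * γ', map_mul _ _ _, a.mul b⟩)
    (by rintro d _ ⟨γ, rfl, a⟩; exact ⟨γ⁻¹, map_inv _ _, a.inv (mem_cent_iff.1 d.2)⟩)
    (fun d => (h2 d (mem_cent_iff.1 d.2)).elim fun γ a => ⟨_, γ, rfl, a⟩)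
    (fun y => by
      obtain ⟨γ, rfl⟩ := Typ.mk1_surj y
      obtain ⟨h, c, a⟩ := h1 γ
      exact ⟨⟨h, mem_cent_iff.2 c⟩, γ, rfl, a⟩)
    (by
      rintro d _ ⟨γ, rfl, a⟩
      constructor
      · rintro ⟨q, r⟩
        have b := ind_self (ι := ι) q
        rw [r] at b
        exact (a.uniq inj b).trans (map_one _)
      · intro r
        obtain ⟨q, r⟩ := h3 d (mem_cent_iff.1 d.2) (a.of_mk ((map_one _).trans r.symm))
        exact ⟨q, r.symm⟩)
  haveI := simple_Co1
  haveI : Finite Spor.Co1 := Finite.of_surjective Typ.mk1 Typ.mk1_surj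
  have h3d : 3 ∣ Nat.card Spor.Co1 :=
    Dvd.dvd.trans (by rw [Typ.card_cent_zb]; decide) (card_subgroup_dvd_card (centralizer {Typ.zb}))
  have S := setting_of_LE L hc e (Typ.O2_of_simple h3d) nwc
  refine ⟨simple_of_LE L (by rw [hc]; norm_num) nwc (e.toMonoidHom.comp (QuotientGroup.mk' _))
    (e.surjective.comp (QuotientGroup.mk'_surjective _))
    (fun g r => (QuotientGroup.eq_one_iff g).1 (e.map_eq_one_iff.1 r)) fun N hN zN => ?_, fun c => ?_,
    ι zq, _, hn, S, e, ?_⟩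
  · let M : AddSubgroup Vec :=
      { carrier := {v | ∃ q, Lam q v ∧ ι q ∈ N}
        zero_mem' := ⟨1, lam_one, by rw [map_one]; exact one_mem _⟩
        add_mem' := by
          rintro _ _ ⟨q, l, m⟩ ⟨q', l', m'⟩
          exact ⟨q * q', l.mul l', by rw [map_mul]; exact mul_mem m m'⟩
        neg_mem' := by
          rintro _ ⟨q, l, m⟩
          exact ⟨q, l.neg, m⟩ }
    have := irreducible_mod_two (M := M) (fun v hv => ⟨1, lam_one.of_cong (by
        rw [two_zsmul]; exact cong_add_self hv), by rw [map_one]; exact one_mem _⟩)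
      (by
        rintro γ v - ⟨q, l, m⟩
        obtain ⟨h, -, a⟩ := h1 γ
        obtain ⟨q', r, l'⟩ := a q v l
        exact ⟨q', l', r ▸ hN.conj_mem _ m h⟩)
      (e8_mem none) ⟨xO, lam_xO none, h4.elim fun σ r => r ▸ hN.conj_mem _ zN σ⟩
      (not_cong_zero (by rw [sqNorm_e8]; norm_num) (by rw [sqNorm_e8]))
    rintro _ ⟨q, rfl⟩
    obtain ⟨v, l⟩ := exists_vec q
    obtain ⟨q', l', m⟩ := this v l.mem
    rcases l'.uniq l with rfl | rfl
    exacts [m, by rw [map_mul]; exact mul_mem zN m]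
  · obtain ⟨g, -, r⟩ := nwc
    exact r (by rw [c.is_comm.comm g]; simp)
  · have E' := E.subgroupOf L.le_cent
    let j : Q →* ι.range.subgroupOf (centralizer {ι zq}) :=
      (ι.codRestrict _ fun q => L.le_cent ⟨q, rfl⟩).codRestrict _ fun q => ⟨q, rfl⟩
    let p := (QuotientGroup.mk' (center _)).comp j
    have pz : p zq = 1 := (QuotientGroup.eq_one_iff _).2 ((mem_center_ES E' _).2 (Or.inr rfl))
    have pu : ∀ {q q' v}, Lam q v → Lam q' v → p q' = p q := fun l l' => by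
      rcases l.uniq l' with rfl | rfl
      exacts [rfl, by rw [map_mul, pz, one_mul]]
    choose f hf using fun v : Λ => exists_lam v.2
    have js : ∀ x, ∃ q, j q = x := fun x => x.2.imp fun q r => Subtype.ext (Subtype.ext r)
    refine ⟨fun v => p (f v), fun v w => ?_, fun x => ?_, fun v => ?_, fun h g r v x hx => ?_⟩
    · rw [← map_mul]
      exact pu ((hf v).mul (hf w)) (hf (v + w))
    · obtain ⟨x, rfl⟩ := QuotientGroup.mk_surjective x
      obtain ⟨q, rfl⟩ := js x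
      obtain ⟨v, l⟩ := exists_vec q
      exact ⟨⟨v, l.mem⟩, pu l (hf _)⟩
    · constructor
      · intro r
        have l : Lam 1 v := by
          rcases (mem_center_ES E' _).1 ((QuotientGroup.eq_one_iff _).1 r) with t | t
          · rw [← inj ((congrArg Subtype.val t).trans (map_one ι).symm)]
            exact hf v
          · have := (hf v).zq_mul
            rwa [inj (congrArg Subtype.val t : ι (f v) = ι zq), zq_mul_zq] at this
        obtain ⟨w, hw, t⟩ := l.cong_zero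
        exact ⟨⟨w, hw⟩, Subtype.ext (by rw [sub_zero, two_nsmul] at t; exact t)⟩
      · rintro ⟨w, rfl⟩
        exact (pu (lam_one.of_cong (cong_add_self w.2)) (hf _)).trans (map_one _)
    · obtain ⟨γ, t, a⟩ := (he h _).1 r.symm
      replace a := a.of_mk (γ' := g) t.symm
      obtain ⟨q, rfl⟩ := js x
      have l : Lam q v := by
        rcases (mem_center_ES E' _).1 (QuotientGroup.eq.1 hx) with t | t
        · have : (f v)⁻¹ * q = 1 := inj (by
            rw [map_mul, map_inv, map_one]; exact congrArg Subtype.val t)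
          rw [← inv_mul_eq_one.1 this]
          exact hf v
        · have : (f v)⁻¹ * q = zq := inj (by
            rw [map_mul, map_inv]; exact congrArg Subtype.val t)
          rw [inv_mul_eq_iff_eq_mul.1 this, zq_comm]
          exact (hf v).zq_mul
      obtain ⟨q', t, l'⟩ := a q v l
      rw [act_coe] at l'
      exact (pu l' (hf _)).trans (congrArg QuotientGroup.mk (Subtype.ext (Subtype.ext t.symm)))

end CA.Gr

theorem CA.realizeEqns_Gr_Final : True := by
  have := @CA.Gr.Ind.eq_1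
  have := @CA.Gr.Ind.eq_def
  have := @CA.Gr.Ind.congr_simp
  trivial
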