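import Cfsg.Agent.Gr.Eval

/-! The group `2 ^ (1 + 24) . Co₁` (a double cover of it) and its action. -/

set_option autoImplicit false

namespace CA.Gr

open Cfsg CA.M24 Matrix
open scoped Kronecker

noncomputable section

local notation "Λ" => leechLattice

/-- the matrix of a lattice automorphism -/
def mat (g : Co0) : Mat := Matrix.of fun i j => (8 : F)⁻¹ * (act g (e8 j) i : F)

theorem mat_mulVec (g : Co0) {v : Vec} (h : v ∈ Λ) : mat g *ᵥ red v = red (act g v) := by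
  have e : (8 : ℤ) • v = ∑ j, v j • e8 j := by
    funext i; simp [Finset.sum_apply, e8, ind, mul_comm]
  have := congrArg (act g) e
  rw [act_zsmul g h, act_sum g _ _ fun j _ => zsmul_mem (e8_mem j) _] at this
  funext i
  have := congrArg (Int.cast (R := F)) (congrFun this i)
  simp only [act_zsmul g (e8_mem _), Pi.smul_apply, smul_eq_mul, Finset.sum_apply, Int.cast_mul, Int.cast_sum,
    Int.cast_ofNat] at this
  simp only [mulVec, dotProduct, mat, of_apply, red, mul_assoc, ← Finset.mul_sum]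
  simp only [mul_comm _ (v _ : F), ← this]
  grind
theorem red_e8 (j : Pt) : red (e8 j) = (8 : F) • Pi.single j 1 := by
  funext i; by_cases h : i = j <;> simp [red, e8, ind, h]
theorem mat_ext {A A' : Mat} (h : ∀ v ∈ Λ, A *ᵥ red v = A' *ᵥ red v) : A = A' := by
  ext i j
  have := congrFun (h _ (e8_mem j)) i
  simp only [red_e8, mulVec_smul, mulVec_single_one, Pi.smul_apply, col_apply, smul_eq_mul] at this
  grind
@[simp] theorem mat_one : mat 1 = 1 := mat_ext fun v h => by rw [mat_mulVec _ h, act_one, one_mulVec]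
theorem mat_mul (g h : Co0) : mat (g * h) = mat g * mat h := mat_ext fun v k => by
  rw [← mulVec_mulVec, mat_mulVec _ k, mat_mulVec _ k, mat_mulVec _ (act_mem _ k), act_mul]
theorem mat_orth (g : Co0) : (mat g)ᵀ * mat g = 1 := by
  ext i j
  have := red_dot (act g (e8 i)) (act g (e8 j))
  rw [dot_act g (e8_mem i) (e8_mem j), dot_e8] at this
  have e : ((mat g)ᵀ * mat g) i j = 8⁻¹ * 8⁻¹ * (red (act g (e8 i)) ⬝ᵥ red (act g (e8 j))) := by
    simp only [mul_apply, transpose_apply, mat, of_apply, dotProduct, red, Finset.mul_sum]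
    exact Finset.sum_congr rfl fun _ _ => by ring
  rw [e, this]
  by_cases h : i = j
  · subst h; simp only [e8_self, one_apply_eq]; push_cast; grind
  · simp [h, e8_ne (Ne.symm h)]
theorem mat_inv (g : Co0) : mat g⁻¹ = (mat g)ᵀ := by
  rw [← one_mul (mat g⁻¹), ← mat_orth g, mul_assoc, ← mat_mul, mul_inv_cancel, mat_one, mul_one]
theorem mat_orth' (g : Co0) : mat g * (mat g)ᵀ = 1 := by rw [← mat_inv, ← mat_mul, mul_inv_cancel, mat_one]
theorem mat_ng : mat ng = -1 := mat_ext fun v h => by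
  rw [mat_mulVec _ h, act_ng h, neg_mulVec, one_mulVec]; funext i; simp [red]
theorem mat_Rv (g : Co0) {v : Vec} (h : v ∈ Λ) : mat g * Rv v * (mat g)ᵀ = Rv (act g v) := by
  rw [Rv, Rv, mul_smul_comm, smul_mul_assoc, mul_vecMulVec, vecMulVec_mul, vecMul_transpose, mat_mulVec g h]

/-- an orthogonal matrix that normalises the representation, with the automorphisms it induces -/
@[ext] structure Gx where
  M : Matrix Cd Cd F
  g : Co0
  a : MulAut Q
  orth : Mᵀ * M = 1
  conj : ∀ q, M * rho q = rho (a q) * M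
  lam : ∀ q v, Lam q v → Lam (a q) (act g v)

theorem Gx.orth' (t : Gx) : t.M * t.Mᵀ = 1 := mul_eq_one_comm.1 t.orth

instance : Mul Gx := ⟨fun s t => ⟨s.M * t.M, s.g * t.g, s.a * t.a,
  by rw [transpose_mul, mul_assoc, ← mul_assoc s.Mᵀ, s.orth, one_mul, t.orth],
  fun q => by rw [mul_assoc, t.conj, ← mul_assoc, s.conj, mul_assoc]; rfl,
  fun q v h => by rw [act_mul]; exact s.lam _ _ (t.lam _ _ h)⟩⟩
instance : One Gx := ⟨⟨1, 1, 1, by simp, by simp, fun q v h => by rwa [act_one]⟩⟩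
theorem Gx.a_zq (t : Gx) : t.a zq = zq := rho_inj (by
  rw [← mul_one (rho _), ← t.orth', ← mul_assoc, ← t.conj, rho_zq, mul_neg_one, neg_mul, t.orth'])
theorem Gx.a_zs (t : Gx) (k : K) : t.a (zs k) = zs k := by rcases kc k with rfl | rfl <;> simp [t.a_zq]
theorem Gx.lam' (t : Gx) {q : Q} {v : Vec} (hv : v ∈ Λ) (h : Lam (t.a q) (act t.g v)) : Lam q v := by
  obtain ⟨r, hr⟩ := exists_lam hv
  obtain ⟨k, e⟩ := h.eq_zs (t.lam r v hr)
  rw [← t.a_zs, ← map_mul] at e
  exact t.a.injective e ▸ hr.zs_mul k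
instance : Inv Gx := ⟨fun t => ⟨t.Mᵀ, t.g⁻¹, t.a⁻¹, t.orth', fun q => by
  have := t.conj (t.a⁻¹ q)
  rw [MulAut.apply_inv_self] at this
  rw [← one_mul (rho (t.a⁻¹ q)), ← t.orth, mul_assoc _ t.M, this, mul_assoc, mul_assoc, t.orth', mul_one],
  fun q v h => t.lam' (act_mem _ h.1) (by rwa [MulAut.apply_inv_self, act_act_inv])⟩⟩

@[simp] theorem Gx.mul_M (s t : Gx) : (s * t).M = s.M * t.M := rfl
@[simp] theorem Gx.mul_g (s t : Gx) : (s * t).g = s.g * t.g := rfl
@[simp] theorem Gx.mul_a (s t : Gx) : (s * t).a = s.a * t.a := rfl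
@[simp] theorem Gx.one_M : (1 : Gx).M = 1 := rfl
@[simp] theorem Gx.one_g : (1 : Gx).g = 1 := rfl
@[simp] theorem Gx.one_a : (1 : Gx).a = 1 := rfl
@[simp] theorem Gx.inv_M (t : Gx) : t⁻¹.M = t.Mᵀ := rfl
@[simp] theorem Gx.inv_g (t : Gx) : t⁻¹.g = t.g⁻¹ := rfl
@[simp] theorem Gx.inv_a (t : Gx) : t⁻¹.a = t.a⁻¹ := rfl

instance : Group Gx := Group.ofLeftAxioms (fun _ _ _ => Gx.ext (mul_assoc _ _ _) (mul_assoc _ _ _) (mul_assoc _ _ _))
  (fun _ => Gx.ext (one_mul _) (one_mul _) (one_mul _)) fun t => Gx.ext t.orth (inv_mul_cancel _) (inv_mul_cancel _)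

theorem Gx.short' (t : Gx) {q : Q} (h : Short q) : Short (t.a q) := ⟨_, t.lam _ _ h.lam, by rw [sqNorm_act, h.norm]⟩
theorem Gx.short (t : Gx) (q : Q) : Short (t.a q) ↔ Short q := ⟨fun h => by simpa using t⁻¹.short' h, t.short'⟩
theorem Gx.R_a (t : Gx) {q : Q} (h : Short q) : R (t.a q) = mat t.g * R q * (mat t.g)ᵀ := by
  rw [(t.lam _ _ h.lam).R_eq (by rw [sqNorm_act, h.norm]), R, mat_Rv _ h.lam.1]
theorem Gx.rho_a (t : Gx) (q : Q) : rho (t.a q) = t.M * rho q * t.Mᵀ := by rw [t.conj, mul_assoc, t.orth', mul_one]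
theorem Gx.korth (t : Gx) : (mat t.g ⊗ₖ t.M)ᵀ * (mat t.g ⊗ₖ t.M) = 1 := by
  rw [← kroneckerMap_transpose, ← mul_kronecker_mul, mat_orth, t.orth, one_kronecker_one]
theorem trace_conj (g : Co0) (A : Mat) : (mat g * A * (mat g)ᵀ).trace = A.trace := by
  rw [trace_mul_cycle, mat_orth, one_mul]
theorem conj_mul (g : Co0) (A A' : Mat) : mat g * A * (mat g)ᵀ * (mat g * A' * (mat g)ᵀ) = mat g * (A * A') * (mat g)ᵀ := by
  simp only [mul_assoc]; rw [← mul_assoc (mat g)ᵀ, mat_orth, one_mul]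
theorem dot_orth {n : Type} [Fintype n] [DecidableEq n] {N : Matrix n n F} (h : Nᵀ * N = 1) (v w : n → F) :
    (N *ᵥ v) ⬝ᵥ (N *ᵥ w) = v ⬝ᵥ w := by rw [dotProduct_mulVec, vecMul_mulVec, h, vecMul_one]

/-- the action on the algebra -/
def Gx.lin (t : Gx) : B →ₗ[F] B where
  toFun b := mkB (mat t.g * cA b * (mat t.g)ᵀ) (fun q => cX b (t.a⁻¹ q)) ((mat t.g ⊗ₖ t.M) *ᵥ cW b)
    (by simp only [transpose_mul, transpose_transpose, cA_symm, mul_assoc])
    (fun q => by rw [map_mul, ← Gx.inv_a, Gx.a_zq, cX_zq]) fun q h => cX_zero b (mt (t⁻¹.short q).1 h)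
  map_add' a b := B.ext (by simp [mul_add, add_mul]) (by ext; simp) (by simp [mulVec_add])
  map_smul' c a := B.ext (by simp) (by ext; simp) (by simp [mulVec_smul])

@[simp] theorem Gx.cA_lin (t : Gx) (b : B) : cA (t.lin b) = mat t.g * cA b * (mat t.g)ᵀ := rfl
@[simp] theorem Gx.cX_lin (t : Gx) (b : B) (q : Q) : cX (t.lin b) q = cX b (t.a⁻¹ q) := rfl
@[simp] theorem Gx.cW_lin (t : Gx) (b : B) : cW (t.lin b) = (mat t.g ⊗ₖ t.M) *ᵥ cW b := rfl
theorem Gx.lin_one (b : B) : (1 : Gx).lin b = b := B.ext (by simp) (funext fun q => by simp) (by simp)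
theorem Gx.lin_mul (s t : Gx) (b : B) : (s * t).lin b = s.lin (t.lin b) :=
  B.ext (by simp [mat_mul, mul_assoc]) (funext fun q => by simp) (by simp [mat_mul, mul_kronecker_mul])
theorem Gx.sum_a {V : Type} [AddCommMonoid V] (t : Gx) (f : Q → V) : ∑ q, f q = ∑ q, f (t.a q) :=
  (Equiv.sum_comp t.a.toEquiv f).symm
theorem Gx.be_lin (t : Gx) (a b : B) : be (t.lin a) (t.lin b) = be a b := by
  rw [be_apply, be_apply, cA_lin, cA_lin, conj_mul, trace_conj, cW_lin, cW_lin, dot_orth t.korth, dotProduct, t.sum_a]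
  simp only [cX_lin, MulAut.inv_apply_self, dotProduct]
theorem Gx.Lm_lin (t : Gx) (a : B) : Lm (t.lin a) = (mat t.g ⊗ₖ t.M) * Lm a * (mat t.g ⊗ₖ t.M)ᵀ := by
  rw [Lm_apply, Lm_apply, t.sum_a, cA_lin, trace_conj, ← kroneckerMap_transpose]
  simp only [cX_lin, MulAut.inv_apply_self, mul_add, add_mul, ← mul_kronecker_mul, mul_one, t.orth', mul_smul_comm,
    smul_mul_assoc, mat_orth', Finset.mul_sum, Finset.sum_mul, ← t.rho_a, mul_sub, sub_mul]
  refine congrArg _ (Finset.sum_congr rfl fun r _ => ?_)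
  by_cases h : Short r
  · rw [t.R_a h]
  · simp [cX_zero a h]
theorem Gx.fAX_lin (t : Gx) (a b c : B) : fAX (t.lin a) (t.lin b) (t.lin c) = fAX a b c := by
  rw [fAX, fAX, t.sum_a]
  refine congrArg _ (Finset.sum_congr rfl fun r _ => ?_)
  simp only [cX_lin, MulAut.inv_apply_self]
  by_cases h : Short r
  · rw [t.R_a h, cA_lin, conj_mul, trace_conj]
  · simp [cX_zero b h]
theorem Gx.fXX_lin (t : Gx) (a b c : B) : fXX (t.lin a) (t.lin b) (t.lin c) = fXX a b c := by
  rw [fXX, fXX, t.sum_a]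
  refine congrArg _ (Finset.sum_congr rfl fun r _ => ?_)
  rw [t.sum_a]
  simp only [cX_lin, MulAut.inv_apply_self, ← map_mul, ← map_inv]
theorem Gx.fW_lin (t : Gx) (a b c : B) : fW (t.lin a) (t.lin b) (t.lin c) = fW a b c := by
  rw [fW, fW, Lm_lin, cW_lin, cW_lin, mulVec_mulVec, mul_assoc, t.korth, mul_one, ← mulVec_mulVec, dot_orth t.korth]
theorem Gx.fm_lin (t : Gx) (a b c : B) : fm (t.lin a) (t.lin b) (t.lin c) = fm a b c := by
  simp only [fm_apply, fAX_lin, fXX_lin, fW_lin, cA_lin, conj_mul, trace_conj]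

/-- the action as an equivalence -/
def Gx.eqv (t : Gx) : B ≃ₗ[F] B := LinearEquiv.ofLinear t.lin t⁻¹.lin
  (LinearMap.ext fun b => by simp [← Gx.lin_mul, Gx.lin_one]) (LinearMap.ext fun b => by simp [← Gx.lin_mul, Gx.lin_one])

theorem Gx.eqv_apply (t : Gx) (b : B) : t.eqv b = t.lin b := rfl

/-- the homomorphism to the group of the forms -/
def Phi : Gx →* G := MonoidHom.mk' (fun t => ⟨t.eqv, t.be_lin, t.fm_lin⟩) fun s t =>
  Subtype.ext (LinearEquiv.ext fun b => by simp only [Subgroup.coe_mul, LinearEquiv.mul_apply, Gx.eqv_apply, Gx.lin_mul])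

theorem Phi_apply (t : Gx) (b : B) : (Phi t).1 b = t.lin b := t.eqv_apply b

/-- the extraspecial group inside -/
def jq : Q →* Gx := MonoidHom.mk' (fun q => ⟨rho q, 1, MulAut.conj q, by rw [rho_transpose, ← rho_mul, inv_mul_cancel, rho_one],
    fun r => by simp [← rho_mul], fun r v h => by rw [act_one, MulAut.conj_apply, conj_eq]; exact h.zs_mul _⟩)
  fun a b => Gx.ext (rho_mul a b) (mul_one _).symm (map_mul _ a b)

/-- the extraspecial group in the group of the forms -/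
def iota : Q →* G := Phi.comp jq

@[simp] theorem jq_M (q : Q) : (jq q).M = rho q := rfl
@[simp] theorem jq_g (q : Q) : (jq q).g = 1 := rfl
@[simp] theorem jq_a (q : Q) : (jq q).a = MulAut.conj q := rfl
theorem iota_apply (q : Q) (b : B) : (iota q).1 b = (jq q).lin b := Phi_apply _ b
theorem conj_jq (t : Gx) (q : Q) : t * jq q * t⁻¹ = jq (t.a q) :=
  Gx.ext (t.rho_a q).symm (by simp) (MulEquiv.ext fun r => by simp)
theorem conj_iota (t : Gx) (q : Q) : Phi t * iota q * (Phi t)⁻¹ = iota (t.a q) := by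
  rw [← map_inv, iota, MonoidHom.comp_apply, ← map_mul, ← map_mul, conj_jq]; rfl
@[simp] theorem cA_iota (q : Q) (b : B) : cA ((iota q).1 b) = cA b := by simp [iota_apply]
theorem cX_iota (q : Q) (b : B) (r : Q) : cX ((iota q).1 b) r = sg (cm q r) * cX b r := by
  rw [iota_apply, Gx.cX_lin, jq_a, ← map_inv, MulAut.conj_apply, conj_eq, cX_zs]; rfl
theorem cW_iota (q : Q) (b : B) : cW ((iota q).1 b) = ((1 : Mat) ⊗ₖ rho q) *ᵥ cW b := by simp [iota_apply]
theorem iota_vA (q : Q) (A : Mat) (h) : (iota q).1 (vA A h) = vA A h :=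
  B.ext (by simp) (funext fun r => by simp [cX_iota]) (by simp [cW_iota])
theorem iota_xv (q r : Q) : (iota q).1 (xv r) = sg (cm q r) • xv r := by
  refine B.ext (by simp) (funext fun s => ?_) (by simp [cW_iota])
  rw [cX_iota, map_smul, Pi.smul_apply, smul_eq_mul]
  by_cases h : Short r
  · rw [cX_xv h, sig]
    split_ifs with e
    · have : cm (r * s) q = 0 := by rw [cm, e.1, e.2]; simp
      rw [cm_mul] at this
      rw [cm_comm q, cm_comm q, show cm s q = cm r q by grind]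
    · simp
  · rw [show cX (xv r) s = 0 from if_neg h]; simp
theorem iota_vW (q : Q) (w : Ix → F) : (iota q).1 (vW w) = vW (((1 : Mat) ⊗ₖ rho q) *ᵥ w) :=
  B.ext (by simp) (funext fun r => by simp [cX_iota]) (by simp [cW_iota])
theorem iota_inj : Function.Injective iota := (injective_iff_map_eq_one _).2 fun q h => rho_inj (by
  ext c c'
  have := congrFun (cW_iota q (vW (Pi.single (none, c') 1))) (none, c)
  simpa [h, Pi.single_apply, one_apply] using this.symm)

end

end CA.Gr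
theorem CA.Gr.realizeEqnsGx : True := by
  have := @CA.Gr.Phi.eq_1
  have := @CA.Gr.Phi.eq_def
  have := @CA.Gr.Phi.congr_simp
  have := @CA.Gr.iota.eq_1
  have := @CA.Gr.iota.eq_def
  have := @CA.Gr.iota.congr_simp
  have := @CA.Gr.Gx.lin.eq_1
  have := @CA.Gr.Gx.lin.eq_def
  have := @CA.Gr.Gx.lin.congr_simp
  have := @CA.Gr.jq.eq_1
  have := @CA.Gr.jq.eq_def
  have := @CA.Gr.jq.congr_simp
  have := @CA.Gr.mat.eq_1
  have := @CA.Gr.mat.eq_def
  have := @CA.Gr.mat.congr_simp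
  have := @CA.Gr.Gx.eqv.eq_1
  have := @CA.Gr.Gx.eqv.eq_def
  have := @CA.Gr.Gx.eqv.congr_simp
  trivial
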