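import Cfsg.Agent.Gr.Q

/-! The map between the extraspecial group and the lattice modulo two; short elements. -/

set_option autoImplicit false

namespace CA.Gr

open Cfsg CA.M24 Matrix

noncomputable section

local notation "Λ" => leechLattice

/-- the inner product modulo two -/
def ip (v w : Vec) : K := ((dotInt v w / 8 : ℤ) : K)
/-- the vector of shape `(-3, 1 ^ 23)` -/
def l1 (i : Pt) : Vec := fun j => 1 - 4 * ind {i} j
/-- the vector of a code word -/
def mu (e : Cd) : Vec := fun j => 2 * zv e.1 j + 2 * (wt e.1 / 4)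

/-- the vector of a word of the cocode -/
def lw (x : W) : Vec := fun j => wt x - 4 * zv x j

theorem ip_comm (v w : Vec) : ip v w = ip w v := by rw [ip, ip, dot_comm]
theorem ip_of {v w : Vec} {k : ℤ} (h : dotInt v w = 8 * k) : ip v w = k := by rw [ip, h]; simp
theorem ip_add {v v' w : Vec} (h : v ∈ Λ) (hw : w ∈ Λ) : ip (v + v') w = ip v w + ip v' w := by
  rw [ip, ip, ip, dot_add_left, Int.add_ediv_of_dvd_left (eight_dvd_dot h hw), Int.cast_add]
theorem ip_cong {v v' w : Vec} (c : Cong v v') (h : v' ∈ Λ) (hw : w ∈ Λ) : ip v w = ip v' w := by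
  have := c.dot hw
  have := eight_dvd_dot h hw
  exact cast_eq_of (by omega)
theorem ip_zero (w : Vec) : ip 0 w = 0 := by simp [ip, dotInt]
theorem l1_mem (i : Pt) : l1 i ∈ Λ := odd_mem i
theorem zv_mem (c : Cd) : (fun j => 2 * zv c.1 j) ∈ Λ := by rw [zv_eq]; exact two_ind_mem (support₂_mem_Cs.2 c.2)
theorem zv_om (j : Pt) : zv om.1 j = 1 := rfl
theorem gen_mem (c : Cd) (i : Pt) (a n b : ℤ) : (fun j => 2 * a * zv c.1 j + 2 * n + b * (1 - 4 * ind {i} j)) ∈ Λ := by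
  convert add_mem (add_mem (zsmul_mem (zv_mem c) a) (zsmul_mem (zv_mem om) n)) (zsmul_mem (l1_mem i) b) using 2
  simp only [Pi.add_apply, Pi.smul_apply, zv_om, l1, smul_eq_mul]; ring
theorem cong_gen {x y : Vec} (c : Cd) (i : Pt) (a n b : ℤ)
    (h : ∀ j, x j = y j + 2 * (2 * a * zv c.1 j + 2 * n + b * (1 - 4 * ind {i} j))) : Cong x y :=
  cong_of_forall (gen_mem c i a n b) h
theorem mu_mem (e : Cd) : mu e ∈ Λ := by
  convert gen_mem e none 1 (wt e.1 / 4) 0 using 2; simp [mu]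
theorem lw_eq (x : W) : lw x = ∑ i, zv x i • l1 i := by
  funext j
  simp only [lw, l1, Finset.sum_apply, Pi.smul_apply, smul_eq_mul, mul_sub, mul_one, Finset.sum_sub_distrib, wt]
  simp [ind, mul_comm]
theorem lw_mem (x : W) : lw x ∈ Λ := lw_eq x ▸ sum_mem fun i _ => zsmul_mem (l1_mem i) _
theorem wt4 (e : Cd) : wt e.1 = 4 * (wt e.1 / 4) := by have := wt_code e; omega

theorem dot_l1 (v : Vec) (i : Pt) : dotInt v (l1 i) = ∑ j, v j - 4 * v i := by
  rw [dot_comm]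
  simp only [dotInt, l1, sub_mul, one_mul, Finset.sum_sub_distrib, mul_assoc, ← Finset.mul_sum, sum_ind_mul,
    Finset.sum_singleton]
theorem dot_mu (v : Vec) (e : Cd) : dotInt v (mu e) = 2 * ∑ j, v j * zv e.1 j + 2 * (wt e.1 / 4) * ∑ j, v j := by
  simp only [dotInt, mu, mul_add, Finset.sum_add_distrib, Finset.mul_sum]
  congr 1 <;> exact Finset.sum_congr rfl fun _ _ => by ring
theorem sum_mu (e : Cd) : ∑ j, mu e j = 56 * (wt e.1 / 4) := by
  have := wt4 e
  simp only [mu, Finset.sum_add_distrib, ← Finset.mul_sum, sum_const_Pt, ← wt.eq_1]; omega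

theorem ip_lw {v : Vec} (h : v ∈ Λ) (x : W) : ip v (lw x) = (fun i => ip v (l1 i)) ⬝ᵥ x := by
  choose k hk using fun i => eight_dvd_dot h (l1_mem i)
  rw [ip_of (k := ∑ i, k i * zv x i)]
  · simp only [Int.cast_sum, Int.cast_mul, cast_zv, dotProduct, ip_of (hk _)]
  · simp only [Finset.mul_sum, ← mul_assoc, ← hk, lw_eq, dotInt, Finset.sum_apply, Finset.sum_mul, Pi.smul_apply, smul_eq_mul]
    rw [Finset.sum_comm]
    exact Finset.sum_congr rfl fun _ _ => Finset.sum_congr rfl fun _ _ => by ring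
theorem ip_l1_l1 (i j : Pt) : ip (l1 i) (l1 j) = 0 := by
  rw [ip_of (k := 2 + 2 * ind {i} j), Int.cast_add, Int.cast_mul]
  · simp [k_two]
  · simp only [dot_l1, l1, Finset.sum_sub_distrib, ← Finset.mul_sum, sum_ind, sum_const_Pt]; simp; ring
theorem ip_mu_l1 (e : Cd) (j : Pt) : ip (mu e) (l1 j) = e.1 j := by
  rw [ip_of (k := 2 * (3 * (wt e.1 / 4) - zv e.1 j) + zv e.1 j) (by rw [dot_l1, sum_mu, mu]; ring)]
  simp [k_two, cast_zv]
theorem ip_mu_mu (d e : Cd) : ip (mu d) (mu e) = hf (d.1 * e.1) := by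
  have h1 := two_dvd_wt_mul d e
  have h2 := wt4 e
  have : ∑ j, mu d j * zv e.1 j = 2 * wt (d.1 * e.1) + 2 * (wt d.1 / 4) * wt e.1 := by
    simp only [mu, add_mul, Finset.sum_add_distrib, wt, zv_mul, Finset.mul_sum, mul_assoc]
  rw [ip_of (k := 2 * (8 * (wt d.1 / 4 * (wt e.1 / 4))) + wt (d.1 * e.1) / 2)]
  · simp [k_two, hf]
  · rw [dot_mu, sum_mu, this]; obtain ⟨k, hk⟩ := h1
    generalize wt e.1 / 4 = a at *
    rw [hk, h2, Int.mul_ediv_cancel_left _ two_ne_zero]; ring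
theorem cong_lw (c : Cd) : Cong (lw c.1) 0 :=
  cong_gen c none (-1) (wt c.1 / 4) 0 fun j => by have := wt4 c; simp only [lw, Pi.zero_apply]; omega
theorem cong_mu (d e : Cd) : Cong (mu (d + e)) (mu d + mu e + lw (d.1 * e.1)) :=
  cong_gen 0 none 0 (-(wt (d.1 * e.1) / 2)) 0 fun j => by
    have := wt4 d
    have := wt4 e
    have := two_dvd_wt_mul d e
    simp only [lw, mu, Pi.add_apply, Submodule.coe_add, zv_add, wt_add]; omega

/-- `v` is a lattice vector in the class of `q` -/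
def Lam (q : Q) (v : Vec) : Prop :=
  v ∈ Λ ∧ (∀ i, q.d.1 i = ip v (l1 i)) ∧ ∀ e : Cd, q.x e = ip v (mu e) + th e q.d

theorem Lam.mem {q : Q} {v : Vec} (h : Lam q v) : v ∈ Λ := h.1
theorem Lam.mul {q q' : Q} {v v' : Vec} (h : Lam q v) (h' : Lam q' v') : Lam (q * q') (v + v') :=
  ⟨add_mem h.1 h'.1, fun i => by rw [ip_add h.1 (l1_mem i), ← h.2.1, ← h'.2.1]; rfl, fun e => by
    rw [ip_add h.1 (mu_mem e), mul_x, mul_d, LinearMap.add_apply, map_add, h.2.2, h'.2.2]; ring⟩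
theorem Lam.of_eq {q q' : Q} {v : Vec} (h : Lam q v) (h1 : q'.d = q.d) (h2 : q'.x = q.x) : Lam q' v := by
  unfold Lam at *; rwa [h1, h2]
theorem Lam.zs_mul {q : Q} {v : Vec} (h : Lam q v) (k : K) : Lam (zs k * q) v := h.of_eq (by simp) (by simp)
theorem Lam.zq_mul {q : Q} {v : Vec} (h : Lam q v) : Lam (zq * q) v := h.zs_mul 1
theorem Lam.inv {q : Q} {v : Vec} (h : Lam q v) : Lam q⁻¹ v := h
theorem Lam.of_cong {q : Q} {v v' : Vec} (h : Lam q v) (c : Cong v' v) : Lam q v' :=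
  ⟨c.mem h.1, fun i => by rw [ip_cong c h.1 (l1_mem i), h.2.1], fun e => by rw [ip_cong c h.1 (mu_mem e), h.2.2]⟩
theorem Lam.neg {q : Q} {v : Vec} (h : Lam q v) : Lam q (-v) := h.of_cong (cong_neg h.1)
theorem lam_one : Lam 1 0 := ⟨zero_mem _, fun i => by simp [ip_zero], fun e => by simp [ip_zero]⟩
theorem Lam.eq {q q' : Q} {v : Vec} (h : Lam q v) (h' : Lam q' v) : q'.d = q.d ∧ q'.x = q.x := by
  have : q'.d = q.d := Subtype.ext (funext fun i => (h'.2.1 i).trans (h.2.1 i).symm)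
  exact ⟨this, LinearMap.ext fun e => by rw [h'.2.2, h.2.2, this]⟩
theorem Lam.uniq {q q' : Q} {v : Vec} (h : Lam q v) (h' : Lam q' v) : q' = q ∨ q' = zq * q :=
  eq_or_of (h.eq h').1 (h.eq h').2

theorem exists_lam {v : Vec} (h : v ∈ Λ) : ∃ q, Lam q v := by
  have hd : (fun i => ip v (l1 i)) ∈ golayCode := cc_eq_zero.1 (LinearMap.ext fun c => by
    rw [cc_apply, ← ip_lw h, ip_comm, ip_cong (cong_lw c) (zero_mem _) h, ip_zero]; rfl)
  refine ⟨⟨0, ⟨_, hd⟩, ⟨⟨fun e => ip v (mu e) + th e ⟨_, hd⟩, fun d e => ?_⟩, fun a e => ?_⟩⟩, h, fun _ => rfl, fun _ => rfl⟩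
  · rw [ip_comm, ip_cong (cong_mu d e) (add_mem (add_mem (mu_mem d) (mu_mem e)) (lw_mem _)) h,
      ip_add (add_mem (mu_mem d) (mu_mem e)) h, ip_add (mu_mem d) h, ip_comm (lw _), ip_lw h, th_add, dotProduct_comm,
      ip_comm (mu d), ip_comm (mu e)]
    simp only [LinearMap.add_apply, cc_apply]; grind
  · have : mu 0 = 0 := by funext j; simp [mu, zv]
    rcases kc a with rfl | rfl <;> simp [this, ip_comm v, ip_zero]

theorem lam_lw (x : W) : Lam ⟨0, 0, cc x⟩ (lw x) :=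
  ⟨lw_mem x, fun i => by rw [ip_comm, ip_lw (l1_mem i)]; simp [ip_l1_l1, dotProduct], fun e => by
    rw [ip_comm, ip_lw (mu_mem e)]; simp [ip_mu_l1, dotProduct_comm x]⟩
theorem lam_mu (d : Cd) : Lam ⟨0, d, th d⟩ (mu d) :=
  ⟨mu_mem d, fun i => (ip_mu_l1 d i).symm, fun e => by have := th_symm d e; rw [ip_mu_mu]; grind⟩
theorem lam_std {q : Q} {x : W} (h : q.x = th q.d + cc x) : Lam q (mu q.d + lw x) :=
  ((lam_mu q.d).mul (lam_lw x)).of_eq (by simp) (by simp [h])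
theorem exists_std (q : Q) : ∃ x, q.x = th q.d + cc x := by
  obtain ⟨x, hx⟩ := cc_surj (th q.d + q.x)
  exact ⟨x, by rw [hx, ← add_assoc, d_add_self, zero_add]⟩
theorem exists_vec (q : Q) : ∃ v, Lam q v := (exists_std q).elim fun _ h => ⟨_, lam_std h⟩

theorem Lam.cong_zero {v : Vec} (h : Lam 1 v) : Cong v 0 := by
  obtain ⟨m, hm, c, hc, w, h1, k, hk⟩ := leech_cases h.1
  obtain ⟨l, hl⟩ := four_dvd_card hc
  have hs : ∑ j, v j = 28 * m + 8 * l + 8 * k := by rw [sum_form h1, hk, hl]; ring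
  have dv : ∀ {a : ℤ}, (0 : K) = a → 2 ∣ a := fun e => (ZMod.intCast_zmod_eq_zero_iff_dvd _ 2).1 e.symm
  have h2 : ∀ i, 2 ∣ 3 * m + l + k - ind c i - 2 * w i := fun i =>
    dv ((h.2.1 i).trans (ip_of (by rw [dot_l1, hs, h1]; ring)))
  obtain ⟨a, ha, ha'⟩ : ∃ a, (∀ i, ind c i = a) ∧ (a = 0 ∨ a = 1) :=
    ⟨ind c none, fun i => by have := h2 i; have := h2 none; have := ind_cases c i; have := ind_cases c none; omega,
      by have := ind_cases c none; omega⟩
  have hl' : 24 * a = 4 * l := by rw [← hl, ← sum_ind, ← sum_const_Pt]; simp only [ha]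
  have hw : (fun i => (w i : K)) ∈ golayCode := cc_eq_zero.1 (LinearMap.ext fun e => by
    have h3 := wt4 e
    have : ∑ j, v j * zv e.1 j = (m + 2 * a) * wt e.1 + 4 * ∑ j, w j * zv e.1 j := by
      simp only [h1, ha, add_mul, Finset.sum_add_distrib, wt, Finset.mul_sum, mul_assoc]
    have := (h.2.2 e).trans (congrArg (· + _) (ip_of (k := 2 * ((4 * m + a + l + k) * (wt e.1 / 4)) + ∑ j, w j * zv e.1 j)
      (by rw [dot_mu, hs, this]; generalize wt e.1 / 4 = a at *; rw [h3]; ring)))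
    simpa [k_two, cast_zv, dotProduct] using this.symm)
  let e : Cd := ⟨_, hw⟩
  have hu : ∀ i, w i = zv e.1 i + 2 * ((w i - zv e.1 i) / 2) := fun i => by
    have := (ZMod.intCast_eq_intCast_iff_dvd_sub _ _ 2).1 (cast_zv e.1 i)
    omega
  have h4 : ∑ i, w i = wt e.1 + 2 * ∑ i, (w i - zv e.1 i) / 2 := by
    rw [Finset.sum_congr rfl fun i _ => hu i, Finset.sum_add_distrib, Finset.mul_sum]; rfl
  have h5 := wt4 e
  have h6 := h2 none
  rw [ha] at h6
  refine cong_of_forall (z := fun i => a + 2 * w i) (mem_leech_of a (support₂_mem_Cs.2 e.2) (fun i => (w i - zv e.1 i) / 2)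
    ((∑ i, (w i - zv e.1 i) / 2 - a) / 2) (fun i => ?_) (by omega)) fun i => ?_
  · rw [← zv_eq]; have := hu i; omega
  · rw [h1, ha, Pi.zero_apply]; omega

theorem Lam.cong {q : Q} {v v' : Vec} (h : Lam q v) (h' : Lam q v') : Cong v v' := by
  obtain ⟨z, hz, e⟩ := ((h.mul h'.neg).of_eq (q' := 1) (by simp) (by simp)).cong_zero
  exact ⟨z, hz, by rw [← e]; abel⟩

theorem Lam.cm {q q' : Q} {v v' : Vec} (h : Lam q v) (h' : Lam q' v') : cm q q' = ip v v' := by
  obtain ⟨x, hx⟩ := exists_std q'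
  rw [ip_comm, ip_cong (h'.cong (lam_std hx)) (lam_std hx).1 h.1, ip_add (mu_mem _) h.1, ip_comm (lw x), ip_lw h.1,
    ← funext h.2.1, Gr.cm, h.2.2, hx, ip_comm v, dotProduct_comm]
  simp only [LinearMap.add_apply, cc_apply]; grind

theorem Lam.sq {q : Q} {v : Vec} (h : Lam q v) : q.x q.d = ((sqNorm v / 16 : ℤ) : K) := by
  obtain ⟨x, hx⟩ := exists_std q
  have h1 := (h.cong (lam_std hx)).sqNorm (lam_std hx).1
  obtain ⟨k, hk⟩ := eight_dvd_dot (mu_mem q.d) (lw_mem x)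
  have h2 : sqNorm (mu q.d) = 16 * (wt q.d.1 / 4 + 8 * (wt q.d.1 / 4) ^ 2) := by
    have h3 := wt4 q.d
    have : ∑ j, mu q.d j * zv q.d.1 j = 2 * wt (q.d.1 * q.d.1) + 2 * (wt q.d.1 / 4) * wt q.d.1 := by
      simp only [mu, add_mul, Finset.sum_add_distrib, wt, zv_mul, Finset.mul_sum, mul_assoc]
    rw [sqNorm_eq_dot, dot_mu, sum_mu, this, w_mul_self]; generalize wt q.d.1 / 4 = a at *; rw [h3]; ring
  have h3 : sqNorm (lw x) = 16 * (wt x * (wt x + 1)) := by
    have : ∀ j, lw x j ^ 2 = wt x ^ 2 + (16 - 8 * wt x) * zv x j := fun j => by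
      rcases zv_cases x j with ⟨-, e⟩ | ⟨-, e⟩ <;> rw [lw, e] <;> ring
    simp only [sqNorm, this, Finset.sum_add_distrib, sum_const_Pt, ← Finset.mul_sum, ← wt.eq_1]; ring
  obtain ⟨j, hj⟩ := Int.even_mul_succ_self (wt x)
  rw [sqNorm_add, h2, h3, hk, hj] at h1
  rw [cast_eq_of (b := wt q.d.1 / 4 + k) (by omega), Int.cast_add, ← ip_of hk, ip_lw (mu_mem _), hx]
  simp only [ip_mu_l1, LinearMap.add_apply, cc_apply, th_self, dotProduct_comm x]; rfl

/-- the class of `q` contains a vector of minimal length -/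
def Short (q : Q) : Prop := ∃ v, Lam q v ∧ sqNorm v = 32

open Classical in
/-- a minimal vector in the class of `q` -/
def vec (q : Q) : Vec := if h : Short q then h.choose else 0

/-- the reduction of an integer vector -/
def red (v : Vec) : Pt → F := fun i => (v i : F)
/-- the matrix `v vᵀ / 8` -/
def Rv (v : Vec) : Matrix Pt Pt F := (8 : F)⁻¹ • vecMulVec (red v) (red v)
/-- the matrix of a short element -/
def R (q : Q) : Matrix Pt Pt F := Rv (vec q)

theorem Short.lam {q : Q} (h : Short q) : Lam q (vec q) := by rw [vec, dif_pos h]; exact h.choose_spec.1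
theorem Short.norm {q : Q} (h : Short q) : sqNorm (vec q) = 32 := by rw [vec, dif_pos h]; exact h.choose_spec.2
theorem Rv_neg (v : Vec) : Rv (-v) = Rv v := by ext i j; simp [Rv, red, vecMulVec_apply]
theorem Lam.vec_eq {q : Q} {v : Vec} (h : Lam q v) (hn : sqNorm v = 32) : vec q = v ∨ vec q = -v :=
  have s : Short q := ⟨v, h, hn⟩
  short_cong_eq h.1 (by rw [s.norm]; norm_num) (by rw [hn]; norm_num) (s.lam.cong h)
theorem Lam.R_eq {q : Q} {v : Vec} (h : Lam q v) (hn : sqNorm v = 32) : R q = Rv v := by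
  rcases h.vec_eq hn with e | e <;> rw [R, e]; exact Rv_neg v
theorem Short.sq {q : Q} (h : Short q) : q * q = 1 := by rw [mul_self_eq, h.lam.sq, h.norm]; rfl
theorem Short.inv {q : Q} (h : Short q) : q⁻¹ = q := inv_eq_of_mul_eq_one_right h.sq
theorem short_zs_mul {q : Q} (k : K) : Short (zs k * q) ↔ Short q :=
  exists_congr fun _ => and_congr_left' ⟨fun h => h.of_eq (by simp) (by simp), fun h => h.zs_mul k⟩
theorem R_zs_mul (q : Q) (k : K) : R (zs k * q) = R q := by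
  by_cases h : Short q
  · exact (h.lam.zs_mul k).R_eq h.norm
  · rw [R, R, vec, vec, dif_neg h, dif_neg (mt (short_zs_mul k).1 h)]
theorem Short.ne {q : Q} (h : Short q) : q ≠ 1 ∧ q ≠ zq := by
  have : ¬ Short 1 := fun h => by
    have := short_cong_norm (zero_mem _) (by rw [h.norm]; norm_num) (by rw [sqNorm_zero]; norm_num) h.lam.cong_zero
    rw [h.norm, sqNorm_zero] at this; omega
  exact ⟨fun e => this (e ▸ h), fun e => this ((short_zs_mul 1).1 (by simpa [e] using h))⟩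
theorem Rv_apply (v : Vec) (i j : Pt) : Rv v i j = 8⁻¹ * ((v i : F) * v j) := rfl
theorem Rv_symm (v : Vec) : (Rv v)ᵀ = Rv v := by ext i j; simp [Rv_apply, mul_comm]
theorem R_symm (q : Q) : (R q)ᵀ = R q := Rv_symm _
theorem red_dot (v w : Vec) : red v ⬝ᵥ red w = (dotInt v w : F) := by simp [red, dotProduct, dotInt]
theorem trace_Rv (v : Vec) : (Rv v).trace = 8⁻¹ * (sqNorm v : F) := by
  rw [Rv, trace_smul, trace_vecMulVec, red_dot, sqNorm_eq_dot, smul_eq_mul]
theorem Rv_mul (v w : Vec) : Rv v * Rv w = ((8 : F)⁻¹ * 8⁻¹ * (dotInt v w : F)) • vecMulVec (red v) (red w) := by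
  rw [Rv, Rv, smul_mul_smul_comm, vecMulVec_mul_vecMulVec, red_dot, vecMulVec_smul, smul_smul]
theorem trace_Rv_mul (v w : Vec) : (Rv v * Rv w).trace = ((8 : F)⁻¹ * (dotInt v w : F)) ^ 2 := by
  rw [Rv_mul, trace_smul, trace_vecMulVec, red_dot, smul_eq_mul]; ring
theorem trace_Rv_mul3 (u v w : Vec) : (Rv u * Rv v * Rv w).trace =
    (8 : F)⁻¹ * (dotInt u v : F) * (8⁻¹ * (dotInt v w : F)) * (8⁻¹ * (dotInt w u : F)) := by
  rw [Rv_mul, Rv, smul_mul_smul_comm, vecMulVec_mul_vecMulVec, trace_smul, trace_vecMulVec, dotProduct_smul, red_dot, red_dot,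
    dot_comm w u, smul_eq_mul, smul_eq_mul]; ring

/-! ### the four families of short elements -/

def xJ (i j : Pt) : Q := ⟨0, 0, cc (e1 i + e1 j)⟩
def xP (i j : Pt) : Q := ⟨0, om, cc (e1 i + e1 j)⟩
def xT (o : Cd) (t : W) : Q := ⟨0, o + hf t • om, th o + cc t⟩
def xX (d : Cd) (i : Pt) : Q := ⟨0, d + (pq d.1 + d.1 i) • om, th d + cc (e1 i)⟩
def vT (o : Cd) (t : W) : Vec := fun k => 2 * zv o.1 k * (1 - 2 * zv t k)
def vX (d : Cd) (i : Pt) : Vec := fun k => (1 - 2 * zv d.1 k) * (1 - 4 * ind {i} k)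
/-- the even words with support in `o` -/
def ev (o : Cd) : Finset W := Finset.univ.filter fun t => t * o.1 = t ∧ ∑ i, t i = 0

theorem mem_ev {o : Cd} {t : W} : t ∈ ev o ↔ t * o.1 = t ∧ ∑ i, t i = 0 := by simp [ev]
theorem lw_e1 (i : Pt) : lw (e1 i) = l1 i := by funext j; rw [lw, wt_e1, zv_e1, l1]
theorem lam_xJ (i j : Pt) : Lam (xJ i j) (vm i j) :=
  (((lam_lw (e1 i)).mul (lam_lw (e1 j))).of_eq (by simp [xJ]) (by simp [xJ])).of_cong
    (cong_gen 0 i 0 0 (-1) fun k => by simp only [lw_e1, l1, vm, Pi.add_apply]; ring)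
theorem lam_xO (i : Pt) : Lam xO (e8 i) := ((lam_mu om).of_eq (q' := xO) rfl (by simp)).of_cong
  (cong_gen 0 i 0 (-3) (-1) fun k => by rw [mu, zv_om, e8, coe_om, wt_one]; ring)
theorem xP_eq (i j : Pt) : xP i j = xO * xJ i j := Q.ext (by simp [xP, xJ]) (by simp [xP, xJ]) (by simp [xP, xJ])
theorem lam_xP (i j : Pt) : Lam (xP i j) (vp i j) := by
  convert (lam_xO j).mul (lam_xJ i j) using 1
  · exact xP_eq i j
  · funext k; simp only [vp, vm, e8, Pi.add_apply]; ring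
theorem zv_add_om (d : Cd) (k : Pt) : zv (d.1 + om.1) k = 1 - zv d.1 k := by
  rw [zv_add, coe_om, mul_one, ← coe_om, zv_om]; ring
theorem wt_add_om (d : Cd) : wt (d.1 + om.1) = 24 - wt d.1 := by rw [wt_add, coe_om, mul_one, wt_one]; ring
theorem dvd_of_cast {a : ℤ} : ((a : K) = 0 ∧ 2 ∣ a) ∨ ((a : K) = 1 ∧ 2 ∣ a - 1) := by
  rcases Int.emod_two_eq_zero_or_one a with h | h
  · exact .inl ⟨(cast_eq_of (b := 0) (by omega)).trans Int.cast_zero, by omega⟩
  · exact .inr ⟨(cast_eq_of (b := 1) (by omega)).trans Int.cast_one, by omega⟩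
theorem lam_xT {o : Cd} (ho : wt o.1 = 8) {t : W} (ht : t ∈ ev o) : Lam (xT o t) (vT o t) := by
  obtain ⟨h1, h2⟩ := mem_ev.1 ht
  rw [← two_dvd_wt] at h2
  have h3 : ∀ k, zv o.1 k * zv t k = zv t k := fun k => by rw [mul_comm, ← zv_mul, h1]
  refine (lam_std (x := t) (by simp [xT])).of_cong ?_
  rcases dvd_of_cast (a := wt t / 2) with ⟨h, h'⟩ | ⟨h, h'⟩
  · refine cong_gen 0 none 0 (-1 - wt t / 4) 0 fun k => ?_
    have := h3 k
    simp only [xT, hf, h, zero_smul, add_zero, vT, mu, lw, ho, Pi.add_apply, mul_sub, mul_assoc, mul_left_comm (zv o.1 k) 2, this]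
    omega
  · refine cong_gen o none 1 (-3 - wt t / 4) 0 fun k => ?_
    have := h3 k
    simp only [xT, hf, h, one_smul, vT, mu, lw, ho, Pi.add_apply, mul_sub, mul_assoc, mul_left_comm (zv o.1 k) 2, this,
      Submodule.coe_add, zv_add_om, wt_add_om]
    omega
theorem lam_xX (d : Cd) (i : Pt) : Lam (xX d i) (vX d i) := by
  refine (lam_std (x := e1 i) (by simp [xX])).of_cong ?_
  have h3 : ∀ k, vX d i k = 1 - 2 * zv d.1 k - 4 * ind {i} k + 8 * (zv d.1 i * ind {i} k) := fun k => by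
    by_cases e : k = i <;> simp [vX, ind, e]; ring
  have h4 := wt4 d
  rcases dvd_of_cast (a := wt d.1 / 4) with ⟨h, h'⟩ | ⟨h, h'⟩ <;> rcases zv_cases d.1 i with ⟨e, e'⟩ | ⟨e, e'⟩
  · refine cong_gen d i (-1) (-(wt d.1 / 8)) 0 fun k => ?_
    simp only [xX, pq, h, e, e', h3, add_zero, zero_smul, mu, lw_e1, l1, Pi.add_apply]; omega
  · refine cong_gen d i 0 (wt d.1 / 8 - 3) (-1) fun k => ?_
    simp only [xX, pq, h, e, e', h3, zero_add, one_smul, mu, lw_e1, l1, Pi.add_apply, Submodule.coe_add, zv_add_om, wt_add_om]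
    omega
  · refine cong_gen d i 0 (wt d.1 / 8 - 3) 0 fun k => ?_
    simp only [xX, pq, h, e, e', h3, add_zero, one_smul, mu, lw_e1, l1, Pi.add_apply, Submodule.coe_add, zv_add_om, wt_add_om]
    omega
  · refine cong_gen d i (-1) (-(wt d.1 / 8)) (-1) fun k => ?_
    simp only [xX, pq, h, e, e', h3, k_add_self, zero_smul, add_zero, mu, lw_e1, l1, Pi.add_apply]; omega
theorem norm_vT {o : Cd} (ho : wt o.1 = 8) (t : W) : sqNorm (vT o t) = 32 := by
  have : ∀ j, vT o t j ^ 2 = 4 * zv o.1 j := fun j => by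
    rcases zv_cases t j with ⟨-, e⟩ | ⟨-, e⟩ <;> rcases zv_cases o.1 j with ⟨-, e'⟩ | ⟨-, e'⟩ <;> simp [vT, e, e']
  simp only [sqNorm, this, ← Finset.mul_sum, ← wt.eq_1, ho]; rfl
theorem norm_vX (d : Cd) (i : Pt) : sqNorm (vX d i) = 32 := by
  have : ∀ j, vX d i j ^ 2 = 1 + 8 * ind {i} j := fun j => by
    rcases zv_cases d.1 j with ⟨-, e⟩ | ⟨-, e⟩ <;> rcases ind_cases {i} j with ⟨-, e'⟩ | ⟨-, e'⟩ <;> simp [vX, e, e']
  simp only [sqNorm, this, Finset.sum_add_distrib, ← Finset.mul_sum, sum_ind, sum_const_Pt]; rfl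
theorem short_xJ {i j : Pt} (h : i ≠ j) : Short (xJ i j) := ⟨_, lam_xJ i j, sqNorm_vm h⟩
theorem short_xP {i j : Pt} (h : i ≠ j) : Short (xP i j) := ⟨_, lam_xP i j, sqNorm_vp h⟩
theorem short_xT {o : Cd} (ho : wt o.1 = 8) {t : W} (ht : t ∈ ev o) : Short (xT o t) := ⟨_, lam_xT ho ht, norm_vT ho t⟩
theorem short_xX (d : Cd) (i : Pt) : Short (xX d i) := ⟨_, lam_xX d i, norm_vX d i⟩

theorem exists_single {f : Pt → ℤ} {n : ℤ} (hn : 0 < n) (h : ∀ j, f j = 0 ∨ n ≤ f j) (hs : ∑ j, f j = n) :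
    ∃ i, f i = n ∧ ∀ j, j ≠ i → f j = 0 := by
  obtain ⟨i, -, hi⟩ := Finset.exists_ne_zero_of_sum_ne_zero (hs ▸ hn.ne')
  have h0 : ∀ j ∈ Finset.univ.erase i, 0 ≤ f j := fun j _ => by have := h j; omega
  have h1 := Finset.add_sum_erase _ f (Finset.mem_univ i)
  have h2 := Finset.sum_nonneg h0
  have h3 := h i
  exact ⟨i, by omega, fun j hj => (Finset.sum_eq_zero_iff_of_nonneg h0).1 (by omega) j (by simpa using hj)⟩

theorem short_vec {v : Vec} (h : v ∈ Λ) (hn : sqNorm v = 32) : (∃ i j, i ≠ j ∧ v = vm i j) ∨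
    (∃ i j, i ≠ j ∧ (v = vp i j ∨ v = -vp i j)) ∨ (∃ o t, wt o.1 = 8 ∧ t ∈ ev o ∧ v = vT o t) ∨ ∃ d i, v = vX d i := by
  obtain ⟨m, rfl | rfl, c, hc, w, h1, k, hk⟩ := leech_cases h
  · rcases c.eq_empty_or_nonempty with rfl | hne
    · simp only [ind_empty, Pi.zero_apply, mul_zero, zero_add] at h1
      have e : ∑ i, w i ^ 2 = 2 := by
        have : sqNorm v = 16 * ∑ i, w i ^ 2 := by simp only [sqNorm, h1, Finset.mul_sum]; congr 1; funext; ring
        omega
      obtain ⟨i, -, hi⟩ := Finset.exists_ne_zero_of_sum_ne_zero (e ▸ two_ne_zero)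
      have h2 : w i ^ 2 ≤ 2 := e ▸ Finset.single_le_sum (f := fun i => w i ^ 2) (fun _ _ => sq_nonneg _) (Finset.mem_univ i)
      have h3 : w i = 1 ∨ w i = -1 := by
        have : w i ≠ 0 := fun e => hi (by simp [e])
        have : w i < 2 := by nlinarith
        have : -2 < w i := by nlinarith
        omega
      obtain ⟨j, hj, hj'⟩ := exists_single (f := fun j => w j ^ 2 - ind {i} j) one_pos (fun j => by
        have := sq_nonneg (w j)
        rcases ind_cases {i} j with ⟨a, b⟩ | ⟨a, b⟩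
        · rw [Finset.mem_singleton.1 a] at *; rcases h3 with e | e <;> simp [e, b]
        · omega) (by rw [Finset.sum_sub_distrib, e, sum_ind]; rfl)
      have ij : i ≠ j := by rintro rfl; rcases h3 with e | e <;> simp [e, ind] at hj
      simp only [ind_single_ne ij.symm, sub_zero, sq_eq_one_iff] at hj
      have : ∀ l, v l = 4 * (w i * ind {i} l + w j * ind {j} l) := fun l => by
        rw [h1]
        by_cases a : l = i
        · simp [a, ind, ij]
        by_cases b : l = j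
        · simp [b, ind, ij.symm]
        · simpa [ind, a, b] using hj' l b
      rcases h3 with a | a <;> rcases hj with b | b <;> simp only [a, b] at this
      · exact .inr (.inl ⟨i, j, ij, .inl (funext fun l => by rw [this, vp]; ring)⟩)
      · exact .inl ⟨i, j, ij, funext fun l => by rw [this, vm]; ring⟩
      · exact .inl ⟨j, i, ij.symm, funext fun l => by rw [this, vm]; ring⟩
      · exact .inr (.inl ⟨i, j, ij, .inr (funext fun l => by rw [this, Pi.neg_apply, vp]; ring)⟩)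
    · have h0 : ∀ j ∈ Finset.univ, 0 ≤ v j ^ 2 - 4 * ind c j := fun j _ => by
        rcases ind_cases c j with ⟨-, b⟩ | ⟨-, b⟩ <;> rw [h1, b]
        · nlinarith [Int.even_mul_succ_self (w j), sq_nonneg (2 * w j + 1), one_le_sq_of_odd (a := 1 + 2 * w j) rfl]
        · nlinarith [sq_nonneg (w j)]
      have h2 := Finset.sum_nonneg h0
      have h3 : ∑ j, (v j ^ 2 - 4 * ind c j) = 32 - 4 * (c.card : ℤ) := by
        rw [Finset.sum_sub_distrib, ← Finset.mul_sum, sum_ind, ← hn, sqNorm]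
      have h4 := card_of_mem_Cs hc
      have h5 := hne.card_pos
      have h6 := fun j => (Finset.sum_eq_zero_iff_of_nonneg h0).1 (by omega) j (Finset.mem_univ j)
      have h7 : ∀ j, (j ∈ c ∧ w j = -1) ∨ w j = 0 := fun j => by
        have := h6 j
        rcases ind_cases c j with ⟨a, b⟩ | ⟨a, b⟩ <;> rw [h1, b] at this
        · have : w j * (w j + 1) = 0 := by linarith
          rcases mul_eq_zero.1 this with e | e
          exacts [.inr e, .inl ⟨a, by omega⟩]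
        · exact .inr (pow_eq_zero_iff two_ne_zero |>.1 (by linarith : w j ^ 2 = 0))
      have h8 : ∀ j, zv (fun j => (w j : K)) j = -w j := fun j => by rcases h7 j with ⟨-, e⟩ | e <;> rw [zv, e] <;> rfl
      have h9 : zv (wordOf c) = ind c := by rw [zv_eq, support₂_wordOf]
      refine .inr (.inr (.inl ⟨⟨wordOf c, mem_Cs.1 hc⟩, fun j => (w j : K), by rw [wt_eq, support₂_wordOf]; omega,
        mem_ev.2 ⟨funext fun j => ?_, ?_⟩, funext fun j => ?_⟩))
      · rcases h7 j with ⟨a, e⟩ | e <;> simp [*, wordOf]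
      · rw [← Int.cast_sum, hk]; simp [k_two]
      · rw [vT, h8, h9, h1]; rcases h7 j with ⟨a, e⟩ | e
        · rw [e, ind_of_mem a]; rfl
        · rw [e]; ring
  · obtain ⟨i, hi, hj⟩ := exists_single (f := fun j => v j ^ 2 - 1) (n := 8) (by norm_num) (fun j => by
      obtain ⟨a, ha⟩ := Int.even_mul_succ_self (ind c j + 2 * w j)
      have : v j ^ 2 - 1 = 8 * a := by rw [h1]; linarith
      have := one_le_sq_of_odd (a := v j) (k := ind c j + 2 * w j) (by rw [h1]; ring)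
      omega) (by rw [Finset.sum_sub_distrib, sum_const_Pt, ← sqNorm, hn]; rfl)
    refine .inr (.inr (.inr ⟨⟨wordOf c, mem_Cs.1 hc⟩, i, funext fun j => ?_⟩))
    have := h1 j
    have h2 := ind_cases c j
    rw [vX, zv_eq, support₂_wordOf]
    by_cases e : j = i
    · subst e
      have : (v j - 3) * (v j + 3) = 0 := by linarith
      rw [ind_of_mem (Finset.mem_singleton_self j)]
      rcases mul_eq_zero.1 this with e | e <;> omega
    · have : (v j - 1) * (v j + 1) = 0 := by linarith [hj j e]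
      rw [ind_single_ne e]
      rcases mul_eq_zero.1 this with e | e <;> omega

theorem Lam.eq_zs {q r : Q} {v : Vec} (h : Lam q v) (h' : Lam r v) : ∃ k, q = zs k * r :=
  (h'.uniq h).elim (fun e => ⟨0, by simp [e]⟩) fun e => ⟨1, e⟩

theorem short_cases {q : Q} (h : Short q) : ∃ k r, q = zs k * r ∧ ((∃ i j, i ≠ j ∧ r = xJ i j) ∨
    (∃ i j, i ≠ j ∧ r = xP i j) ∨ (∃ o t, wt o.1 = 8 ∧ t ∈ ev o ∧ r = xT o t) ∨ ∃ d i, r = xX d i) := by
  obtain ⟨v, hv, hn⟩ := h
  rcases short_vec hv.1 hn with ⟨i, j, h, rfl⟩ | ⟨i, j, h, rfl | rfl⟩ | ⟨o, t, h1, h2, rfl⟩ | ⟨d, i, rfl⟩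
  · exact (hv.eq_zs (lam_xJ i j)).imp fun k e => ⟨_, e, .inl ⟨i, j, h, rfl⟩⟩
  · exact (hv.eq_zs (lam_xP i j)).imp fun k e => ⟨_, e, .inr (.inl ⟨i, j, h, rfl⟩)⟩
  · exact (hv.eq_zs (lam_xP i j).neg).imp fun k e => ⟨_, e, .inr (.inl ⟨i, j, h, rfl⟩)⟩
  · exact (hv.eq_zs (lam_xT h1 h2)).imp fun k e => ⟨_, e, .inr (.inr (.inl ⟨o, t, h1, h2, rfl⟩))⟩
  · exact (hv.eq_zs (lam_xX d i)).imp fun k e => ⟨_, e, .inr (.inr (.inr ⟨d, i, rfl⟩))⟩

end

end CA.Gr
theorem CA.Gr.realizeEqnsLam : True := by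
  have := @CA.Gr.red.eq_1
  have := @CA.Gr.red.eq_def
  have := @CA.Gr.red.congr_simp
  have := @CA.Gr.lw.eq_1
  have := @CA.Gr.lw.eq_def
  have := @CA.Gr.lw.congr_simp
  have := @CA.Gr.xT.eq_1
  have := @CA.Gr.xT.eq_def
  have := @CA.Gr.xT.congr_simp
  have := @CA.Gr.Rv.eq_1
  have := @CA.Gr.Rv.eq_def
  have := @CA.Gr.Rv.congr_simp
  have := @CA.Gr.l1.eq_1
  have := @CA.Gr.l1.eq_def
  have := @CA.Gr.l1.congr_simp
  have := @CA.Gr.xP.eq_1
  have := @CA.Gr.xP.eq_def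
  have := @CA.Gr.xP.congr_simp
  have := @CA.Gr.Short.eq_1
  have := @CA.Gr.Short.eq_def
  have := @CA.Gr.Short.congr_simp
  have := @CA.Gr.ev.eq_1
  have := @CA.Gr.ev.eq_def
  have := @CA.Gr.ev.congr_simp
  have := @CA.Gr.vX.eq_1
  have := @CA.Gr.vX.eq_def
  have := @CA.Gr.vX.congr_simp
  have := @CA.Gr.vT.eq_1
  have := @CA.Gr.vT.eq_def
  have := @CA.Gr.vT.congr_simp
  have := @CA.Gr.ip.eq_1
  have := @CA.Gr.ip.eq_def
  have := @CA.Gr.ip.congr_simp
  have := @CA.Gr.mu.eq_1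
  have := @CA.Gr.mu.eq_def
  have := @CA.Gr.mu.congr_simp
  have := @CA.Gr.xX.eq_1
  have := @CA.Gr.xX.eq_def
  have := @CA.Gr.xX.congr_simp
  have := @CA.Gr.Lam.eq_1
  have := @CA.Gr.Lam.eq_def
  have := @CA.Gr.Lam.congr_simp
  have := @CA.Gr.R.eq_1
  have := @CA.Gr.R.eq_def
  have := @CA.Gr.R.congr_simp
  have := @CA.Gr.vec.eq_1
  have := @CA.Gr.vec.eq_def
  have := @CA.Gr.vec.congr_simp
  have := @CA.Gr.xJ.eq_1
  have := @CA.Gr.xJ.eq_def
  have := @CA.Gr.xJ.congr_simp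
  trivial
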