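import Cfsg.Agent.Gr.Gx

/-! Every lattice automorphism lifts. -/

set_option autoImplicit false

namespace CA.Gr

open Cfsg CA.M24 Matrix

noncomputable section

theorem exists_aut (g : Co0) : ∃ a : MulAut Q, a zq = zq ∧ ∀ q v, Lam q v → Lam (a q) (act g v) := by
  choose w hw using fun u : Cd × Du => exists_vec ⟨0, u.1, u.2⟩
  choose f hf using fun u : Cd × Du => exists_lam (act_mem g (hw u).mem)
  have key {q v} (h : Lam q v) : Lam (f (q.d, q.x)) (act g v) :=
    (hf _).of_cong ((h.cong ((hw (q.d, q.x)).of_eq rfl rfl)).act (hw _).mem g)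
  have add (u u' : Cd × Du) : ((f (u + u')).d, (f (u + u')).x) = ((f u).d, (f u).x) + ((f u').d, (f u').x) := by
    have h1 := (hf u).mul (hf u')
    rw [← act_add g (hw u).mem (hw u').mem] at h1
    exact Prod.ext (h1.eq (key ((hw u).mul (hw u')))).1 (h1.eq (key ((hw u).mul (hw u')))).2
  let γ : Cd × Du →ₗ[K] Cd × Du := (AddMonoidHom.mk' (fun u => ((f u).d, (f u).x)) add).toZModLinearMap 2
  obtain ⟨k, hk⟩ := exists_quad (N := K) (LinearMap.mk₂ K (fun u u' : Cd × Du => (γ u).2 (γ u').1 + u.2 u'.1)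
    (fun a b c => by simp only [map_add, Prod.snd_add, LinearMap.add_apply]; ring)
    (fun a b c => by simp only [map_smul, Prod.smul_snd, LinearMap.smul_apply, smul_add])
    (fun a b c => by simp only [map_add, Prod.fst_add]; ring)
    (fun a b c => by simp only [map_smul, Prod.smul_fst, smul_add])) fun u => by
      have h1 : (γ u).2 (γ u).1 = _ := (hf u).sq
      have h2 : u.2 u.1 = _ := (hw u).sq
      rw [LinearMap.mk₂_apply, h1, h2, sqNorm_act, CharTwo.add_self_eq_zero]
  have k0 : k 0 = 0 := by simpa [CharTwo.add_self_eq_zero] using hk 0 0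
  let A : Q →* Q := MonoidHom.mk' (fun q => ⟨q.s + k (q.d, q.x), (γ (q.d, q.x)).1, (γ (q.d, q.x)).2⟩) fun p q => by
    have e : ((p * q).d, (p * q).x) = (p.d, p.x) + (q.d, q.x) := rfl
    refine Q.ext ?_ (by simp only [e, map_add]; rfl) (by simp only [e, map_add]; rfl)
    simp only [e, hk, mul_s, LinearMap.mk₂_apply]
    grind
  have hA {q v} (h : Lam q v) : Lam (A q) (act g v) := (key h).of_eq rfl rfl
  have i : Function.Injective A := (injective_iff_map_eq_one A).2 fun q e => by
    obtain ⟨v, hv⟩ := exists_vec q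
    have h1 := (e ▸ hA hv).cong_zero
    rw [← act_zero g, cong_act_iff (zero_mem _)] at h1
    obtain ⟨h2, h3⟩ := (lam_one.of_cong h1).eq hv
    have h4 : q.s + k (q.d, q.x) = 0 := congrArg Q.s e
    rw [h2, h3] at h4
    exact Q.ext (by simpa [show ((0, 0) : Cd × Du) = 0 from rfl, k0] using h4) h2 h3
  refine ⟨MulEquiv.ofBijective A (Finite.injective_iff_bijective.1 i), ?_, fun q v h => hA h⟩
  change Q.mk (1 + k 0) (γ 0).1 (γ 0).2 = _
  rw [k0, map_zero, add_zero]; rfl

theorem exists_intertwiner (a : MulAut Q) (h : a zq = zq) :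
    ∃ M : Matrix Cd Cd F, Mᵀ * M = 1 ∧ ∀ q, M * rho q = rho (a q) * M := by
  have hz (k : K) : a (zs k) = zs k := by rcases kc k with rfl | rfl <;> simp [h]
  let j : Du → Q := fun x => a ⟨0, 0, x⟩
  have jm (x y : Du) : j (x + y) = j x * j y := by
    rw [← map_mul]; exact congrArg a (Q.ext (by simp) (by simp) rfl)
  have ji (x : Du) : (j x)⁻¹ = j x := by rw [← map_inv]; exact congrArg a (Q.ext (by simp) rfl rfl)
  let E : Matrix Cd Cd F := ∑ x, rho (j x)
  have hE (y : Du) : rho (j y) * E = E := by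
    simp only [E, Finset.mul_sum, ← rho_mul, ← jm]
    exact Equiv.sum_comp (Equiv.addLeft y) fun x => rho (j x)
  have tE : Eᵀ = E := by simp only [E, transpose_sum, rho_transpose, ji]
  have EE : E * E = (4096 : F) • E := by
    conv_lhs => lhs; simp only [E]
    simp only [Finset.sum_mul, hE, Finset.sum_const, Finset.card_univ, card_Du]
    exact (Nat.cast_smul_eq_nsmul F 4096 E).symm
  have tr : E.trace = 4096 := by
    simp only [E, trace_sum, trace_rho]
    rw [Finset.sum_eq_single 0, show j 0 = 1 from map_one a, sig_eq, if_pos rfl, mul_one]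
    · intro x _ hx
      rw [sig_eq_zero, mul_zero]
      · exact fun e => hx (congrArg Q.x (a.injective (e.trans (map_one a).symm)))
      · exact fun e => hx (congrArg Q.x (a.injective (e.trans h.symm)))
    · simp
  obtain ⟨c, hc⟩ : ∃ c, E c c ≠ 0 := by
    by_contra! k
    simp only [trace, diag_apply, k, Finset.sum_const_zero] at tr
    exact absurd tr (by decide)
  obtain ⟨n, hn⟩ : ∃ n : ℕ, E c c = 2 ^ n := by
    let D : Du →+ Cd := AddMonoidHom.mk' (fun x => (j x).d) fun x y => by rw [jm]; rfl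
    have e1 : E c c = ∑ x ∈ Finset.univ.filter fun x => D x = 0, sg ((j x).s + (j x).x c) := by
      simp only [E, Matrix.sum_apply, rho_apply, Finset.sum_filter, left_eq_add]; rfl
    by_cases k : ∃ y, D y = 0 ∧ (j y).s + (j y).x c = 1
    · obtain ⟨y, y1, y2⟩ := k
      refine absurd (e1.trans (sum_sg_zero _ _ (a := y) (fun x => by simp [y1]) fun x _ => ?_)) hc
      have : (j y).d = 0 := y1
      simp only [jm, mul_s, mul_x, this, map_zero, LinearMap.add_apply, ← y2]; ring
    · obtain ⟨n, -, hn⟩ := (Nat.dvd_prime_pow Nat.prime_two (m := 12)).1 (by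
        have := D.ker.card_addSubgroup_dvd_card
        rw [Nat.card_eq_fintype_card (α := Du), card_Du] at this
        exact this : Nat.card D.ker ∣ 2 ^ 12)
      refine ⟨n, e1.trans ?_⟩
      rw [Finset.sum_congr rfl (g := fun _ => 1) fun x hx => by
        rw [(kc _).resolve_right fun e => k ⟨x, (Finset.mem_filter.1 hx).2, e⟩, sg_zero]]
      rw [Finset.sum_const, nsmul_one, ← Fintype.card_subtype, ← Nat.card_eq_fintype_card]
      exact (congrArg Nat.cast hn).trans (Nat.cast_pow 2 n)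
  let t : Cd → F := (64 * 8 ^ n : F)⁻¹ • fun i => E i c
  have ht (y : Du) : rho (j y) *ᵥ t = t := by
    rw [mulVec_smul]; congr 1; funext i
    exact congrFun (congrFun (hE y) i) c
  have tt : t ⬝ᵥ t = 1 := by
    have : (fun i => E i c) ⬝ᵥ (fun i => E i c) = 4096 * 2 ^ n := by
      rw [← hn, ← smul_eq_mul, ← Matrix.smul_apply, ← EE]
      exact Finset.sum_congr rfl fun i _ => congrArg (· * E i c) (congrFun (congrFun tE c) i)
    rw [smul_dotProduct, dotProduct_smul, this, show (2 : F) = 8 * 8 by decide, mul_pow]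
    have : (64 * 8 ^ n : F) ≠ 0 := mul_ne_zero (by decide) (pow_ne_zero _ (by decide))
    rw [smul_eq_mul, smul_eq_mul, show (4096 : F) * (8 ^ n * 8 ^ n) = 64 * 8 ^ n * (64 * 8 ^ n) by ring,
      inv_mul_cancel_left₀ this, inv_mul_cancel₀ this]
  let M : Matrix Cd Cd F := Matrix.of fun i d => (rho (a ⟨0, d, 0⟩) *ᵥ t) i
  have hM (q : Q) : M * rho q = rho (a q) * M := by
    ext i d
    have e : q * ⟨0, d, 0⟩ = zs (q.s + q.x d) * (⟨0, d + q.d, 0⟩ * ⟨0, 0, q.x⟩) :=
      Q.ext (by simp) (by simp [add_comm]) (by simp)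
    have e2 : (rho (a q) * M) i d = (rho (a q) *ᵥ (rho (a ⟨0, d, 0⟩) *ᵥ t)) i := rfl
    rw [e2, mulVec_mulVec, ← rho_mul, ← map_mul, e, map_mul, map_mul, hz, rho_mul, rho_mul, rho_zs, smul_mul_assoc,
      one_mul, smul_mulVec, ← mulVec_mulVec, ht]
    simp [mul_apply, rho_apply, M, mul_comm]
  refine ⟨M, ?_, hM⟩
  rw [schur (M := Mᵀ * M) fun q => ?_]
  · have : (Mᵀ * M) 0 0 = (rho (a 1) *ᵥ t) ⬝ᵥ (rho (a 1) *ᵥ t) := rfl
    rw [this, map_one, rho_one, one_mulVec, tt, one_smul]
  · have := congrArg transpose (hM q⁻¹)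
    rw [transpose_mul, transpose_mul, rho_transpose, rho_transpose, map_inv, inv_inv, inv_inv] at this
    rw [mul_assoc, hM, ← mul_assoc, ← this, mul_assoc]

theorem exists_Gx (g : Co0) : ∃ t : Gx, t.g = g := by
  obtain ⟨a, h1, h2⟩ := exists_aut g
  obtain ⟨M, h3, h4⟩ := exists_intertwiner a h1
  exact ⟨⟨M, g, a, h3, h4, h2⟩, rfl⟩

end

end CA.Gr
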