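import Cfsg.Agent.Gr.Sig1

/-! An element that fixes the matrix part and the lines of the short elements lies in the extraspecial group. -/

set_option autoImplicit false

namespace CA.Gr

open Cfsg CA.M24 Matrix
open scoped Kronecker

noncomputable section

local notation "Λ" => leechLattice

attribute [-simp] Fintype.sum_option Fintype.prod_option

theorem pm_of_Rv {v w : Vec} (mv : v ∈ Λ) (mw : w ∈ Λ) (hv : sqNorm v = 32) (hw : sqNorm w = 32) (h : Rv v = Rv w) :
    v = w ∨ v = -w := by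
  obtain ⟨k, hk⟩ := eight_dvd_dot mv mw
  have h1 := trace_Rv_mul v w
  rw [h, trace_Rv_mul, ← sqNorm_eq_dot, hw, hk] at h1
  have h2 : ((k ^ 2 - 16 : ℤ) : F) = 0 := by push_cast at h1 ⊢; grind
  have h3 := (ZMod.intCast_zmod_eq_zero_iff_dvd _ 31).1 h2
  have e1 := sqNorm_add v w
  have e2 := sqNorm_sub v w
  have n1 := sqNorm_nonneg (v + w)
  have n2 := sqNorm_nonneg (v - w)
  have : -4 ≤ k := by omega
  have : k ≤ 4 := by omega
  have : k = 4 ∨ k = -4 := by interval_cases k <;> simp_all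
  exact this.imp (fun _ => sub_eq_zero.1 (eq_zero_of_sqNorm (by omega))) fun _ =>
    eq_neg_of_add_eq_zero_left (eq_zero_of_sqNorm (by omega))

theorem mat_ext_dot {n : Type} [Fintype n] [DecidableEq n] {A A' : Matrix n n F}
    (h : ∀ v w, v ⬝ᵥ A *ᵥ w = v ⬝ᵥ A' *ᵥ w) : A = A' := by
  ext i j; simpa using h (Pi.single i 1) (Pi.single j 1)

theorem exists_mat {g : G} (hW : ∀ w, ∃ w', g.1 (vW w) = vW w') : ∃ N : Matrix Ix Ix F, Nᵀ * N = 1 ∧
    (∀ w, g.1 (vW w) = vW (N *ᵥ w)) ∧ ∀ a, N * Lm a = Lm (g.1 a) * N := by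
  let N := LinearMap.toMatrix' (cW ∘ₗ g.1.toLinearMap ∘ₗ vW)
  have h1 : ∀ w, g.1 (vW w) = vW (N *ᵥ w) := fun w => by
    obtain ⟨w', e⟩ := hW w
    rw [LinearMap.toMatrix'_mulVec]
    simp only [LinearMap.comp_apply, LinearEquiv.coe_coe, e, cW_vW]
  have h2 : Nᵀ * N = 1 := mat_ext_dot fun v w => by
    have := g.2.1 (vW v) (vW w)
    rw [h1, h1, be_vW, be_vW, cW_vW, cW_vW] at this
    rw [← mulVec_mulVec, dotProduct_mulVec, vecMul_transpose, one_mulVec]; grind
  refine ⟨N, h2, h1, fun a => ?_⟩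
  have h3 : Lm a = Nᵀ * (Lm (g.1 a) * N) := mat_ext_dot fun v w => by
    have := g.2.2 a (vW v) (vW w)
    rw [h1, h1, fm_WW, fm_WW] at this
    rw [← mulVec_mulVec, ← mulVec_mulVec, dotProduct_mulVec v Nᵀ, vecMul_transpose]; grind
  rw [h3, ← mul_assoc, mul_eq_one_comm.1 h2, one_mul]

theorem gen_short (S : Subgroup Q) (h : ∀ r, Short r → r ∈ S) (hz : zq ∈ S) (q : Q) : q ∈ S := by
  have h1 : ∀ x : W, (⟨0, 0, cc x⟩ : Q) ∈ S := fun x => by
    induction x using Pi.single_induction with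
    | zero => rw [map_zero]; exact one_mem S
    | add x y hx hy => convert mul_mem hx hy using 1; exact Q.ext (by simp) (by simp) (by simp)
    | single i m =>
      rcases kc m with rfl | rfl
      · rw [Pi.single_zero, map_zero]; exact one_mem S
      · simpa [xX, e1] using h _ (short_xX 0 i)
  have ne : (none : Pt) ≠ some 0 := by simp
  have h2 : xO ∈ S := by
    have := mul_mem (h _ (short_xP ne)) (h _ (short_xJ ne))
    rwa [xP_eq, mul_assoc, (short_xJ ne).sq, mul_one] at this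
  obtain ⟨x, hx⟩ := cc_surj (q.x + (xX q.d none).x)
  have h3 := mul_mem (h _ (short_xX q.d none)) (h1 x)
  have k : ∀ r ∈ S, q.d = r.d → q.x = r.x → q ∈ S := fun r hr a b => by
    rcases eq_or_of a b with e | e <;> rw [e]
    exacts [hr, mul_mem hz hr]
  rcases kc (pq q.d.1 + q.d.1 none) with e | e
  · exact k _ h3 (by simp [xX, e]) (by rw [mul_x, hx]; dux)
  · exact k _ (mul_mem h2 h3) (by simp only [xX, e, mul_d, xO_d]; cdx) (by rw [mul_x, mul_x, hx, xO_x]; dux)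

theorem vJx_eq (i j : Pt) : vJx i j = (4 : F)⁻¹ • (vA (Rv (vp i j)) (Rv_symm _) - vA (Rv (vm i j)) (Rv_symm _)) := by
  refine B.ext ?_ (by simp [vJx]) (by simp [vJx])
  ext a b; simp only [vJx, cA_vA, map_smul, map_sub, Matrix.smul_apply, Matrix.sub_apply, Rv_apply, vp, vm, EE_apply]
  push_cast [cast_ind1]; simp only [de, smul_eq_mul]; grind
theorem vD_eq (i j : Pt) : vD i + vD j = (4 : F)⁻¹ • (vA (Rv (vp i j)) (Rv_symm _) + vA (Rv (vm i j)) (Rv_symm _)) := by
  refine B.ext ?_ (by simp [vD]) (by simp [vD])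
  ext a b
  simp only [vD, cA_vA, map_smul, map_add, Matrix.smul_apply, Matrix.add_apply, Rv_apply, vp, vm, single_apply]
  push_cast [cast_ind1]; simp only [de, smul_eq_mul]; grind

theorem fix_A {g : G} (h' : ∀ v ∈ Λ, sqNorm v = 32 → g.1 (vA (Rv v) (Rv_symm v)) = vA (Rv v) (Rv_symm v)) :
    (∀ i j, i ≠ j → g.1 (vJx i j) = vJx i j) ∧ ∀ i, g.1 (vD i) = vD i := by
  have a2 : ∀ i j, i ≠ j → g.1 (vD i) + g.1 (vD j) = vD i + vD j := fun i j h => by
    rw [← map_add, vD_eq, map_smul, map_add, h' _ (vp_mem i j) (sqNorm_vp h), h' _ (vm_mem i j) (sqNorm_vm h)]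
  refine ⟨fun i j h => by
    rw [vJx_eq, map_smul, map_sub, h' _ (vp_mem i j) (sqNorm_vp h), h' _ (vm_mem i j) (sqNorm_vm h)], fun i => ?_⟩
  obtain ⟨j, hj⟩ := exists_notMem {i} (by simp)
  obtain ⟨k, hk⟩ := exists_notMem {i, j} (Finset.card_le_two.trans_lt (by norm_num))
  simp only [Finset.mem_insert, Finset.mem_singleton, not_or] at hj hk
  refine smul_right_injective B (show (2 : F) ≠ 0 by decide) ?_
  have := congrArg₂ (· - ·) (congrArg₂ (· + ·) (a2 i j (Ne.symm hj)) (a2 i k (Ne.symm hk.1))) (a2 j k (Ne.symm hk.2))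
  simp only [two_smul] at this ⊢
  rw [← sub_eq_zero] at this ⊢
  rw [← this]; abel

theorem eq_kron {N : Matrix Ix Ix F} (h1 : ∀ i j, i ≠ j → N * Lm (vJx i j) = Lm (vJx i j) * N)
    (h2 : ∀ i, N * Lm (vD i) = Lm (vD i) * N) : ∃ M, N = (1 : Mat) ⊗ₖ M := by
  have b0 : ∀ (A : Mat) (i j c c'), (N * A ⊗ₖ (1 : Matrix Cd Cd F)) (i, c) (j, c') = ∑ k, N (i, c) (k, c') * A k j := by
    intro A i j c c'
    simp [mul_apply, Fintype.sum_prod_type, one_apply]
  have b0' : ∀ (A : Mat) (i j c c'), (A ⊗ₖ (1 : Matrix Cd Cd F) * N) (i, c) (j, c') = ∑ k, A i k * N (k, c) (j, c') := by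
    intro A i j c c'
    simp [mul_apply, Fintype.sum_prod_type, one_apply]
  have b1 : ∀ i j c c', i ≠ j → N (i, c) (j, c') = 0 := fun i j c c' h => by
    have := congrFun (congrFun (h2 j) (i, c)) (j, c')
    rw [vD, Lm_vA, b0, b0'] at this
    simpa [mul_add, add_mul, Finset.sum_add_distrib, single_apply, one_apply, h.symm, mul_comm] using this
  refine ⟨Matrix.of fun c c' => N (none, c) (none, c'), ?_⟩
  ext ⟨i, c⟩ ⟨j, c'⟩
  rcases eq_or_ne i j with rfl | h
  · rcases eq_or_ne i none with rfl | h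
    · simp
    · have := congrFun (congrFun (h1 i none h) (i, c)) (none, c')
      rw [vJx, Lm_vA, b0, b0'] at this
      simpa [mul_add, add_mul, Finset.sum_add_distrib, EE_apply, one_apply, h.symm, h, mul_comm, b1 _ _ _ _ h] using this
  · simp [b1 _ _ _ _ h, h]

theorem sign_uniq {M : Matrix Cd Cd F} (m1 : Mᵀ * M = 1) {q : Q} {k k' : K} (e : M * rho q = sg k • (rho q * M))
    (e' : M * rho q = sg k' • (rho q * M)) : k = k' := by
  have := congrArg (fun X => (rho q⁻¹ * X * Mᵀ) 0 0) (e.symm.trans e')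
  simp only [mul_smul_comm, smul_mul_assoc, ← mul_assoc, ← rho_mul, inv_mul_cancel, rho_one, one_mul, mul_eq_one_comm.1 m1,
    Matrix.smul_apply, one_apply_eq, smul_eq_mul, mul_one] at this
  exact sg_inj this

theorem eq_rho {M : Matrix Cd Cd F} (m1 : Mᵀ * M = 1) (h : ∀ r, Short r → ∃ k, M * rho r = sg k • (rho r * M)) :
    ∃ q, M = rho q := by
  have c3 : ∀ a b k l, M * rho a = sg k • (rho a * M) → M * rho b = sg l • (rho b * M) →
      M * rho (a * b) = sg (k + l) • (rho (a * b) * M) := fun a b k l e e' => by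
    rw [rho_mul, ← mul_assoc, e, smul_mul_assoc, mul_assoc, e', mul_smul_comm, smul_smul, sg_add, mul_assoc]
  have cz : M * rho zq = sg 0 • (rho zq * M) := by simp
  let S : Subgroup Q := Subgroup.mk ⟨⟨{q | ∃ k, M * rho q = sg k • (rho q * M)}, fun ⟨k, e⟩ ⟨l, e'⟩ => ⟨_, c3 _ _ k l e e'⟩⟩,
    ⟨0, by simp⟩⟩ fun {q} ⟨k, e⟩ => ⟨_, by
      rw [show q⁻¹ = zs (q.x q.d) * q from Q.ext (by simp [add_comm]) (by simp) (by simp)]
      exact c3 _ _ 0 k (by simp [rho_zs]) e⟩
  choose f hf using gen_short S h ⟨0, cz⟩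
  obtain ⟨q, hq⟩ := exists_cm f (fun a b => sign_uniq m1 (hf _) (c3 _ _ _ _ (hf a) (hf b))) (sign_uniq m1 (hf _) cz)
  have d1 := schur (M := rho q⁻¹ * M) fun r => by
    rw [mul_assoc, hf, mul_smul_comm, ← mul_assoc, ← mul_assoc, ← rho_mul, ← rho_mul, mul_comm_cm q⁻¹, rho_mul (zs _), rho_zs,
      show cm q⁻¹ r = f r from hq r, smul_mul_assoc, smul_mul_assoc, smul_smul, sg_mul_self, one_smul, one_mul]
  generalize (rho q⁻¹ * M) 0 0 = c at d1
  have d2 : M = c • rho q := by rw [← mul_one (rho q), ← mul_smul_comm, ← d1, ← mul_assoc, ← rho_mul, mul_inv_cancel]; simp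
  obtain ⟨k, rfl⟩ : ∃ k, c = sg k := by
    have := congrFun (congrFun m1 0) 0
    rw [d2, transpose_smul, rho_transpose, smul_mul_smul_comm, ← rho_mul, inv_mul_cancel, rho_one] at this
    rcases mul_self_eq_one_iff.1 (by simpa using this : c * c = 1) with e | e
    exacts [⟨0, e⟩, ⟨1, e⟩]
  exact ⟨zs k * q, by rw [d2, rho_mul, rho_zs, smul_mul_assoc, one_mul]⟩

theorem sign_of_Lm {M : Matrix Cd Cd F} {r : Q} (hr : Short r) {c : F}
    (h : (1 : Mat) ⊗ₖ M * Lm (xv r) = Lm (c • xv r) * (1 : Mat) ⊗ₖ M) : M * rho r = c • (rho r * M) := by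
  rw [map_smul, Lm_xv hr, smul_mul_assoc, ← mul_kronecker_mul, ← mul_kronecker_mul, one_mul, mul_one] at h
  have t : trace ((8⁻¹ : F) • ((1 : Mat) - (2 : F) • R r)) = 2 := by
    rw [trace_smul, trace_sub, trace_smul, R, trace_Rv, hr.norm, trace_one, card_Pt, smul_eq_mul, smul_eq_mul]; push_cast; grind
  generalize (8⁻¹ : F) • ((1 : Mat) - (2 : F) • R r) = U at h t
  ext a b
  have := Finset.sum_congr (s₁ := Finset.univ) rfl fun i _ => congrFun (congrFun h (i, a)) (i, b)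
  simp only [kroneckerMap_apply, Matrix.smul_apply, smul_eq_mul, ← Finset.mul_sum, ← Finset.sum_mul] at this ⊢
  rw [show ∑ i, U i i = 2 from t] at this; grind

theorem tits2' {g : G} (hW : ∀ w, ∃ w', g.1 (vW w) = vW w') (hX : ∀ r, Short r → ∃ s, Short s ∧ g.1 (xv r) = xv s ∧
    g.1 (vA (Rv (vec r)) (Rv_symm _)) = vA (Rv (vec s)) (Rv_symm _))
    (h' : ∀ v ∈ Λ, sqNorm v = 32 → g.1 (vA (Rv v) (Rv_symm v)) = vA (Rv v) (Rv_symm v)) : ∃ q, g = iota q := by
  obtain ⟨a1, a3⟩ := fix_A h'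
  have a4 : ∀ r, Short r → ∃ k, g.1 (xv r) = sg k • xv r := fun r hr => by
    obtain ⟨s, hs, e1, e2⟩ := hX r hr
    rw [h' _ hr.lam.1 hr.norm] at e2
    have : Lam s (vec r) := by
      rcases pm_of_Rv hr.lam.1 hs.lam.1 hr.norm hs.norm (congrArg cA e2) with e | e <;> rw [e]
      exacts [hs.lam, hs.lam.neg]
    obtain ⟨k, e⟩ := this.eq_zs hr.lam
    exact ⟨k, by rw [e1, e, xv_zs]⟩
  obtain ⟨N, n1, n2, n3⟩ := exists_mat hW
  obtain ⟨M, rfl⟩ := eq_kron (N := N) (fun i j h => by rw [n3, a1 i j h]) fun i => by rw [n3, a3]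
  have m1 : Mᵀ * M = 1 := by
    ext c c'
    have := congrFun (congrFun n1 (none, c)) (none, c')
    rw [← kroneckerMap_transpose, ← mul_kronecker_mul] at this
    simpa [one_apply] using this
  have c1 : ∀ r k, Short r → g.1 (xv r) = sg k • xv r → M * rho r = sg k • (rho r * M) := fun r k hr e =>
    sign_of_Lm hr (by rw [n3, e])
  obtain ⟨q, rfl⟩ := eq_rho m1 fun r hr => (a4 r hr).imp fun k => c1 r k hr
  have e1 : ∀ r, Short r → g.1 (xv r) = (iota q).1 (xv r) := fun r hr => by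
    obtain ⟨l, e⟩ := a4 r hr
    rw [e, iota_xv, sign_uniq m1 (c1 r l hr e) (k' := cm q r) (by
      rw [← rho_mul, mul_comm_cm, rho_mul, rho_zs, smul_mul_assoc, one_mul, rho_mul])]
  have e2 : ∀ w, g.1 (vW w) = (iota q).1 (vW w) := fun w => by rw [n2, iota_vW]
  refine ⟨q, Subtype.ext (LinearEquiv.toLinearMap_injective (LinearMap.ext_on_range span_v0 fun a => ?_))⟩
  simp only [LinearEquiv.coe_coe]
  cases a with
  | D i => exact (a3 i).trans (iota_vA _ _ _).symm
  | Jx i j h => exact (a1 i j h).trans (iota_vA _ _ _).symm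
  | Jy i j h => simp only [v0, vJy, map_sub, e1 _ (short_xJ h), e1 _ (short_xP h)]
  | Jz i j h => simp only [v0, vJz, map_add, e1 _ (short_xJ h), e1 _ (short_xP h)]
  | T o t ho ht => exact e1 _ (short_xT ho ht)
  | X d i => exact e1 _ (short_xX d i)
  | Y d i => exact e2 _
  | Z d i => exact e2 _

end

end CA.Gr
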