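import Cfsg.Agent.Gr.Sig6
import Cfsg.Agent.Gr.Lift
import Cfsg.Agent.Gr.Tits2
import Cfsg.Agent.Gr.Final

/-! Assembly. -/

set_option autoImplicit false

namespace CA.Gr

open Cfsg CA.M24 Matrix

local notation "Λ" => leechLattice

theorem ind_Phi (t : Gx) : Ind iota (Phi t) t.g := fun q v h => ⟨_, conj_iota t q, t.lam q v h⟩
theorem comm_Phi (t : Gx) : Commute (Phi t) (iota zq) := by
  have := conj_iota t zq
  rw [t.a_zq] at this
  exact mul_inv_eq_iff_eq_mul.1 this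
theorem Phi_Rv (t : Gx) {v : Vec} (h : v ∈ Λ) : (Phi t).1 (vA (Rv v) (Rv_symm v)) = vA (Rv (act t.g v)) (Rv_symm _) := by
  rw [Phi_apply]
  exact B.ext (by rw [Gx.cA_lin, cA_vA, cA_vA, mat_Rv _ h]) (funext fun q => by simp) (by simp)

theorem main_of (t1 : ∀ {g : G}, Commute g (iota zq) → ∃ γ : Co0, ∀ v ∈ Λ, sqNorm v = 32 →
      g.1 (vA (Rv v) (Rv_symm v)) = vA (Rv (act γ v)) (Rv_symm _))
    (t2 : ∀ {g : G}, Commute g (iota zq) → (∀ v ∈ Λ, sqNorm v = 32 → g.1 (vA (Rv v) (Rv_symm v)) = vA (Rv v) (Rv_symm v)) →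
      ∃ q, g = iota q) : IsSimpleGroup G ∧ ¬ IsMulCommutative G ∧ IsGroupOfMonsterType G := by
  have key : ∀ h : G, Commute h (iota zq) → ∃ t, h = Phi t := fun h c => by
    obtain ⟨γ, e⟩ := t1 c
    obtain ⟨t, rfl⟩ := exists_Gx γ
    obtain ⟨q, hq⟩ := t2 ((comm_Phi t⁻¹).mul_left c) fun v hv hn => by
      rw [Subgroup.coe_mul, LinearEquiv.mul_apply, e v hv hn, Phi_Rv _ (act_mem _ hv)]
      simp only [Gx.inv_g, act_inv_act]
    exact ⟨t * jq q, by rw [map_mul]; exact (inv_mul_eq_iff_eq_mul.1 (map_inv Phi t ▸ hq))⟩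
  refine final iota iota_inj (fun γ => ?_) (fun h c => ?_) (fun h c i => ?_) exists_sigma
  · obtain ⟨t, rfl⟩ := exists_Gx γ
    exact ⟨_, comm_Phi t, ind_Phi t⟩
  · obtain ⟨t, rfl⟩ := key h c
    exact ⟨_, ind_Phi t⟩
  · obtain ⟨t, rfl⟩ := key h c
    have : t.g = 1 ∨ t.g = ng := eq_of_cong_all fun v hv => by
      obtain ⟨q, hq⟩ := exists_lam hv
      obtain ⟨q', e, l⟩ := i q v hq
      rw [conj_iota] at e
      rw [act_one, ← iota_inj e] at l
      exact (t.lam q v hq).cong l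
    refine t2 c fun v hv _ => ?_
    rw [Phi_Rv t hv]
    rcases this with e | e <;> simp only [e, act_one, act_ng hv, Rv_neg]

end CA.Gr
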