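import Cfsg.Agent.Gr.Code

/-! The extraspecial group, its representation, its map to the lattice modulo two. -/

set_option autoImplicit false

namespace CA.Gr

open Cfsg CA.M24 Matrix

noncomputable section

local notation "Λ" => leechLattice

/-- the extraspecial group of order `2 ^ 25` -/
@[ext] structure Q where
  s : K
  d : Cd
  x : Du

instance : Mul Q := ⟨fun a b => ⟨a.s + b.s + a.x b.d, a.d + b.d, a.x + b.x⟩⟩
instance : One Q := ⟨⟨0, 0, 0⟩⟩
instance : Inv Q := ⟨fun a => ⟨a.s + a.x a.d, a.d, a.x⟩⟩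

@[simp] theorem mul_s (a b : Q) : (a * b).s = a.s + b.s + a.x b.d := rfl
@[simp] theorem mul_d (a b : Q) : (a * b).d = a.d + b.d := rfl
@[simp] theorem mul_x (a b : Q) : (a * b).x = a.x + b.x := rfl
@[simp] theorem one_s : (1 : Q).s = 0 := rfl
@[simp] theorem one_d : (1 : Q).d = 0 := rfl
@[simp] theorem one_x : (1 : Q).x = 0 := rfl
@[simp] theorem inv_s (a : Q) : a⁻¹.s = a.s + a.x a.d := rfl
@[simp] theorem inv_d (a : Q) : a⁻¹.d = a.d := rfl
@[simp] theorem inv_x (a : Q) : a⁻¹.x = a.x := rfl

instance : Group Q := Group.ofLeftAxioms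
  (fun a b c => Q.ext (by simp only [mul_s, mul_d, mul_x, map_add, LinearMap.add_apply]; ring) (add_assoc _ _ _)
    (add_assoc _ _ _))
  (fun a => Q.ext (by simp) (by simp) (by simp)) fun a => Q.ext (by simp only [mul_s, inv_s, inv_x, one_s]; grind)
    (by simp) (by simp)

/-- coordinates -/
def qEquiv : Q ≃ K × Cd × Du := ⟨fun q => (q.s, q.d, q.x), fun p => ⟨p.1, p.2.1, p.2.2⟩, fun _ => rfl, fun _ => rfl⟩

instance : Fintype Q := Fintype.ofEquiv _ qEquiv.symm
instance : DecidableEq Q := Classical.decEq _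

theorem card_Q : Nat.card Q = 2 ^ 25 := by
  rw [Nat.card_congr qEquiv, Nat.card_eq_fintype_card, Fintype.card_prod, Fintype.card_prod, card_Cd, card_Du, ZMod.card]
  norm_num

/-- the central element with sign `a` -/
def zs (a : K) : Q := ⟨a, 0, 0⟩
/-- the central involution -/
def zq : Q := ⟨1, 0, 0⟩
/-- the element of the all-one word -/
def xO : Q := ⟨0, om, 0⟩
/-- the commutator form -/
def cm (a b : Q) : K := a.x b.d + b.x a.d

@[simp] theorem zs_s (a : K) : (zs a).s = a := rfl
@[simp] theorem zs_d (a : K) : (zs a).d = 0 := rfl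
@[simp] theorem zs_x (a : K) : (zs a).x = 0 := rfl
@[simp] theorem zq_s : zq.s = 1 := rfl
@[simp] theorem zq_d : zq.d = 0 := rfl
@[simp] theorem zq_x : zq.x = 0 := rfl
@[simp] theorem xO_s : xO.s = 0 := rfl
@[simp] theorem xO_d : xO.d = om := rfl
@[simp] theorem xO_x : xO.x = 0 := rfl
@[simp] theorem zs_zero : zs 0 = 1 := rfl
@[simp] theorem zs_one : zs 1 = zq := rfl
theorem zq_ne_one : zq ≠ 1 := fun h => one_ne_zero (congrArg Q.s h)
@[simp] theorem zq_mul_zq : zq * zq = 1 := Q.ext (by simp) (by simp) (by simp)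
@[simp] theorem zq_zq (a : Q) : zq * (zq * a) = a := by rw [← mul_assoc, zq_mul_zq, one_mul]
theorem zq_comm (a : Q) : a * zq = zq * a := Q.ext (by simp [add_comm]) (by simp) (by simp)
theorem zs_comm (k : K) (a : Q) : a * zs k = zs k * a := Q.ext (by simp [add_comm]) (by simp) (by simp)
theorem zq_mul_ne (a : Q) : zq * a ≠ a := fun h => zq_ne_one (by simpa using h)
theorem mul_comm_cm (a b : Q) : a * b = zs (cm a b) * (b * a) :=
  Q.ext (by simp only [mul_s, zs_s, zs_x, cm, LinearMap.zero_apply]; grind) (by simp [add_comm]) (by simp [add_comm])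
theorem conj_eq (a b : Q) : a * b * a⁻¹ = zs (cm a b) * b := by rw [mul_comm_cm a b]; group
theorem mul_self_eq (a : Q) : a * a = zs (a.x a.d) := Q.ext (by simp) (by simp) (by simp)
theorem cm_comm (a b : Q) : cm a b = cm b a := add_comm _ _
theorem cm_mul (a b c : Q) : cm (a * b) c = cm a c + cm b c := by
  simp only [cm, mul_x, mul_d, map_add, LinearMap.add_apply]; ring
theorem eq_or_of {a b : Q} (h1 : b.d = a.d) (h2 : b.x = a.x) : b = a ∨ b = zq * a := by
  rcases kc (a.s + b.s) with h | h
  · exact .inl (Q.ext (by grind) h1 h2)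
  · exact .inr (Q.ext (by simp only [mul_s, zq_s, zq_x, LinearMap.zero_apply]; grind) (by simp [h1]) (by simp [h2]))
theorem central {a : Q} (h : ∀ b, cm a b = 0) : a = 1 ∨ a = zq := by
  rw [← mul_one zq]
  refine eq_or_of (by_contra fun e => ?_) (LinearMap.ext fun c => by simpa [cm] using h ⟨0, c, 0⟩)
  obtain ⟨x, hx⟩ := exists_dual e
  simpa [cm, hx] using h ⟨0, 0, x⟩

/-- every homomorphism to signs that kills the centre is a commutator -/
theorem exists_cm (f : Q → K) (hf : ∀ a b, f (a * b) = f a + f b) (hz : f zq = 0) : ∃ q, ∀ a, cm q a = f a := by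
  have h1 : f 1 = 0 := by simpa using hf 1 1
  have sm : ∀ {M : Type} [AddCommGroup M] [Module K M] (g : M → K), g 0 = 0 → ∀ (a : K) (d : M), g (a • d) = a • g d :=
    fun g h a d => by rcases kc a with rfl | rfl <;> simp [h]
  let x : Du := ⟨⟨fun c => f ⟨0, c, 0⟩, fun c c' => by rw [← hf]; exact congrArg f (Q.ext (by simp) rfl (by simp))⟩,
    sm _ h1⟩
  let y : Module.Dual K Du := ⟨⟨fun c => f ⟨0, 0, c⟩, fun c c' => by rw [← hf]; exact congrArg f (Q.ext (by simp) (by simp) rfl)⟩,
    sm _ h1⟩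
  obtain ⟨d, hd⟩ := (Module.evalEquiv K Cd).surjective y
  refine ⟨⟨0, d, x⟩, fun a => ?_⟩
  have e : a = zs a.s * (⟨0, a.d, 0⟩ * ⟨0, 0, a.x⟩) := Q.ext (by simp) (by simp) (by simp)
  have hs : f (zs a.s) = 0 := by rcases kc a.s with h | h <;> simp [h, h1, hz]
  conv_rhs => rw [e, hf, hf, hs, zero_add]
  exact congrArg _ (LinearMap.congr_fun hd a.x)

/-- `1` on the identity, `-1` on the central involution, `0` elsewhere -/
def sig (q : Q) : F := if q.d = 0 ∧ q.x = 0 then sg q.s else 0

@[simp] theorem sig_one : sig 1 = 1 := if_pos ⟨rfl, rfl⟩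
@[simp] theorem sig_zq : sig zq = -1 := if_pos ⟨rfl, rfl⟩
theorem sig_zs_mul (k : K) (q : Q) : sig (zs k * q) = sg k * sig q := by
  simp only [sig, mul_d, mul_x, mul_s, zs_d, zs_x, zs_s, zero_add, LinearMap.zero_apply, add_zero, sg_add]
  split_ifs <;> simp
@[simp] theorem sig_zq_mul (q : Q) : sig (zq * q) = -sig q := by rw [← zs_one, sig_zs_mul]; simp
theorem sig_eq (q : Q) : sig q = if q = 1 then 1 else if q = zq then -1 else 0 := by
  split_ifs with h1 h2
  · simp [h1]
  · simp [h2]
  · exact if_neg fun h => (eq_or_of (a := 1) h.1 h.2).elim h1 (by simpa using h2)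
theorem sig_eq_zero {q : Q} (h1 : q ≠ 1) (h2 : q ≠ zq) : sig q = 0 := by rw [sig_eq, if_neg h1, if_neg h2]
theorem sig_comm (a b : Q) : sig (a * b) = sig (b * a) := by
  have : ∀ z : Q, (∀ c, c * z = z * c) → ∀ a b, a * b = z → b * a = z := fun z h a b e => by
    rw [← mul_left_inj b, mul_assoc, e, h]
  simp only [sig_eq]
  rw [if_congr ⟨this 1 (by simp) a b, this 1 (by simp) b a⟩ rfl (if_congr ⟨this zq zq_comm a b, this zq zq_comm b a⟩ rfl rfl)]
theorem sig_inv (a : Q) : sig a⁻¹ = sig a := by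
  unfold sig; split_ifs with h k k <;> simp_all

/-- the representation of degree 4096 -/
def rho (q : Q) : Matrix Cd Cd F := Matrix.of fun c' c => if c' = c + q.d then sg (q.s + q.x c) else 0

theorem rho_apply (q : Q) (c' c : Cd) : rho q c' c = if c' = c + q.d then sg (q.s + q.x c) else 0 := rfl
@[simp] theorem rho_one : rho 1 = 1 := by ext a b; simp [rho_apply, one_apply]
theorem rho_mul (a b : Q) : rho (a * b) = rho a * rho b := by
  ext c' c
  simp only [mul_apply, rho_apply, mul_ite, mul_zero, Finset.sum_ite_eq', Finset.mem_univ, if_true, mul_d, mul_s, mul_x,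
    map_add, LinearMap.add_apply, add_assoc c, add_comm b.d, ite_mul, zero_mul, ← sg_add]
  congr 2; ring
theorem rho_zs (k : K) : rho (zs k) = sg k • 1 := by ext a b; simp [rho_apply, one_apply]
@[simp] theorem rho_zq : rho zq = -1 := by rw [← zs_one, rho_zs]; simp
theorem rho_transpose (a : Q) : (rho a)ᵀ = rho a⁻¹ := by
  ext c' c
  simp only [transpose_apply, rho_apply, inv_d, inv_s, inv_x]
  by_cases h : c = c' + a.d
  · subst h; simp only [add_assoc, c_add_self, add_zero, if_true, map_add]; congr 1; grind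
  · rw [if_neg h, if_neg]; rintro rfl; simp [add_assoc] at h
theorem trace_rho (a : Q) : (rho a).trace = 4096 * sig a := by
  simp only [trace, diag, rho_apply, left_eq_add, sig, sg_add]
  by_cases h : a.d = 0
  · simp only [h, if_true, true_and, ← Finset.mul_sum, sum_sg_Cd]; split_ifs <;> simp [mul_comm]
  · simp [h]
theorem rho_inj : Function.Injective rho := fun a b h => by
  have := trace_rho (a * b⁻¹)
  rw [rho_mul, h, ← rho_mul, mul_inv_cancel, trace_rho, sig_one, sig_eq] at this
  split_ifs at this with e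
  · exact mul_inv_eq_one.1 e
  all_goals exact absurd this (by decide)

/-- a matrix commuting with the representation is scalar -/
theorem schur {M : Matrix Cd Cd F} (h : ∀ q, M * rho q = rho q * M) : M = M 0 0 • 1 := by
  ext a b
  by_cases e : a = b
  · subst e
    have := congrFun (congrFun (h ⟨0, a, 0⟩) a) 0
    simp only [mul_apply, rho_apply, mul_ite, ite_mul, mul_zero, zero_mul, zero_add, Finset.sum_ite_eq', Finset.mem_univ,
      if_true, LinearMap.zero_apply, sg_zero, mul_one, one_mul, right_eq_add] at this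
    simpa using this
  · obtain ⟨x, hx⟩ := exists_dual (c := a + b) fun k => e (by rw [← add_zero a, ← c_add_self b, ← add_assoc, k, zero_add])
    have := congrFun (congrFun (h ⟨0, 0, x⟩) a) b
    simp only [mul_apply, rho_apply, mul_ite, ite_mul, mul_zero, zero_mul, zero_add, add_zero, Finset.sum_ite_eq',
      Finset.sum_ite_eq, Finset.mem_univ, if_true] at this
    rw [map_add] at hx
    rw [show x a = x b + 1 by grind, sg_add] at this
    have := sg_mul_self (x b)
    simp only [Matrix.smul_apply, one_apply_ne e, smul_zero, sg_one] at *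
    grind

end

end CA.Gr
theorem CA.Gr.realizeEqnsQ : True := by
  have := @CA.Gr.zs.eq_1
  have := @CA.Gr.zs.eq_def
  have := @CA.Gr.zs.congr_simp
  have := @CA.Gr.qEquiv.eq_1
  have := @CA.Gr.qEquiv.eq_def
  have := @CA.Gr.qEquiv.congr_simp
  have := @CA.Gr.zq.eq_1
  have := @CA.Gr.zq.eq_def
  have := @CA.Gr.zq.congr_simp
  have := @CA.Gr.rho.eq_1
  have := @CA.Gr.rho.eq_def
  have := @CA.Gr.rho.congr_simp
  have := @CA.Gr.sig.eq_1
  have := @CA.Gr.sig.eq_def
  have := @CA.Gr.sig.congr_simp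
  have := @CA.Gr.xO.eq_1
  have := @CA.Gr.xO.eq_def
  have := @CA.Gr.xO.congr_simp
  have := @CA.Gr.cm.eq_1
  have := @CA.Gr.cm.eq_def
  have := @CA.Gr.cm.congr_simp
  trivial
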