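import Cfsg.Agent.Gr.Fam

/-! Closed formulas: matrices of short elements, products of short elements, character sums. -/

set_option autoImplicit false

namespace CA.Gr

open Cfsg CA.M24 Matrix

noncomputable section

attribute [-simp] Fintype.sum_option Fintype.prod_option

macro "cdx" : tactic => `(tactic| (refine Subtype.ext (funext fun p => ?_); simp only [Submodule.coe_add, Submodule.coe_smul,
  Pi.add_apply, Pi.smul_apply, om_apply, smul_eq_mul, ZeroMemClass.coe_zero, Pi.zero_apply, mul_one]; grind))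
macro "dux" : tactic => `(tactic| (refine LinearMap.ext fun c => ?_; simp only [LinearMap.add_apply, LinearMap.zero_apply]; grind))

/-- the delta of two points -/
def de (i j : Pt) : F := if i = j then 1 else 0

theorem cast_ind1 (i k : Pt) : ((ind {i} k : ℤ) : F) = de i k := by
  simp [ind, de, eq_comm]
theorem one_eq_de (i j : Pt) : (1 : Mat) i j = de i j := rfl
theorem sg_eq_io (a : K) : 1 - 2 * io a = sg a := by revert a; decide

theorem R_xJ {l m : Pt} (h : l ≠ m) (i j : Pt) : R (xJ l m) i j = 2 * (de l i - de m i) * (de l j - de m j) := by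
  rw [(lam_xJ l m).R_eq (sqNorm_vm h), Rv_apply, vm, vm]; push_cast [cast_ind1]; grind
theorem R_xP {l m : Pt} (h : l ≠ m) (i j : Pt) : R (xP l m) i j = 2 * (de l i + de m i) * (de l j + de m j) := by
  rw [(lam_xP l m).R_eq (sqNorm_vp h), Rv_apply, vp, vp]; push_cast [cast_ind1]; grind
theorem R_xT {o : Cd} (ho : wt o.1 = 8) {t : W} (ht : t ∈ ev o) (i j : Pt) :
    R (xT o t) i j = 2⁻¹ * io (o.1 i) * io (o.1 j) * sg (t i + t j) := by
  rw [(lam_xT ho ht).R_eq (norm_vT ho t), Rv_apply, vT, vT, sg_add]; push_cast [castF_zv, sg_eq_io]; grind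
theorem R_xX (d : Cd) (i l m : Pt) : R (xX d i) l m = 8⁻¹ * sg (d.1 l + d.1 m) * (1 - 4 * de i l) * (1 - 4 * de i m) := by
  rw [(lam_xX d i).R_eq (norm_vX d i), Rv_apply, vX, vX, sg_add]; push_cast [castF_zv, sg_eq_io, cast_ind1]; grind

theorem cc_small {x : W} (h : wt x < 8) : cc x = 0 ↔ x = 0 :=
  ⟨fun e => eq_zero_of_wt_lt (cc_eq_zero.1 e) h, fun e => by simp [e]⟩
theorem wt_e2 (i j : Pt) : wt (e1 i + e1 j) ≤ 2 := by have := wt_add_le (e1 i) (e1 j); rwa [wt_e1, wt_e1] at this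
theorem cc_e2 {i j : Pt} : cc (e1 i + e1 j) = 0 ↔ i = j := by
  rw [cc_small (by have := wt_e2 i j; omega)]
  refine ⟨fun h => ?_, fun h => by simp [h]⟩
  have := congrFun h i
  simp only [Pi.add_apply, e1_apply, Pi.zero_apply] at this; grind
theorem cc_e4 {l m : Pt} (h : l ≠ m) {i j : Pt} :
    cc (e1 l + e1 m + (e1 i + e1 j)) = 0 ↔ (l = i ∧ m = j) ∨ (m = i ∧ l = j) := by
  rw [cc_small (by have := wt_e2 i j; have := wt_e2 l m; have := wt_add_le (e1 l + e1 m) (e1 i + e1 j); omega)]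
  refine ⟨fun h => ?_, ?_⟩
  · have h1 := congrFun h l
    have h2 := congrFun h m
    simp only [Pi.add_apply, e1_apply, Pi.zero_apply] at h1 h2; grind
  · rintro (⟨rfl, rfl⟩ | ⟨rfl, rfl⟩) <;> simp [add_comm]
theorem ite_e4 {l m : Pt} (h : l ≠ m) (i j : Pt) :
    (if cc (e1 l + e1 m + (e1 i + e1 j)) = 0 then 1 else 0) = EE l m i j := by
  simp only [cc_e4 h, EE_apply]; grind
theorem trace_mul_EE (A : Mat) (i j : Pt) : (A * EE i j).trace = A j i + A i j := by
  simp only [EE, mul_add, trace_add, trace_mul_single, op_smul_eq_mul, mul_one]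
theorem EE_mul_apply (A : Mat) (i j a b : Pt) : (EE i j * A) a b = de i a * A j b + de j a * A i b := by
  simp only [EE, add_mul, Matrix.add_apply, mul_apply, single_apply, de, ite_and, ite_mul, one_mul, zero_mul,
    Finset.sum_add_distrib, Finset.sum_ite_irrel, Finset.sum_const_zero, Finset.sum_ite_eq, Finset.mem_univ, if_true]
theorem cc_e6 {i j k l m n : Pt} (h1 : i ≠ j) (h2 : k ≠ l) (h3 : m ≠ n) :
    cc (e1 i + e1 j + (e1 k + e1 l) + (e1 m + e1 n)) = 0 ↔ (i = n ∧ (k = j ∧ l = m ∨ l = j ∧ k = m)) ∨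
      (j = n ∧ (k = i ∧ l = m ∨ l = i ∧ k = m)) ∨ (i = m ∧ (k = j ∧ l = n ∨ l = j ∧ k = n)) ∨
      (j = m ∧ (k = i ∧ l = n ∨ l = i ∧ k = n)) := by
  rw [cc_small (by
    have := wt_e2 i j; have := wt_e2 k l; have := wt_e2 m n; have := wt_add_le (e1 i + e1 j) (e1 k + e1 l)
    have := wt_add_le (e1 i + e1 j + (e1 k + e1 l)) (e1 m + e1 n); omega)]
  refine ⟨fun h => ?_, fun h => funext fun p => ?_⟩
  · have a1 := congrFun h i
    have a2 := congrFun h j
    have a3 := congrFun h k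
    have a4 := congrFun h l
    have a5 := congrFun h m
    have a6 := congrFun h n
    simp only [Pi.add_apply, e1_apply, Pi.zero_apply] at a1 a2 a3 a4 a5 a6; grind (splits := 30)
  · simp only [Pi.add_apply, Pi.zero_apply]
    rcases h with ⟨rfl, ⟨rfl, rfl⟩ | ⟨rfl, rfl⟩⟩ | ⟨rfl, ⟨rfl, rfl⟩ | ⟨rfl, rfl⟩⟩ | ⟨rfl, ⟨rfl, rfl⟩ | ⟨rfl, rfl⟩⟩ |
      ⟨rfl, ⟨rfl, rfl⟩ | ⟨rfl, rfl⟩⟩ <;> grind
theorem ite_e6 {i j k l m n : Pt} (h1 : i ≠ j) (h2 : k ≠ l) (h3 : m ≠ n) :
    (if cc (e1 i + e1 j + (e1 k + e1 l) + (e1 m + e1 n)) = 0 then 1 else 0) = (EE i j * EE k l * EE m n).trace := by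
  simp only [cc_e6 h1 h2 h3, trace_mul_EE, EE_mul_apply, EE_apply, de]
  grind (splits := 30)

theorem xX_add_om (d : Cd) (i : Pt) : xX (d + om) i = xX d i :=
  Q.ext rfl (by simp [xX, add_smul, add_assoc, add_left_comm om]) (by simp [xX])

theorem sig_dl {q : Q} {d e : Cd} {a : K} (h : q.d = d + e + a • om) {x : F} (H : e = d ∨ e = d + om → sig q = x) :
    sig q = x * dl 0 (d + e) := by
  by_cases h1 : e = d ∨ e = d + om
  · rw [H h1]; rcases h1 with rfl | rfl <;> simp [← add_assoc, dl, om_ne_zero]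
  · rw [not_or] at h1
    rw [dl, if_neg (mt add_eq_zero_cd.1 h1.1), if_neg (mt add_eq_om.1 h1.2), mul_zero, sig, if_neg fun k => ?_]
    rcases kc a with rfl | rfl
    · exact h1.1 (add_eq_zero_cd.1 (by simpa [h] using k.1))
    · exact h1.2 (add_eq_om.1 (add_eq_zero_cd.1 (by simpa [h] using k.1)).symm)

theorem smul_om_eq_zero {a : K} : a • om = 0 ↔ a = 0 := by rcases kc a with rfl | rfl <;> simp [om_ne_zero]
theorem cd_two (a : K) (c : Cd) : a • c + a • c = 0 := c_add_self _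

theorem sig_XX (d e : Cd) (i j : Pt) : sig (xX d i * xX e j) = de i j * dl 0 (d + e) := by
  refine sig_dl (a := pq d.1 + d.1 i + (pq e.1 + e.1 j)) (by simp only [xX, mul_d, add_smul]; abel) fun h => ?_
  rw [show xX e j = xX d j by rcases h with rfl | rfl <;> simp [xX_add_om], de]
  split_ifs with k
  · rw [k, (short_xX d j).sq, sig_one]
  · exact if_neg fun e => k (cc_e2.1 (by rw [← e.2]; simp only [xX, mul_x, map_add]; dux))

theorem sig_OJXX (a : K) {l m : Pt} (h : l ≠ m) (d e : Cd) (i j : Pt) :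
    sig (⟨0, a • om, cc (e1 l + e1 m)⟩ * xX d i * xX e j) =
      (if d.1 l + d.1 m = a then sg a else 0) * EE l m i j * dl 0 (d + e) := by
  refine sig_dl (a := a + (pq d.1 + d.1 i) + (pq e.1 + e.1 j)) (by simp only [xX, mul_d, add_smul]; abel) fun k => ?_
  rw [show xX e j = xX d j by rcases k with rfl | rfl <;> simp [xX_add_om], ← ite_e4 h, sig]
  have h1 : (⟨0, a • om, cc (e1 l + e1 m)⟩ * xX d i * xX d j : Q).d = (a + d.1 i + d.1 j) • om := by
    simp only [xX, mul_d]; cdx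
  have h2 : (⟨0, a • om, cc (e1 l + e1 m)⟩ * xX d i * xX d j : Q).x = cc (e1 l + e1 m + (e1 i + e1 j)) := by
    simp only [xX, mul_x, map_add]; dux
  have h3 : (⟨0, a • om, cc (e1 l + e1 m)⟩ * xX d i * xX d j : Q).s = d.1 i + d.1 j := by
    simp [xX, th_self]; grind
  simp only [h1, h2, h3, smul_om_eq_zero, cc_e4 h]
  grind
theorem sig_JXX {l m : Pt} (h : l ≠ m) (d e : Cd) (i j : Pt) :
    sig (xJ l m * xX d i * xX e j) = (if d.1 l + d.1 m = 0 then 1 else 0) * EE l m i j * dl 0 (d + e) := by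
  simpa [xJ] using sig_OJXX 0 h d e i j
theorem sig_PXX {l m : Pt} (h : l ≠ m) (d e : Cd) (i j : Pt) :
    sig (xP l m * xX d i * xX e j) = (if d.1 l + d.1 m = 1 then -1 else 0) * EE l m i j * dl 0 (d + e) := by
  simpa [xP] using sig_OJXX 1 h d e i j

/-! ### sums over the even subsets of an octad -/

/-- `m` meets `o` in nothing or everything -/
def ch (o : Cd) (m : W) : F := if m * o.1 = 0 ∨ m * o.1 = o.1 then 1 else 0

theorem ev_add {o : Cd} {s t : W} (hs : s ∈ ev o) (ht : t ∈ ev o) : s + t ∈ ev o := by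
  rw [mem_ev] at *
  exact ⟨by rw [add_mul, hs.1, ht.1], by simp [Finset.sum_add_distrib, hs.2, ht.2]⟩
theorem ev_add_iff {o : Cd} {t : W} (ht : t ∈ ev o) (s : W) : s + t ∈ ev o ↔ s ∈ ev o :=
  ⟨fun h => by have := ev_add h ht; rwa [add_assoc, w_add_self, add_zero] at this, fun h => ev_add h ht⟩
theorem self_ev (o : Cd) : o.1 ∈ ev o := mem_ev.2 ⟨by simp, by simp⟩
theorem mul_ev (o d : Cd) : d.1 * o.1 ∈ ev o := mem_ev.2 ⟨by simp [mul_assoc], dot_code d o⟩
theorem pair_ev {o : Cd} {i j : Pt} (hi : o.1 i = 1) (hj : o.1 j = 1) : e1 i + e1 j ∈ ev o :=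
  mem_ev.2 ⟨funext fun k => by simp only [Pi.mul_apply, Pi.add_apply, e1_apply]; grind, by simp [Finset.sum_add_distrib]⟩
theorem ev_dot_mul {o : Cd} {t : W} (ht : t ∈ ev o) (m : W) : t ⬝ᵥ (m * o.1) = t ⬝ᵥ m := by
  conv_rhs => rw [← (mem_ev.1 ht).1]
  exact Finset.sum_congr rfl fun i _ => by simp only [Pi.mul_apply]; ring
theorem ev_dot {o : Cd} {t : W} (ht : t ∈ ev o) : t ⬝ᵥ o.1 = 0 := by
  rw [← (mem_ev.1 ht).2]; conv_rhs => rw [← (mem_ev.1 ht).1]
  rfl
theorem ev_dot_self {o : Cd} {t : W} (ht : t ∈ ev o) : t ⬝ᵥ t = 0 := by simpa [dotProduct] using (mem_ev.1 ht).2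
theorem ev_hf {o : Cd} {s t : W} (hs : s ∈ ev o) (ht : t ∈ ev o) : hf (s + t) = hf s + hf t + s ⬝ᵥ t :=
  hf_add (mem_ev.1 hs).2 (mem_ev.1 ht).2
theorem oct_sub {o : Cd} (ho : wt o.1 = 8) {x : W} (hx : x ∈ golayCode) (h : x * o.1 = x) : x = 0 ∨ x = o.1 := by
  have h1 := wt_add x o.1
  have h2 := wt_nonneg (x + o.1)
  have h3 := wt_code ⟨x, hx⟩
  rw [h, ho] at h1
  by_cases e : wt x = 0
  · exact .inl (eq_zero_of_wt e)
  · exact .inr (by rw [← add_zero x, ← eq_zero_of_wt (x := x + o.1) (by simp only at h3; omega), ← add_assoc]; simp)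

theorem oct_sub' {o : Cd} (ho : wt o.1 = 8) {x : W} (hx : x ∈ golayCode) (h : wt (x + x * o.1) ≤ 2) : x * o.1 = x := by
  rw [wt_add, ← mul_assoc, w_mul_self] at h
  have h1 := wt_add x o.1
  by_cases e : wt x < 8
  · rw [eq_zero_of_wt_lt hx e, zero_mul]
  · rw [← add_zero x, ← eq_zero_of_wt_lt (add_mem hx o.2) (by omega), ← add_assoc]; simp

theorem sum_ev_wt {o : Cd} (ho : wt o.1 = 8) (g : ℤ → F) :
    ∑ n ∈ ev o, g (wt n) = g 0 + 28 * g 2 + 70 * g 4 + 28 * g 6 + g 8 := by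
  have h8 : (support₂ o.1).card = 8 := by rw [wt_eq] at ho; omega
  have := Finset.sum_powerset_apply_card (fun k : ℕ => if 2 ∣ (k : ℤ) then g k else 0) (x := support₂ o.1)
  rw [h8, ← Finset.sum_filter] at this
  rw [Finset.sum_bij' (t := (support₂ o.1).powerset.filter fun s => 2 ∣ (s.card : ℤ)) (g := fun s => g s.card)
    (fun n _ => support₂ n) (fun s _ => wordOf s) (fun n hn => ?_) (fun s hs => ?_) (by simp) (by simp)
    (fun n _ => by rw [wt_eq]), this]
  · simp [Finset.sum_range_succ, Nat.choose]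
  · rw [mem_ev, ← two_dvd_wt, wt_eq] at hn
    refine Finset.mem_filter.2 ⟨Finset.mem_powerset.2 fun i hi => ?_, hn.2⟩
    have := congrFun hn.1 i
    simp_all
  · rw [Finset.mem_filter, Finset.mem_powerset] at hs
    refine mem_ev.2 ⟨funext fun i => ?_, by rw [← two_dvd_wt, wt_eq, support₂_wordOf]; exact hs.2⟩
    by_cases h : i ∈ s
    · simp [mem_support₂.1 (hs.1 h)]
    · simp [wordOf, h]

theorem sum_ev_char {o : Cd} (ho : wt o.1 = 8) (m : W) : ∑ n ∈ ev o, sg (n ⬝ᵥ m) = 128 * ch o m := by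
  rw [ch]
  split_ifs with h
  · rw [Finset.sum_congr rfl (g := fun _ => 1) fun n hn => by
      rw [← ev_dot_mul hn]; rcases h with e | e <;> simp [e, ev_dot hn], sum_ev_wt ho fun _ => 1]
    norm_num
  · rw [not_or] at h
    obtain ⟨i, hi⟩ := Function.ne_iff.1 h.1
    obtain ⟨j, hj⟩ := Function.ne_iff.1 h.2
    simp only [Pi.mul_apply, Pi.zero_apply] at hi hj
    have := kc (m i); have := kc (m j); have := kc (o.1 i); have := kc (o.1 j)
    have hp : e1 i + e1 j ∈ ev o := pair_ev (by grind) (by grind)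
    rw [mul_zero]
    exact sum_sg_zero _ _ (a := e1 i + e1 j) (ev_add_iff hp)
      fun x _ => by simp only [add_dotProduct, e1_dot]; grind

theorem sum_ev_gauss {o : Cd} (ho : wt o.1 = 8) {m : W} (hm : m ∈ ev o) :
    ∑ n ∈ ev o, sg (hf n + n ⬝ᵥ m) = 16 * sg (hf m) := by
  have h1 : ∑ n ∈ ev o, sg (hf n) = 16 := by
    rw [show (fun n => sg (hf n)) = fun n => sg ((wt n / 2 : ℤ) : K) from rfl, sum_ev_wt ho fun k => sg ((k / 2 : ℤ) : K)]
    decide
  rw [← h1, Finset.sum_mul]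
  refine Finset.sum_equiv (Equiv.addRight m) (fun x => (ev_add_iff hm x).symm) fun n hn => ?_
  rw [Equiv.coe_addRight, ev_hf hn hm, ← sg_add]; exact congrArg sg (by grind)

theorem sum_ev_ch {o : Cd} (ho : wt o.1 = 8) {t m : W} (ht : t ∈ ev o) (hm : m * o.1 ∈ ev o) :
    ∑ n ∈ ev o, sg (t ⬝ᵥ n) * ch o (n + m) = 2 * sg (t ⬝ᵥ m) := by
  have h0 : o.1 ≠ 0 := fun e => by rw [e, wt_zero] at ho; omega
  rw [Finset.sum_eq_add_of_mem (m * o.1) (m * o.1 + o.1) hm (ev_add hm (self_ev o)) (by simpa using h0) fun n hn e => ?_]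
  · simp [ch, add_mul, mul_assoc, add_right_comm _ o.1, ev_dot_mul ht, ev_dot ht, two_mul]
  · rw [ch, if_neg, mul_zero]
    rw [add_mul, (mem_ev.1 hn).1]
    rintro (k | k)
    · exact e.1 (by rw [← add_zero n, ← w_add_self (m * o.1), ← add_assoc, k, zero_add])
    · exact e.2 (by rw [← add_zero n, ← w_add_self (m * o.1), ← add_assoc, k, add_comm])

theorem xT_add_self {o : Cd} {t : W} (ht : t ∈ ev o) : xT o (t + o.1) = xT o t :=
  Q.ext rfl (by simp [xT, ev_hf ht (self_ev o), ev_dot ht]) (by simp [xT])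

theorem eq_of_oct {o o' : Cd} (ho : wt o.1 = 8) (ho' : wt o'.1 = 8) {a : K} (h : o + o' + a • om = 0) : o' = o := by
  rcases kc a with rfl | rfl
  · exact add_eq_zero_cd.1 (by simpa using h)
  · rw [one_smul, add_eq_zero_cd, eq_comm, add_eq_om] at h
    rw [h, Submodule.coe_add, wt_add_om] at ho'; omega

theorem ch_ev {o : Cd} (ho : wt o.1 = 8) {m : W} (hm : m * o.1 = m) : ch o m = if cc m = 0 then 1 else 0 := by
  rw [ch, hm]
  exact if_congr ⟨fun h => h.elim (fun e => by simp [e]) fun e => by simp [e], fun h => oct_sub ho (cc_eq_zero.1 h) hm⟩ rfl rfl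

theorem sig_TT {o o' : Cd} (ho : wt o.1 = 8) (ho' : wt o'.1 = 8) {t t' : W} (ht : t ∈ ev o) (ht' : t' ∈ ev o') :
    sig (xT o t * xT o' t') = if o' = o then ch o (t + t') else 0 := by
  split_ifs with h
  · subst h
    have h1 := (mem_ev.1 (ev_add ht ht')).1
    by_cases e : cc (t + t') = 0
    · rw [ch_ev ho h1, if_pos e, show xT o' t' = xT o' t from ?_, (short_xT ho ht).sq, sig_one]
      rcases oct_sub ho (cc_eq_zero.1 e) h1 with k | k
      · rw [← add_zero t, ← k, ← add_assoc, w_add_self, zero_add]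
      · rw [← xT_add_self ht, ← k, ← add_assoc, w_add_self, zero_add]
    · rw [ch_ev ho h1, if_neg e]
      exact if_neg fun k => e (by rw [← k.2]; simp only [xT, mul_x, map_add]; dux)
  · exact if_neg fun k => h (eq_of_oct ho ho' (a := hf t + hf t') (by rw [← k.1]; simp only [xT, mul_d]; cdx))

theorem sig_TXX {o : Cd} (ho : wt o.1 = 8) {t : W} (ht : t ∈ ev o) (d e : Cd) (i j : Pt) :
    sig (xT o t * xX e j * xX d i) = sg (th o e) * sg (e.1 j + e.1 i + o.1 i) *
      (de i j * ch o (t + e.1) - io (o.1 i) * io (o.1 j) * ch o (t + e.1 + (e1 i + e1 j))) * dl 0 (e + o + d) := by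
  refine sig_dl (a := hf t + (pq e.1 + e.1 j) + (pq d.1 + d.1 i)) (by simp only [xX, xT, mul_d]; cdx) fun k => ?_
  rw [show xX d i = xX (e + o) i by rcases k with rfl | rfl <;> simp [xX_add_om], sig]
  have hm := ev_add ht (mul_ev o e)
  have hp : pq (e.1 + o.1) = pq e.1 + hf (e.1 * o.1) := by rw [pq_add, pq_oct ho, add_zero]
  have h1 : (xT o t * xX e j * xX (e + o) i).d = (hf t + hf (e.1 * o.1) + e.1 j + e.1 i + o.1 i) • om := by
    simp only [xX, xT, mul_d, Submodule.coe_add, hp]; cdx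
  have h2 : (xT o t * xX e j * xX (e + o) i).x = cc (t + e.1 * o.1 + (e1 i + e1 j)) := by
    simp only [xX, xT, mul_x, map_add, th_add]; dux
  have h3 : cc (t + e.1 * o.1 + (e1 i + e1 j)) = 0 → (xT o t * xX e j * xX (e + o) i).d = 0 →
      (xT o t * xX e j * xX (e + o) i).s = th o e + t ⬝ᵥ e.1 := fun a b => by
    have := (short_xX (e + o) i).sq
    have h4 := congrArg Q.s this
    have h5 : (xT o t * xX e j).x = (xX (e + o) i).x := by
      rw [← h2, mul_x] at a
      rw [← add_zero (xX (e + o) i).x, ← a, add_comm (xT o t * xX e j).x, ← add_assoc, d_add_self, zero_add]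
    rw [mul_s] at h4 ⊢
    rw [h5, add_assoc, show (xX (e + o) i).s + (xX (e + o) i).x (xX (e + o) i).d = 0 by simpa [xX] using h4]
    simp [xT, xX, dot_om, (mem_ev.1 ht).2]
  have c1 : ch o (t + e.1) = if cc (t + e.1 * o.1) = 0 then 1 else 0 := by
    rw [← ch_ev ho (mem_ev.1 hm).1, ch, ch, add_mul, add_mul, mul_assoc, w_mul_self]
  have hd : (t + e.1 * o.1) ⬝ᵥ e.1 = t ⬝ᵥ e.1 := by rw [add_dotProduct, mul_dot_left, add_zero]
  have hh : hf (t + e.1 * o.1) = hf t + hf (e.1 * o.1) + t ⬝ᵥ e.1 := by rw [ev_hf ht (mul_ev o e), ev_dot_mul ht]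
  rw [h2]
  by_cases hij : i = j
  · subst hij
    rw [w_add_self, add_zero] at *
    rw [add_zero, c1]
    by_cases a : cc (t + e.1 * o.1) = 0
    · have a1 : t ⬝ᵥ e.1 = 0 := by rw [← hd]; exact LinearMap.congr_fun a e
      have a2 := hf_code ⟨_, cc_eq_zero.1 a⟩
      have a3 : hf t + hf (e.1 * o.1) + e.1 i + e.1 i + o.1 i = o.1 i := by simp only at a2; grind
      rw [a3] at h1
      rcases kc (o.1 i) with b | b
      · rw [if_pos ⟨by simp [h1, b], a⟩, h3 a (by simp [h1, b])]; simp [a, a1, b, de]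
      · rw [if_neg (by simp [h1, b, om_ne_zero])]; simp [a, b, de]
    · rw [if_neg fun k => a k.2, if_neg a]; simp
  · rw [de, if_neg hij, zero_mul, zero_sub]
    by_cases b : o.1 i = 1 ∧ o.1 j = 1
    · have hp := pair_ev b.1 b.2
      have c2 : ch o (t + e.1 + (e1 i + e1 j)) = if cc (t + e.1 * o.1 + (e1 i + e1 j)) = 0 then 1 else 0 := by
        rw [← ch_ev ho (mem_ev.1 (ev_add hm hp)).1, ch, ch]; simp only [add_mul, mul_assoc, w_mul_self]
      rw [c2]
      by_cases a : cc (t + e.1 * o.1 + (e1 i + e1 j)) = 0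
      · have a1 : (t + e.1 * o.1 + (e1 i + e1 j)) ⬝ᵥ e.1 = 0 := LinearMap.congr_fun a e
        have a2 := hf_code ⟨_, cc_eq_zero.1 a⟩
        have a3 := ev_dot_self (ev_add hm hp)
        rcases oct_sub ho (cc_eq_zero.1 a) (mem_ev.1 (ev_add hm hp)).1 with a4 | a4 <;>
        · have a5 := congrFun a4 i
          have a6 := congrFun a4 j
          simp only [ev_hf hm hp, hh, hf_pair hij, add_dotProduct, dotProduct_add, e1_dot, dot_e1, mul_dot_left, Pi.add_apply,
            Pi.mul_apply, Pi.zero_apply, e1_apply, b.1, b.2, hij, Ne.symm hij, if_true, if_false] at a1 a2 a5 a6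
          have a7 : (xT o t * xX e j * xX (e + o) i).d = 0 := by rw [h1, smul_om_eq_zero]; grind
          rw [if_pos ⟨a7, a⟩, h3 a a7, if_pos a, b.1, b.2, show t ⬝ᵥ e.1 = e.1 j + e.1 i by grind]
          simp [sg_add]
      · rw [if_neg fun k => a k.2, if_neg a]; simp
    · have : io (o.1 i) * io (o.1 j) = 0 := by
        rcases kc (o.1 i) with u | u
        · rw [u, io_zero, zero_mul]
        · rw [(kc (o.1 j)).resolve_right fun v => b ⟨u, v⟩, io_zero, mul_zero]
      rw [if_neg fun a => b ?_, this, zero_mul, neg_zero, mul_zero]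
      have a0 := (mem_ev.1 hm).1
      have a1 := oct_sub' ho (cc_eq_zero.1 a.2) (by
        have h1 := wt_add (e1 i + e1 j) ((e1 i + e1 j) * o.1)
        have h2 := wt_e2 i j
        have h3 := wt_nonneg ((e1 i + e1 j) * o.1)
        rw [← mul_assoc, w_mul_self] at h1
        rw [add_mul, a0, add_add_add_comm, w_add_self, zero_add]; omega)
      rw [add_mul, a0, add_right_inj] at a1
      have a5 := congrFun a1 i
      have a6 := congrFun a1 j
      simp only [Pi.add_apply, Pi.mul_apply, e1_apply, hij, Ne.symm hij, if_true, if_false] at a5 a6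
      exact ⟨by simpa using a5, by simpa using a6⟩

end

end CA.Gr
theorem CA.Gr.realizeEqnsSig1 : True := by
  have := @CA.Gr.tacticCdx.eq_1
  have := @CA.Gr.tacticCdx.eq_def
  have := @CA.Gr.tacticCdx.congr_simp
  have := @CA.Gr.ch.eq_1
  have := @CA.Gr.ch.eq_def
  have := @CA.Gr.ch.congr_simp
  have := @CA.Gr.de.eq_1
  have := @CA.Gr.de.eq_def
  have := @CA.Gr.de.congr_simp
  have := @CA.Gr.tacticDux.eq_1
  have := @CA.Gr.tacticDux.eq_def
  have := @CA.Gr.tacticDux.congr_simp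
  trivial
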