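import Cfsg.Agent.Gr.Sig1

/-! Invariance of the trilinear form on the triples that involve the three large pieces. -/

set_option autoImplicit false

namespace CA.Gr

open Cfsg CA.M24 Matrix
open scoped Kronecker

noncomputable section

attribute [-simp] Fintype.sum_option Fintype.prod_option

local grind_pattern sg_mul_self => sg a

theorem fm_Dw (l : Pt) (k : K) (d e : Cd) (i j : Pt) :
    fm (vD l) (vW (wv k d i)) (vW (wv k e j)) = (de l i * de l j + 8⁻¹ * de i j) * dl k (d + e) := by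
  rw [fm_wv (q := 1) (by rw [vD, Lm_vA, rho_one]) (by simp)]
  simp only [Matrix.add_apply, Matrix.smul_apply, trace_single_eq_same, single_apply, one_eq_de, de, one_s, one_x, one_d,
    LinearMap.zero_apply, add_zero, sg_zero, smul_eq_mul]
  grind
theorem trace_EE {l m : Pt} (h : l ≠ m) : (EE l m).trace = 0 := by
  rw [EE, trace_add, trace_single_eq_of_ne _ _ _ h, trace_single_eq_of_ne _ _ _ h.symm, add_zero]
theorem fm_Jxw {l m : Pt} (h : l ≠ m) (k : K) (d e : Cd) (i j : Pt) :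
    fm (vJx l m) (vW (wv k d i)) (vW (wv k e j)) = EE l m i j * dl k (d + e) := by
  rw [fm_wv (q := 1) (by rw [vJx, Lm_vA, rho_one]) (by simp)]
  simp [trace_EE h]
theorem fm_xw {r : Q} (h : Short r) {k k' : K} (hk : k' + r.x om = k) (d e : Cd) (i j : Pt) :
    fm (xv r) (vW (wv k d i)) (vW (wv k' e j)) = 8⁻¹ * (de i j - 2 * R r i j) * sg (r.s + r.x e) * dl k (d + e + r.d) :=
  fm_wv (Lm_xv h) hk d e i j
theorem fm_Jw {l m : Pt} (h : l ≠ m) (k : K) (d e : Cd) (i j : Pt) : fm (xv (xJ l m)) (vW (wv k d i)) (vW (wv k e j)) =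
    8⁻¹ * (de i j - 4 * (de l i - de m i) * (de l j - de m j)) * sg (e.1 l + e.1 m) * dl k (d + e) := by
  rw [fm_xw (short_xJ h) (by rw [xJ_om, add_zero]), R_xJ h]; simp only [xJ, cc_apply, add_dotProduct, e1_dot, zero_add, add_zero]
  ring
theorem fm_Pw {l m : Pt} (h : l ≠ m) (k : K) (d e : Cd) (i j : Pt) : fm (xv (xP l m)) (vW (wv k d i)) (vW (wv k e j)) =
    8⁻¹ * (de i j - 4 * (de l i + de m i) * (de l j + de m j)) * sg (e.1 l + e.1 m) * sg k * dl k (d + e) := by
  rw [fm_xw (short_xP h) (by rw [xP_om, add_zero]), R_xP h]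
  simp only [xP, cc_apply, add_dotProduct, e1_dot, zero_add, dl_add_om]; ring
theorem fm_DX (l : Pt) (d e : Cd) (i j : Pt) :
    fm (vD l) (xv (xX d i)) (xv (xX e j)) = 8⁻¹ * (1 + 8 * de i l) * de i j * dl 0 (d + e) := by
  rw [vD, fm_AX _ _ (short_xX d i), cX_xv (short_xX e j), sig_comm, sig_XX, trace_single_mul, R_xX]
  simp only [de, k_add_self, sg_zero, smul_eq_mul]; grind
theorem trace_EE_mul (A : Mat) (i j : Pt) : (EE i j * A).trace = A j i + A i j := by rw [trace_mul_comm, trace_mul_EE]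
theorem fm_JxX {l m : Pt} (d e : Cd) (i j : Pt) : fm (vJx l m) (xv (xX d i)) (xv (xX e j)) =
    4⁻¹ * sg (d.1 l + d.1 m) * (1 - 4 * de i l) * (1 - 4 * de i m) * de i j * dl 0 (d + e) := by
  rw [vJx, fm_AX _ _ (short_xX d i), cX_xv (short_xX e j), sig_comm, sig_XX, trace_EE_mul, R_xX, R_xX, add_comm (d.1 m)]
  grind
theorem fm_JyX {l m : Pt} (h : l ≠ m) (d e : Cd) (i j : Pt) :
    fm (vJy l m) (xv (xX d i)) (xv (xX e j)) = EE l m i j * dl 0 (d + e) := by
  simp only [vJy, map_sub, LinearMap.sub_apply, fm_XXX (short_xJ h) (short_xX _ _) (short_xX _ _),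
    fm_XXX (short_xP h) (short_xX _ _) (short_xX _ _), sig_JXX h, sig_PXX h]
  rcases kc (d.1 l + d.1 m) with e | e <;> simp [e]
theorem fm_JzX {l m : Pt} (h : l ≠ m) (d e : Cd) (i j : Pt) :
    fm (vJz l m) (xv (xX d i)) (xv (xX e j)) = sg (d.1 l + d.1 m) * EE l m i j * dl 0 (d + e) := by
  simp only [vJz, map_add, LinearMap.add_apply, fm_XXX (short_xJ h) (short_xX _ _) (short_xX _ _),
    fm_XXX (short_xP h) (short_xX _ _) (short_xX _ _), sig_JXX h, sig_PXX h]
  rcases kc (d.1 l + d.1 m) with e | e <;> simp [e]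

theorem coe_add_om (d : Cd) (i : Pt) : (d + om).1 i = d.1 i + 1 := rfl

macro "fin2" : tactic => `(tactic| (
  simp only [← mul_assoc, ← add_mul, ← sub_mul]
  refine dl_congr fun h => ?_
  rcases h with h | h <;>
  · subst h
    simp only [sX, sY, coe_add_om, Submodule.coe_add, pq_add_om, sg_add, sg_one, sg_zero, de, EE_apply]
    grind (splits := 20)))

variable {l m : Pt} (h : l ≠ m) (d e : Cd) (i j : Pt)

theorem pDXX : fm (vD l) (sX d i • vZ d i) (sX e j • vZ e j) = fm (vD l) (xv (xX d i)) (xv (xX e j)) := by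
  simp only [map_smul, LinearMap.smul_apply, smul_eq_mul, vZ, fm_Dw, fm_DX]; fin2
theorem pDZZ : fm (vD l) (sX d i • xv (xX d i)) (sX e j • xv (xX e j)) = fm (vD l) (vZ d i) (vZ e j) := by
  simp only [map_smul, LinearMap.smul_apply, smul_eq_mul, vZ, fm_Dw, fm_DX]; fin2
theorem pDYY : fm (vD l) (sY d i • vY d i) (sY e j • vY e j) = fm (vD l) (vY d i) (vY e j) := by
  simp only [map_smul, LinearMap.smul_apply, smul_eq_mul, vY, fm_Dw]; fin2
include h
theorem pJxXX : fm (vJz l m) (sX d i • vZ d i) (sX e j • vZ e j) = fm (vJx l m) (xv (xX d i)) (xv (xX e j)) := by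
  simp only [map_smul, LinearMap.smul_apply, smul_eq_mul, vZ, vJz, map_add, LinearMap.add_apply, fm_Jw h, fm_Pw h, fm_JxX]; fin2
theorem pJyXX : fm (vJy l m) (sX d i • vZ d i) (sX e j • vZ e j) = fm (vJy l m) (xv (xX d i)) (xv (xX e j)) := by
  rw [fm_JyX h]
  simp only [map_smul, LinearMap.smul_apply, smul_eq_mul, vZ, vJy, map_sub, LinearMap.sub_apply, fm_Jw h, fm_Pw h]; fin2
theorem pJzXX : fm (vJx l m) (sX d i • vZ d i) (sX e j • vZ e j) = fm (vJz l m) (xv (xX d i)) (xv (xX e j)) := by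
  simp only [map_smul, LinearMap.smul_apply, smul_eq_mul, vZ, fm_Jxw h, fm_JzX h]; fin2
theorem pJxZZ : fm (vJz l m) (sX d i • xv (xX d i)) (sX e j • xv (xX e j)) = fm (vJx l m) (vZ d i) (vZ e j) := by
  simp only [map_smul, LinearMap.smul_apply, smul_eq_mul, vZ, fm_Jxw h, fm_JzX h]; fin2
theorem pJyZZ : fm (vJy l m) (sX d i • xv (xX d i)) (sX e j • xv (xX e j)) = fm (vJy l m) (vZ d i) (vZ e j) := by
  simp only [map_smul, LinearMap.smul_apply, smul_eq_mul, fm_JyX h]
  simp only [vZ, vJy, map_sub, LinearMap.sub_apply, fm_Jw h, fm_Pw h]; fin2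
theorem pJzZZ : fm (vJx l m) (sX d i • xv (xX d i)) (sX e j • xv (xX e j)) = fm (vJz l m) (vZ d i) (vZ e j) := by
  simp only [map_smul, LinearMap.smul_apply, smul_eq_mul, vZ, vJz, map_add, LinearMap.add_apply, fm_Jw h, fm_Pw h, fm_JxX]; fin2
theorem pJxYY : fm (vJz l m) (sY d i • vY d i) (sY e j • vY e j) = fm (vJx l m) (vY d i) (vY e j) := by
  simp only [map_smul, LinearMap.smul_apply, smul_eq_mul, vY, vJz, map_add, LinearMap.add_apply, fm_Jw h, fm_Pw h, fm_Jxw h]
  fin2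
theorem pJyYY : fm (vJy l m) (sY d i • vY d i) (sY e j • vY e j) = fm (vJy l m) (vY d i) (vY e j) := by
  simp only [map_smul, LinearMap.smul_apply, smul_eq_mul, vY, vJy, map_sub, LinearMap.sub_apply, fm_Jw h, fm_Pw h]; fin2
theorem pJzYY : fm (vJx l m) (sY d i • vY d i) (sY e j • vY e j) = fm (vJz l m) (vY d i) (vY e j) := by
  simp only [map_smul, LinearMap.smul_apply, smul_eq_mul, vY, vJz, map_add, LinearMap.add_apply, fm_Jw h, fm_Pw h, fm_Jxw h]
  fin2

end

end CA.Gr
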