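import Cfsg.Agent.Gr.Sig2

/-! Invariance on the triples with one octad vector, on the triples of the three large pieces, and of the bilinear form. -/

set_option autoImplicit false

namespace CA.Gr

open Cfsg CA.M24 Matrix
open scoped Kronecker

noncomputable section

attribute [-simp] Fintype.sum_option Fintype.prod_option

local grind_pattern sg_mul_self => sg a

theorem lin_vH (φ : B →ₗ[F] F) (o : Cd) (t : W) :
    φ (vH o t) = sg (o.1 none) * 16⁻¹ * ∑ n ∈ ev o, sg (t ⬝ᵥ n) * φ (xv (xT o n)) := by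
  simp only [vH, map_smul, map_sum, smul_eq_mul]
theorem fm_vH (o : Cd) (t : W) (b c : B) :
    fm (vH o t) b c = sg (o.1 none) * 16⁻¹ * ∑ n ∈ ev o, sg (t ⬝ᵥ n) * fm (xv (xT o n)) b c := lin_vH ((fm.flip b).flip c) o t

theorem io_cases (o : Cd) (i j : Pt) : (o.1 i = 1 ∧ o.1 j = 1) ∨ io (o.1 i) * io (o.1 j) = 0 := by
  rcases kc (o.1 i) with u | u
  · right; rw [u, io_zero, zero_mul]
  · exact (kc (o.1 j)).symm.imp (fun v => ⟨u, v⟩) fun v => by rw [v, io_zero, mul_zero]

variable {o : Cd} (ho : wt o.1 = 8) {t : W} (ht : t ∈ ev o) (d e : Cd) (i j : Pt)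
include ho ht

theorem fm_Tw (k : K) : fm (xv (xT o t)) (vW (wv k d i)) (vW (wv k e j)) = 8⁻¹ * (de i j - io (o.1 i) * io (o.1 j) *
    sg (t ⬝ᵥ (e1 i + e1 j))) * sg (th o e) * sg (t ⬝ᵥ e.1) * sg (hf t * k) * dl k (e + o + d) := by
  rw [fm_xw (short_xT ho ht) (by rw [xT_om ht, add_zero]), R_xT ho ht,
    show d + e + (xT o t).d = e + o + d + hf t • om by simp only [xT]; abel, dl_add_smul]
  simp only [xT, zero_add, LinearMap.add_apply, cc_apply, sg_add, dotProduct_add, dot_e1]; grind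

theorem fm_TX : fm (xv (xT o t)) (xv (xX d i)) (xv (xX e j)) = sg (th o e) * sg (e.1 j + e.1 i + o.1 i) *
    (de i j * ch o (t + e.1) - io (o.1 i) * io (o.1 j) * ch o (t + e.1 + (e1 i + e1 j))) * dl 0 (e + o + d) := by
  rw [fm_swap23, fm_XXX (short_xT ho ht) (short_xX _ _) (short_xX _ _), sig_TXX ho ht]

theorem fm_HZ : fm (vH o t) (vZ d i) (vZ e j) = sg (o.1 none) * sg (th o e) *
    (de i j * ch o (t + e.1) - io (o.1 i) * io (o.1 j) * ch o (t + e.1 + (e1 i + e1 j))) * dl 0 (e + o + d) := by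
  rw [fm_vH, Finset.sum_congr rfl (g := fun n => 8⁻¹ * sg (th o e) * dl 0 (e + o + d) * (de i j * sg (n ⬝ᵥ (t + e.1)) -
    io (o.1 i) * io (o.1 j) * sg (n ⬝ᵥ (t + e.1 + (e1 i + e1 j))))) fun n hn => by
      rw [vZ, vZ, fm_Tw ho hn]; simp only [dotProduct_add, sg_add, dotProduct_comm t, mul_zero, sg_zero]; ring]
  simp only [← Finset.mul_sum, Finset.sum_sub_distrib, sum_ev_char ho]; grind

theorem fm_HX : fm (vH o t) (xv (xX d i)) (xv (xX e j)) = sg (o.1 none) * sg (e.1 j + e.1 i + o.1 i) *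
    (8⁻¹ * (de i j - io (o.1 i) * io (o.1 j) * sg (t ⬝ᵥ (e1 i + e1 j))) * sg (th o e) * sg (t ⬝ᵥ e.1)) * dl 0 (e + o + d) := by
  rw [fm_vH, Finset.sum_congr rfl (g := fun n => sg (th o e) * sg (e.1 j + e.1 i + o.1 i) * dl 0 (e + o + d) *
    (de i j * (sg (t ⬝ᵥ n) * ch o (n + e.1)) - io (o.1 i) * io (o.1 j) * (sg (t ⬝ᵥ n) * ch o (n + (e.1 + (e1 i + e1 j))))))
    fun n hn => by rw [fm_TX ho hn, add_assoc n]; ring]
  simp only [← Finset.mul_sum, Finset.sum_sub_distrib, sum_ev_ch ho ht (mul_ev o e)]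
  rcases io_cases o i j with h | h
  · have := pair_ev h.1 h.2
    rw [sum_ev_ch ho ht (by rw [add_mul, (mem_ev.1 this).1]; exact ev_add (mul_ev o e) this), dotProduct_add, sg_add (t ⬝ᵥ _)]
    grind
  · rw [h]; grind

theorem fm_HY : fm (vH o t) (vY d i) (vY e j) = sg (o.1 none) * sg (hf (e.1 * o.1) + e.1 j + e.1 i + o.1 i) *
    (8⁻¹ * (de i j - io (o.1 i) * io (o.1 j) * sg (t ⬝ᵥ (e1 i + e1 j))) * sg (th o e) * sg (t ⬝ᵥ e.1) * sg (hf t)) *
    dl 1 (e + o + d) := by
  rw [fm_vH, Finset.sum_congr rfl (g := fun n => 8⁻¹ * sg (th o e) * dl 1 (e + o + d) * (de i j * sg (hf n + n ⬝ᵥ (t + e.1 * o.1)) -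
    io (o.1 i) * io (o.1 j) * sg (hf n + n ⬝ᵥ (t + e.1 * o.1 + (e1 i + e1 j))))) fun n hn => by
      rw [vY, vY, fm_Tw ho hn]; simp only [dotProduct_add, sg_add, dotProduct_comm t, mul_one, ev_dot_mul hn]; ring]
  have hm := ev_add ht (mul_ev o e)
  simp only [← Finset.mul_sum, Finset.sum_sub_distrib, sum_ev_gauss ho hm, ev_hf ht (mul_ev o e), ev_dot_mul ht]
  rcases io_cases o i j with h | h
  · have := pair_ev h.1 h.2
    rw [sum_ev_gauss ho (ev_add hm this), ev_hf hm this, ev_hf ht (mul_ev o e), ev_dot_mul ht]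
    by_cases k : i = j
    · subst k; simp [de, h.1]
    · simp only [hf_pair k, de, if_neg k, add_dotProduct, dotProduct_add, dot_e1, Pi.mul_apply, h.1, h.2, sg_add, sg_one, mul_one]
      grind
  · rw [h]
    by_cases k : i = j
    · subst k
      have : o.1 i = 0 := (kc _).resolve_right fun e => by simp [e] at h
      simp only [this, sg_add, sg_zero]; grind
    · simp [de, k]

macro "fin3" : tactic => `(tactic| (
  simp only [← mul_assoc]
  refine dl_congr fun h => ?_
  rcases h with h | h <;>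
  · subst h
    simp only [sX, sY, Submodule.coe_add, pq_add_om, Pi.add_apply, om_apply, sg_add, sg_one, sg_zero]
    grind))

theorem pTXX : fm (vH o t) (sX d i • vZ d i) (sX e j • vZ e j) = fm (xv (xT o t)) (xv (xX d i)) (xv (xX e j)) := by
  simp only [map_smul, LinearMap.smul_apply, smul_eq_mul, fm_HZ ho ht, fm_TX ho ht]; fin3
theorem pTZZ : fm (vH o t) (sX d i • xv (xX d i)) (sX e j • xv (xX e j)) = fm (xv (xT o t)) (vZ d i) (vZ e j) := by
  simp only [map_smul, LinearMap.smul_apply, smul_eq_mul, fm_HX ho ht, vZ, fm_Tw ho ht, mul_zero, sg_zero, mul_one]; fin3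
theorem pTYY : fm (vH o t) (sY d i • vY d i) (sY e j • vY e j) = fm (xv (xT o t)) (vY d i) (vY e j) := by
  simp only [map_smul, LinearMap.smul_apply, smul_eq_mul, fm_HY ho ht]
  simp only [vY, fm_Tw ho ht, mul_one, ← mul_assoc]
  refine dl_congr fun h => ?_
  have : pq (e.1 + o.1) = pq e.1 + hf (e.1 * o.1) := by rw [pq_add, pq_oct ho, add_zero]
  have h2 := pq_add_om (e + o)
  rcases h with rfl | rfl <;>
  · simp only [sY, Submodule.coe_add, Pi.add_apply, om_apply, sg_add, sg_one, this] at h2 ⊢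
    try simp only [h2, sg_add]
    grind

theorem be_TT {o' : Cd} (ho' : wt o'.1 = 8) {t' : W} (ht' : t' ∈ ev o') :
    be (xv (xT o t)) (xv (xT o' t')) = if o' = o then ch o (t + t') else 0 := by
  rw [be_xv (short_xT ho ht), cX_xv (short_xT ho' ht'), sig_comm, sig_TT ho ho' ht ht']
theorem qTT {o' : Cd} (ho' : wt o'.1 = 8) {t' : W} (ht' : t' ∈ ev o') :
    be (vH o t) (vH o' t') = be (xv (xT o t)) (xv (xT o' t')) := by
  have h1 : ∀ n ∈ ev o, be (xv (xT o n)) (vH o' t') = if o' = o then sg (o.1 none) * 8⁻¹ * sg (t' ⬝ᵥ n) else 0 := fun n hn => by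
    rw [lin_vH, Finset.sum_congr rfl fun m hm => by rw [be_TT ho hn ho' hm, add_comm n]]
    split_ifs with h
    · subst h; rw [sum_ev_ch ho ht' (by rwa [(mem_ev.1 hn).1])]; grind
    · simp
  rw [← LinearMap.flip_apply, lin_vH, be_TT ho ht ho' ht', Finset.sum_congr rfl fun m hm => by rw [LinearMap.flip_apply, h1 m hm]]
  split_ifs with h
  · rw [Finset.sum_congr rfl (g := fun n => sg (o.1 none) * 8⁻¹ * sg (n ⬝ᵥ (t + t'))) fun n _ => by
      rw [dotProduct_add, sg_add, dotProduct_comm n, dotProduct_comm n]; ring, ← Finset.mul_sum, sum_ev_char ho]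
    grind
  · simp

omit ho ht

theorem fm_XYZ (g : Cd) (k : Pt) : fm (xv (xX d i)) (vY e j) (vZ g k) = 8⁻¹ * (de j k - 4⁻¹ * sg (d.1 j + d.1 k) *
    (1 - 4 * de i j) * (1 - 4 * de i k)) * sg (th d g + g.1 i + pq d.1 + d.1 i) * dl 1 (d + g + e) := by
  rw [vY, vZ, fm_xw (short_xX d i) (by rw [xX_om, zero_add]), R_xX,
    show e + g + (xX d i).d = d + g + e + (pq d.1 + d.1 i) • om by simp only [xX]; abel, dl_add_smul]
  simp only [xX, zero_add, LinearMap.add_apply, cc_apply, sg_add, e1_dot, mul_one]; grind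

theorem pXYZ (g : Cd) (k : Pt) :
    fm (sX d i • vZ d i) (sY e j • vY e j) (sX g k • xv (xX g k)) = fm (xv (xX d i)) (vY e j) (vZ g k) := by
  simp only [map_smul, LinearMap.smul_apply, smul_eq_mul]
  rw [fm_rot, fm_swap12, fm_XYZ, fm_XYZ, add_comm g d]
  simp only [← mul_assoc]
  refine dl_congr fun h => ?_
  have h1 : th g d = th d g + hf (d.1 * g.1) := by have := th_symm d g; grind
  have h2 := pq_add_om (d + g)
  rcases h with rfl | rfl <;>
  · simp only [sX, sY, Submodule.coe_add, Pi.add_apply, om_apply, sg_add, sg_one, pq_add d g, h1, de] at h2 ⊢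
    try simp only [h2, sg_add]
    rcases eq_or_ne i j with rfl | a <;> rcases eq_or_ne i k with rfl | b
    · simp only [if_true]; grind
    · simp only [if_true, if_neg b, if_neg b.symm]; grind
    · simp only [if_true, if_neg a, if_neg a.symm]; grind
    · rcases eq_or_ne j k with rfl | c
      · simp only [if_true, if_neg a, if_neg a.symm]; grind
      · simp only [if_neg a, if_neg a.symm, if_neg b, if_neg b.symm, if_neg c, if_neg c.symm]; grind

theorem be_XX : be (xv (xX d i)) (xv (xX e j)) = de i j * dl 0 (d + e) := by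
  rw [be_xv (short_xX d i), cX_xv (short_xX e j), sig_comm, sig_XX]
theorem qXX : be (sX d i • vZ d i) (sX e j • vZ e j) = be (xv (xX d i)) (xv (xX e j)) := by
  simp only [map_smul, LinearMap.smul_apply, smul_eq_mul, vZ, be_wv, be_XX, one_eq_de]; fin2
theorem qZZ : be (sX d i • xv (xX d i)) (sX e j • xv (xX e j)) = be (vZ d i) (vZ e j) := by
  simp only [map_smul, LinearMap.smul_apply, smul_eq_mul, vZ, be_wv, be_XX, one_eq_de]; fin2
theorem qYY : be (sY d i • vY d i) (sY e j • vY e j) = be (vY d i) (vY e j) := by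
  simp only [map_smul, LinearMap.smul_apply, smul_eq_mul, vY, be_wv, one_eq_de]; fin2

end

end CA.Gr
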