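import Cfsg.Agent.Gr.Sig2

/-! The forms on the small pieces. -/

set_option autoImplicit false

namespace CA.Gr

open Cfsg CA.M24 Matrix

noncomputable section

attribute [-simp] Fintype.sum_option Fintype.prod_option

/-- the two short elements of a pair of points -/
def xA (a : K) (l m : Pt) : Q := ⟨0, a • om, cc (e1 l + e1 m)⟩

theorem xJ_eq (l m : Pt) : xJ l m = xA 0 l m := by simp [xJ, xA]
theorem xP_eq' (l m : Pt) : xP l m = xA 1 l m := by simp [xP, xA]
theorem short_xA (a : K) {l m : Pt} (h : l ≠ m) : Short (xA a l m) := by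
  rcases kc a with rfl | rfl
  exacts [xJ_eq l m ▸ short_xJ h, xP_eq' l m ▸ short_xP h]
theorem sig_A2 (a b : K) {l m : Pt} (h : l ≠ m) (i j : Pt) :
    sig (xA a l m * xA b i j) = if a + b = 0 then EE l m i j else 0 := by
  simp only [← ite_e4 h, sig, xA, mul_d, mul_x, mul_s, ← add_smul, smul_om_eq_zero, ← map_add, ite_and]; simp
theorem sig_A3 (a b c : K) {i j k l m n : Pt} (h1 : i ≠ j) (h2 : k ≠ l) (h3 : m ≠ n) :
    sig (xA a i j * xA b k l * xA c m n) = if a + b + c = 0 then (EE i j * EE k l * EE m n).trace else 0 := by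
  simp only [← ite_e6 h1 h2 h3, sig, xA, mul_d, mul_x, mul_s, ← add_smul, smul_om_eq_zero, ← map_add, ite_and]; simp
theorem be_A2 (a b : K) {l m i j : Pt} (h : l ≠ m) (h' : i ≠ j) :
    be (xv (xA a l m)) (xv (xA b i j)) = if a + b = 0 then EE l m i j else 0 := by
  rw [be_xv (short_xA a h), cX_xv (short_xA b h'), sig_comm, sig_A2 a b h]
theorem fm_A2 (A hA) (a b : K) {l m i j : Pt} (h : l ≠ m) (h' : i ≠ j) : fm (vA A hA) (xv (xA a l m)) (xv (xA b i j)) =
    (A * R (xA a l m)).trace * if a + b = 0 then EE l m i j else 0 := by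
  rw [fm_AX _ _ (short_xA a h), cX_xv (short_xA b h'), sig_comm, sig_A2 a b h]
theorem fm_A3 (a b c : K) {i j k l m n : Pt} (h1 : i ≠ j) (h2 : k ≠ l) (h3 : m ≠ n) :
    fm (xv (xA a i j)) (xv (xA b k l)) (xv (xA c m n)) = if a + b + c = 0 then (EE i j * EE k l * EE m n).trace else 0 := by
  rw [fm_XXX (short_xA a h1) (short_xA b h2) (short_xA c h3), sig_A3 a b c h1 h2 h3]
theorem R_xA0 {l m : Pt} (h : l ≠ m) (i j : Pt) : R (xA 0 l m) i j = 2 * (de l i - de m i) * (de l j - de m j) :=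
  xJ_eq l m ▸ R_xJ h i j
theorem R_xA1 {l m : Pt} (h : l ≠ m) (i j : Pt) : R (xA 1 l m) i j = 2 * (de l i + de m i) * (de l j + de m j) :=
  xP_eq' l m ▸ R_xP h i j
@[simp] theorem cA_vJy (i j : Pt) : cA (vJy i j) = 0 := by simp [vJy]
@[simp] theorem cA_vJz (i j : Pt) : cA (vJz i j) = 0 := by simp [vJz]

variable {i j k l m n : Pt} (h1 : i ≠ j) (h2 : k ≠ l) (h3 : m ≠ n) (p q : Pt)

macro "jj" : tactic => `(tactic| simp only [vJy, vJz, xJ_eq, xP_eq', map_add, map_sub, LinearMap.add_apply, LinearMap.sub_apply])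
macro "jk" : tactic => `(tactic| simp only [add_zero, zero_add, k_add_self, one_ne_zero, if_true, if_false, mul_zero])

theorem fm_AAy (A hA A' hA') : fm (vA A hA) (vA A' hA') (vJy i j) = 0 := by simp [fm_AA]
theorem fm_AAz (A hA A' hA') : fm (vA A hA) (vA A' hA') (vJz i j) = 0 := by simp [fm_AA]
include h1
theorem fm_DDx : fm (vD p) (vD q) (vJx i j) = 0 := by
  rw [vD, vD, vJx, fm_AA, cA_vA, trace_mul_EE]
  simp only [mul_apply, single_apply, ite_and, ite_mul, mul_ite, Finset.sum_ite_eq, one_mul, zero_mul, mul_zero,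
    Finset.mem_univ, if_true, Finset.sum_ite_irrel, Finset.sum_const_zero]
  grind
theorem be_Dx : be (vD p) (vJx i j) = 0 := by
  rw [vD, vJx, be_vA, cA_vA, trace_mul_EE]; simp only [single_apply]; grind
include h2
theorem be_zz : be (vJz i j) (vJz k l) = be (vJx i j) (vJx k l) := by
  rw [vJx, vJx, be_vA, cA_vA, trace_mul_EE]; jj
  simp only [be_A2 _ _ h1 h2]; jk; simp only [EE_apply]; grind
theorem be_zy : be (vJz i j) (vJy k l) = 0 := by jj; simp only [be_A2 _ _ h1 h2]; jk; ring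
theorem fm_Dzz : fm (vD p) (vJz i j) (vJz k l) = fm (vD p) (vJx i j) (vJx k l) := by
  rw [vD, vJx, vJx, fm_AA, cA_vA, mul_assoc, trace_single_mul, EE_mul_apply]; jj
  simp only [fm_A2 _ _ _ _ h1 h2, trace_single_mul, R_xA0 h1, R_xA1 h1]; jk
  simp only [EE_apply, de, smul_eq_mul]; grind (splits := 20)
theorem fm_Dyz : fm (vD p) (vJy i j) (vJz k l) = 0 := by
  rw [vD]; jj
  simp only [fm_A2 _ _ _ _ h1 h2, trace_single_mul, R_xA0 h1, R_xA1 h1]; jk
  simp only [de, smul_eq_mul]; grind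
include h3
theorem fm_zzz : fm (vJz i j) (vJz k l) (vJz m n) = fm (vJx i j) (vJx k l) (vJx m n) := by
  rw [vJx, vJx, vJx, fm_AA, cA_vA]; jj
  simp only [fm_A3 _ _ _ h1 h2 h3]; jk; ring
theorem fm_yzz : fm (vJy i j) (vJz k l) (vJz m n) = 0 := by jj; simp only [fm_A3 _ _ _ h1 h2 h3]; jk; ring
theorem fm_yyz : fm (vJy i j) (vJy k l) (vJz m n) = 0 := by jj; simp only [fm_A3 _ _ _ h1 h2 h3]; jk; ring
theorem fm_xyy : fm (vJx i j) (vJy k l) (vJy m n) = 0 := by
  rw [vJx]; jj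
  simp only [fm_A2 _ _ _ _ h2 h3, trace_EE_mul, R_xA0 h2, R_xA1 h2]; jk
  simp only [de]; grind
theorem fm_xzz : fm (vJx i j) (vJz k l) (vJz m n) = 0 := by
  rw [vJx]; jj
  simp only [fm_A2 _ _ _ _ h2 h3, trace_EE_mul, R_xA0 h2, R_xA1 h2]; jk
  simp only [de]; grind
theorem fm_xyz : fm (vJx i j) (vJy k l) (vJz m n) = -8 * EE k l i j * EE k l m n := by
  rw [vJx]; jj
  simp only [fm_A2 _ _ _ _ h2 h3, trace_EE_mul, R_xA0 h2, R_xA1 h2]; jk
  rw [EE_apply k l i j]; simp only [de]; grind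

end

end CA.Gr
theorem CA.Gr.realizeEqnsSig4 : True := by
  have := @CA.Gr.tacticJj.eq_1
  have := @CA.Gr.tacticJj.eq_def
  have := @CA.Gr.tacticJj.congr_simp
  have := @CA.Gr.tacticJk.eq_1
  have := @CA.Gr.tacticJk.eq_def
  have := @CA.Gr.tacticJk.congr_simp
  have := @CA.Gr.xA.eq_1
  have := @CA.Gr.xA.eq_def
  have := @CA.Gr.xA.congr_simp
  trivial
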