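import Cfsg.Agent.Gr.Sig3
import Cfsg.Agent.Gr.Sig4

/-! The triples with two or three octad vectors, by a trace formula. -/

set_option autoImplicit false

namespace CA.Gr

open Cfsg CA.M24 Matrix
open scoped Kronecker

noncomputable section

local notation "Λ" => leechLattice

attribute [-simp] Fintype.sum_option Fintype.prod_option

/-- the operator on one of the large pieces -/
def yl : B →ₗ[F] Matrix Ix Ix F where
  toFun a := Matrix.of fun p q => fm a (vY p.2 p.1) (vY q.2 q.1)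
  map_add' a b := by ext; simp
  map_smul' c a := by ext; simp

/-- the trace form -/
def tY : B →ₗ[F] B →ₗ[F] B →ₗ[F] F := ((LinearMap.mul F _).compl₁₂ yl yl).compr₂
  (((LinearMap.mul F _).compl₂ yl).compr₂ (traceLinearMap Ix F F))

theorem tY_apply (a b c : B) : tY a b c = (yl a * yl b * yl c).trace := rfl

/-- compatibility on the large piece -/
def CY (a' a : B) : Prop := ∀ d e i j, fm a' (sY d i • vY d i) (sY e j • vY e j) = fm a (vY d i) (vY e j)

theorem tY_conj {a a' b b' c c' : B} (ha : CY a' a) (hb : CY b' b) (hc : CY c' c) : tY a' b' c' = tY a b c := by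
  let S : Matrix Ix Ix F := diagonal fun p => sY p.2 p.1
  have hS : S * S = 1 := by simp [S, sY]
  have h : ∀ {a a'}, CY a' a → yl a = S * yl a' * S := fun h => by
    ext p q
    have := h p.2 q.2 p.1 q.1
    simp only [map_smul, LinearMap.smul_apply, smul_eq_mul] at this
    simp only [S, mul_diagonal, diagonal_mul, yl, LinearMap.coe_mk, AddHom.coe_mk, of_apply, ← this]; ring
  rw [tY_apply, tY_apply, h ha, h hb, h hc]
  simp only [mul_assoc, ← mul_assoc S S, hS, one_mul]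
  rw [trace_mul_comm S]
  simp only [mul_assoc, hS, mul_one]

/-- the operator of an even element on the odd functions -/
def nq (q : Q) : Matrix Cd Cd F := rho q - rho (q * xO)

theorem xO_comm {q : Q} (h : q.x om = 0) : xO * q = q * xO := by rw [mul_comm_cm, cm_xO, h, zs_zero, one_mul]
theorem xO_sq : xO * xO = 1 := by rw [mul_self_eq]; rfl
theorem nq_mul (q : Q) {r : Q} (h : r.x om = 0) : nq q * nq r = (2 : F) • nq (q * r) := by
  simp only [nq, mul_sub, sub_mul, ← rho_mul, mul_assoc, xO_comm h, ← mul_assoc xO r, xO_sq, mul_one, two_smul]; abel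
theorem yl_eq {a : B} {M : Mat} {q : Q} (h : Lm a = M ⊗ₖ rho q) (hq : q.x om = 0) : yl a = M ⊗ₖ nq q := by
  ext p r
  rw [show yl a p r = _ from fm_wv h (by rw [hq, add_zero]) _ _ _ _, kroneckerMap_apply, mul_assoc, nq, add_assoc, ← tv_apply]
  simp only [Matrix.sub_apply, rho_apply, tv, mul_d, mul_s, mul_x, xO_d, xO_s, xO_x, hq, add_zero, ← add_assoc, Pi.add_apply,
    Pi.smul_apply, Pi.single_apply, sg_one, smul_eq_mul]
  congr 1
  split_ifs <;> ring
theorem tY_eq {a b c : B} {M M' M'' : Mat} {q q' q'' : Q} (h : Lm a = M ⊗ₖ rho q) (h' : Lm b = M' ⊗ₖ rho q')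
    (h'' : Lm c = M'' ⊗ₖ rho q'') (k : q.x om = 0) (k' : q'.x om = 0) (k'' : q''.x om = 0) :
    tY a b c = (M * M' * M'').trace * (4 * 4096 * (sig (q * q' * q'') - sig (q * q' * q'' * xO))) := by
  rw [tY_apply, yl_eq h k, yl_eq h' k', yl_eq h'' k'', ← mul_kronecker_mul, ← mul_kronecker_mul, trace_kronecker, nq_mul _ k',
    smul_mul_assoc, nq_mul _ k'', trace_smul, trace_smul, nq, trace_sub, trace_rho, trace_rho, smul_eq_mul, smul_eq_mul]
  ring

theorem tau {a b c : Vec} (ha : sqNorm a = 32) (hb : sqNorm b = 32) (hc : sqNorm c = 32) {x y z : ℤ} (hx : dotInt a b = 8 * x)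
    (hy : dotInt b c = 8 * y) (hz : dotInt c a = 8 * z) : (((8 : F)⁻¹ • (1 - (2 : F) • Rv a)) * ((8 : F)⁻¹ • (1 - (2 : F) • Rv b)) *
      ((8 : F)⁻¹ • (1 - (2 : F) • Rv c))).trace = 128⁻¹ * ((x ^ 2 + y ^ 2 + z ^ 2 - 2 * (x * y * z) : ℤ) : F) := by
  simp only [smul_mul_assoc, mul_smul_comm, mul_sub, sub_mul, one_mul, mul_one, trace_smul, trace_sub, trace_Rv_mul3,
    trace_Rv_mul, trace_Rv, ha, hb, hc, hx, hy, hz, dot_comm a c, trace_one, card_Pt, smul_eq_mul]
  push_cast; grind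

theorem tri {a b c : Vec} (ma : a ∈ Λ) (mb : b ∈ Λ) (mc : c ∈ Λ) (ha : sqNorm a = 32) (hb : sqNorm b = 32) (hc : sqNorm c = 32)
    (h : Cong (a + b + c) 0) : ∃ x y z : ℤ, dotInt a b = 8 * x ∧ dotInt b c = 8 * y ∧ dotInt c a = 8 * z ∧
      x ^ 2 = 4 ∧ y ^ 2 = 4 ∧ z ^ 2 = 4 ∧ x * y * z = -8 := by
  have h1 : Cong (a + b) c := by simpa using (h.add (Cong.refl (-c))).trans (by simpa using cong_neg mc)
  have h2 : Cong (a - b) c := by rw [sub_eq_add_neg]; exact ((Cong.refl a).add (cong_neg mb)).trans h1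
  have e1 := sqNorm_add a b
  have e2 := sqNorm_sub a b
  rw [sqNorm_eq_dot] at ha hb
  have key : ∀ {b' : Vec} {e : ℤ}, b' = e • b → e * e = 1 → (a + b' = c ∨ a + b' = -c) → ∃ x y z : ℤ, dotInt a b = 8 * x ∧
      dotInt b c = 8 * y ∧ dotInt c a = 8 * z ∧ x ^ 2 = 4 ∧ y ^ 2 = 4 ∧ z ^ 2 = 4 ∧ x * y * z = -8 := fun {b' e} hb' he k => by
    have f1 : ∀ u, dotInt b' u = e * dotInt b u := fun u => by simp [hb', dotInt, Finset.mul_sum, mul_assoc]
    have f2 : sqNorm (a + b') = 32 := by rcases k with k | k <;> simp [k, hc, sqNorm_neg]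
    rw [sqNorm_add, sqNorm_eq_dot, sqNorm_eq_dot, f1, dot_comm b, f1, dot_comm a b', f1, dot_comm b a] at f2
    have f3 := dot_add_left a b' a
    have f4 := dot_add_left a b' b
    rw [f1, dot_comm b a] at f3
    rw [f1] at f4
    rcases Int.eq_one_or_neg_one_of_mul_eq_one he with rfl | rfl <;> rcases k with k | k <;>
      simp only [k, dot_neg_left, dot_comm c b] at f3 f4
    exacts [⟨-2, 2, 2, by omega, by omega, by omega, rfl, rfl, rfl, rfl⟩, ⟨-2, -2, -2, by omega, by omega, by omega, rfl, rfl, rfl, rfl⟩,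
      ⟨2, -2, 2, by omega, by omega, by omega, rfl, rfl, rfl, rfl⟩, ⟨2, 2, -2, by omega, by omega, by omega, rfl, rfl, rfl, rfl⟩]
  rw [← sqNorm_eq_dot] at ha hb
  by_cases k : dotInt a b ≤ 0
  · exact key (one_smul ℤ b).symm rfl (short_cong_eq mc (by omega) (by omega) h1)
  · exact key (neg_one_smul ℤ b).symm rfl (by rw [← sub_eq_add_neg]; exact short_cong_eq mc (by omega) (by omega) h2)

theorem vT_cases (o : Cd) (t : W) (k : Pt) : (o.1 k = 0 ∧ vT o t k = 0) ∨ vT o t k = 2 ∨ vT o t k = -2 := by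
  rcases zv_cases t k with ⟨-, e⟩ | ⟨-, e⟩ <;> rcases zv_cases o.1 k with ⟨a, e'⟩ | ⟨-, e'⟩ <;> simp [vT, *]

variable {o : Cd} (ho : wt o.1 = 8) {t : W} (ht : t ∈ ev o)
include ho ht

theorem norm_of_cong {w : Vec} (hw : sqNorm w ≤ 64) (h : Cong (w + vT o t + e8 none) 0) : sqNorm w = 64 := by
  obtain ⟨i, hi⟩ : ∃ i, o.1 i ≠ 0 := by_contra fun h => by
    rw [show o.1 = 0 from funext fun i => by_contra fun e => h ⟨i, e⟩, wt_zero] at ho; omega
  have m := (lam_xT ho ht).1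
  have h1 : Cong w (vT o t + e8 i) := by
    have := (h.add (Cong.refl (-(vT o t + e8 none)))).trans (by simpa using cong_neg (add_mem m (e8_mem none)))
    exact Cong.trans (by simpa [add_assoc] using this) ((Cong.refl _).add (cong_e8 i none).symm)
  have h2 : Cong w (vT o t - e8 i) := by
    rw [sub_eq_add_neg]; exact h1.trans ((Cong.refl _).add (cong_neg (e8_mem i)).symm)
  have e1 := sqNorm_add (vT o t) (e8 i)
  have e2 := sqNorm_sub (vT o t) (e8 i)
  rw [norm_vT ho, sqNorm_e8, dot_e8] at e1 e2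
  rcases vT_cases o t i with k | k | k
  · exact absurd k.1 hi
  · rw [short_cong_norm (sub_mem m (e8_mem i)) hw (by omega) h2]; omega
  · rw [short_cong_norm (add_mem m (e8_mem i)) hw (by omega) h1]; omega

theorem orth_of_cong {a b : Vec} (mb : b ∈ Λ) (ha : sqNorm a = 32) (hb : sqNorm b = 32)
    (h : Cong (a + b + vT o t + e8 none) 0) : dotInt a b = 0 := by
  have e1 := sqNorm_add a b
  have e2 := sqNorm_sub a b
  by_cases k : dotInt a b ≤ 0
  · have := norm_of_cong ho ht (by omega) h; omega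
  · have := norm_of_cong ho ht (w := a - b) (by omega) (Cong.trans (by
      rw [sub_eq_add_neg]; exact (((Cong.refl a).add (cong_neg mb)).add (Cong.refl _)).add (Cong.refl _)) h); omega

omit ho ht in
theorem Lam.cong_of_sig {q : Q} {v : Vec} (h : Lam q v) (k : sig q ≠ 0) : Cong v 0 := by
  have : q.d = 0 ∧ q.x = 0 := by_contra fun e => k (if_neg e)
  exact (h.of_eq (q' := 1) this.1.symm this.2.symm).cong_zero

variable {o' : Cd} (ho' : wt o'.1 = 8) {t' : W} (ht' : t' ∈ ev o')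
include ho' ht'

theorem tY_xTT {r : Q} {v : Vec} (hr : Lam r v) (hv : sqNorm v = 32) (he : r.x om = 0) {κ : ℤ}
    (H : Cong (v + vT o t + vT o' t' + e8 none) 0 → ∃ x y z : ℤ, dotInt v (vT o t) = 8 * x ∧ dotInt (vT o t) (vT o' t') = 8 * y ∧
      dotInt (vT o' t') v = 8 * z ∧ x ^ 2 + y ^ 2 + z ^ 2 - 2 * (x * y * z) = κ) (hκ : (κ : F) ≠ 28) :
    tY (xv r) (xv (xT o t)) (xv (xT o' t')) = 128 * (28 * sig (r * xT o t * xT o' t') - κ * sig (r * xT o t * xT o' t' * xO)) := by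
  have l1 := lam_xT ho ht
  have l2 := lam_xT ho' ht'
  rw [tY_eq (Lm_xv ⟨v, hr, hv⟩) (Lm_xv (short_xT ho ht)) (Lm_xv (short_xT ho' ht')) he (xT_om ht) (xT_om ht'), hr.R_eq hv,
    l1.R_eq (norm_vT ho t), l2.R_eq (norm_vT ho' t')]
  generalize hτ : (_ * _ * _ : Mat).trace = τ
  have h1 : sig (r * xT o t * xT o' t') ≠ 0 → τ = 128⁻¹ * 28 := fun k => by
    obtain ⟨x, y, z, a, b, c, d, e, f, g⟩ := tri hr.1 l1.1 l2.1 hv (norm_vT ho t) (norm_vT ho' t')
      (((hr.mul l1).mul l2).cong_of_sig k)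
    rw [← hτ, tau hv (norm_vT ho t) (norm_vT ho' t') a b c, d, e, f, g]; rfl
  have h2 : sig (r * xT o t * xT o' t' * xO) ≠ 0 → τ = 128⁻¹ * κ := fun k => by
    obtain ⟨x, y, z, a, b, c, d⟩ := H ((((hr.mul l1).mul l2).mul (lam_xO none)).cong_of_sig k)
    rw [← hτ, tau hv (norm_vT ho t) (norm_vT ho' t') a b c, d]
  generalize sig (r * xT o t * xT o' t') = s1 at *
  generalize sig (r * xT o t * xT o' t' * xO) = s2 at *
  generalize (κ : F) = k at *
  clear hτ H
  by_cases a : s1 = 0 <;> by_cases b : s2 = 0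
  · simp [a, b]
  · rw [h2 b, a]; grind
  · rw [h1 a, b]; grind
  · have := h1 a; have := h2 b; grind

theorem tY_TTT {o'' : Cd} (ho'' : wt o''.1 = 8) {t'' : W} (ht'' : t'' ∈ ev o'') :
    tY (xv (xT o'' t'')) (xv (xT o t)) (xv (xT o' t')) = 3584 * fm (xv (xT o'' t'')) (xv (xT o t)) (xv (xT o' t')) := by
  rw [tY_xTT ho ht ho' ht' (lam_xT ho'' ht'') (norm_vT ho'' t'') (xT_om ht'') (κ := 0) (fun h => ⟨0, 0, 0,
    orth_of_cong ho' ht' (lam_xT ho ht).1 (norm_vT ho'' t'') (norm_vT ho t) h,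
    orth_of_cong ho'' ht'' (lam_xT ho' ht').1 (norm_vT ho t) (norm_vT ho' t') (by convert h using 2; abel),
    orth_of_cong ho ht (lam_xT ho'' ht'').1 (norm_vT ho' t') (norm_vT ho'' t'') (by convert h using 2; abel), rfl⟩) (by decide),
    fm_XXX (short_xT ho'' ht'') (short_xT ho ht) (short_xT ho' ht')]
  push_cast; ring

theorem xO_out (r : Q) : r * xT o t * xT o' t' * xO = r * xO * xT o t * xT o' t' := by
  rw [mul_assoc _ _ xO, ← xO_comm (xT_om ht'), mul_assoc r xO, xO_comm (xT_om ht)]; simp only [mul_assoc]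

variable {l m : Pt} (h : l ≠ m)
include h

theorem tY_JTT : tY (xv (xJ l m)) (xv (xT o t)) (xv (xT o' t')) =
    128 * (28 * fm (xv (xJ l m)) (xv (xT o t)) (xv (xT o' t')) - 4 * fm (xv (xP l m)) (xv (xT o t)) (xv (xT o' t'))) := by
  rw [tY_xTT ho ht ho' ht' (lam_xJ l m) (sqNorm_vm h) (xJ_om l m) (κ := 4) (fun k => ?_) (by decide), xO_out ho ht ho' ht',
    ← xO_comm (xJ_om l m), ← xP_eq, fm_XXX (short_xJ h) (short_xT ho ht) (short_xT ho' ht'),
    fm_XXX (short_xP h) (short_xT ho ht) (short_xT ho' ht')]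
  · rfl
  obtain ⟨x, y, z, a, b, c, d, e, f, -⟩ := tri (vp_mem l m) (lam_xT ho ht).1 (lam_xT ho' ht').1 (sqNorm_vp h) (norm_vT ho t)
    (norm_vT ho' t') (Cong.trans (by
      rw [show vp l m + vT o t + vT o' t' = vm l m + vT o t + vT o' t' + e8 m by rw [← vp_sub_vm l m]; abel]
      exact (Cong.refl _).add (cong_e8 m none)) k)
  rw [dot_comm, dot_vp] at a
  rw [dot_vp] at c
  have := vT_cases o t l; have := vT_cases o t m; have := vT_cases o' t' l; have := vT_cases o' t' m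
  have : x = 2 ∨ x = -2 := sq_eq_sq_iff_eq_or_eq_neg.1 d
  have : z = 2 ∨ z = -2 := sq_eq_sq_iff_eq_or_eq_neg.1 f
  exact ⟨0, y, 0, by rw [dot_comm, dot_vm]; omega, b, by rw [dot_vm]; omega, by simp [e]⟩

theorem tY_PTT : tY (xv (xP l m)) (xv (xT o t)) (xv (xT o' t')) =
    128 * (28 * fm (xv (xP l m)) (xv (xT o t)) (xv (xT o' t')) - 4 * fm (xv (xJ l m)) (xv (xT o t)) (xv (xT o' t'))) := by
  rw [tY_xTT ho ht ho' ht' (lam_xP l m) (sqNorm_vp h) (xP_om l m) (κ := 4) (fun k => ?_) (by decide), xO_out ho ht ho' ht',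
    ← xO_comm (xP_om l m), fm_XXX (short_xJ h) (short_xT ho ht) (short_xT ho' ht'),
    fm_XXX (short_xP h) (short_xT ho ht) (short_xT ho' ht'), xP_eq, ← mul_assoc xO xO, xO_sq, one_mul]
  · rfl
  obtain ⟨x, y, z, a, b, c, d, e, f, -⟩ := tri (vm_mem l m) (lam_xT ho ht).1 (lam_xT ho' ht').1 (sqNorm_vm h) (norm_vT ho t)
    (norm_vT ho' t') (Cong.trans (by
      rw [show vm l m + vT o t + vT o' t' = vp l m + vT o t + vT o' t' + -e8 m by rw [← vp_sub_vm l m]; abel]
      exact (Cong.refl _).add ((cong_neg (e8_mem m)).trans (cong_e8 m none))) k)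
  rw [dot_comm, dot_vm] at a
  rw [dot_vm] at c
  have := vT_cases o t l; have := vT_cases o t m; have := vT_cases o' t' l; have := vT_cases o' t' m
  have : x = 2 ∨ x = -2 := sq_eq_sq_iff_eq_or_eq_neg.1 d
  have : z = 2 ∨ z = -2 := sq_eq_sq_iff_eq_or_eq_neg.1 f
  exact ⟨0, y, 0, by rw [dot_comm, dot_vp]; omega, b, by rw [dot_vp]; omega, by simp [e]⟩

theorem tY_zTT : tY (vJz l m) (xv (xT o t)) (xv (xT o' t')) = 3072 * fm (vJz l m) (xv (xT o t)) (xv (xT o' t')) := by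
  simp only [vJz, map_add, LinearMap.add_apply, tY_JTT ho ht ho' ht' h, tY_PTT ho ht ho' ht' h]; ring
theorem tY_yTT : tY (vJy l m) (xv (xT o t)) (xv (xT o' t')) = 4096 * fm (vJy l m) (xv (xT o t)) (xv (xT o' t')) := by
  simp only [vJy, map_sub, LinearMap.sub_apply, tY_JTT ho ht ho' ht' h, tY_PTT ho ht ho' ht' h]; ring
theorem tY_xTT' : tY (vJx l m) (xv (xT o t)) (xv (xT o' t')) = 3072 * fm (vJx l m) (xv (xT o t)) (xv (xT o' t')) := by
  have l1 := lam_xT ho ht
  have l2 := lam_xT ho' ht'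
  have h0 : sig (xT o t * xT o' t' * xO) = 0 := by_contra fun k => by
    have := norm_of_cong ho' ht' (by rw [norm_vT ho]; norm_num) (((l1.mul l2).mul (lam_xO none)).cong_of_sig k)
    rw [norm_vT ho] at this; omega
  rw [tY_eq (q := 1) (by rw [vJx, Lm_vA, rho_one]) (Lm_xv (short_xT ho ht)) (Lm_xv (short_xT ho' ht')) rfl (xT_om ht) (xT_om ht'),
    one_mul, h0, vJx, fm_AX _ _ (short_xT ho ht), cX_xv (short_xT ho' ht'), sig_comm (xT o' t')]
  by_cases k : sig (xT o t * xT o' t') = 0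
  · simp [k]
  have c : Cong (vT o t) (vT o' t') := by
    simpa using (((l1.mul l2).cong_of_sig k).add (Cong.refl (-vT o' t'))).trans (by simpa using cong_neg l2.1)
  have e : R (xT o t) * R (xT o t) = (4 : F) • R (xT o t) := by
    rw [R, Rv_mul, ← sqNorm_eq_dot, (short_xT ho ht).norm, Rv, smul_smul]; congr 1; push_cast; grind
  rw [(l2.of_cong c).R_eq (norm_vT ho t), ← l1.R_eq (norm_vT ho t)]
  simp only [trace_EE h, mul_zero, zero_smul, add_zero, smul_mul_assoc, mul_smul_comm, mul_sub, sub_mul, one_mul, mul_one,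
    trace_smul, trace_sub, mul_assoc, e, smul_eq_mul]
  grind

end

end CA.Gr
theorem CA.Gr.realizeEqnsSig5 : True := by
  have := @CA.Gr.yl.eq_1
  have := @CA.Gr.yl.eq_def
  have := @CA.Gr.yl.congr_simp
  have := @CA.Gr.nq.eq_1
  have := @CA.Gr.nq.eq_def
  have := @CA.Gr.nq.congr_simp
  have := @CA.Gr.CY.eq_1
  have := @CA.Gr.CY.eq_def
  have := @CA.Gr.CY.congr_simp
  have := @CA.Gr.tY.eq_1
  have := @CA.Gr.tY.eq_def
  have := @CA.Gr.tY.congr_simp
  trivial
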