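import Cfsg.Agent.Gr.Sig5

/-! The extra automorphism. -/

set_option autoImplicit false

namespace CA.Gr

open Cfsg CA.M24 Matrix

noncomputable section

theorem vH_ext (φ ψ : B →ₗ[F] F) {κ : F} {o : Cd} (t : W) (h : ∀ n ∈ ev o, φ (xv (xT o n)) = κ * ψ (xv (xT o n))) :
    φ (vH o t) = κ * ψ (vH o t) := by
  rw [lin_vH, lin_vH, Finset.sum_congr rfl fun n hn => by rw [h n hn, mul_left_comm], ← Finset.mul_sum, mul_left_comm]
theorem vH_ext2 (φ ψ : B →ₗ[F] B →ₗ[F] F) {κ : F} {o : Cd} (t : W) (c : B)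
    (h : ∀ n ∈ ev o, φ (xv (xT o n)) c = κ * ψ (xv (xT o n)) c) : φ (vH o t) c = κ * ψ (vH o t) c :=
  vH_ext (φ.flip c) (ψ.flip c) t h
theorem vH_ext3 (φ ψ : B →ₗ[F] B →ₗ[F] B →ₗ[F] F) {κ : F} {o : Cd} (t : W) (b c : B)
    (h : ∀ n ∈ ev o, φ (xv (xT o n)) b c = κ * ψ (xv (xT o n)) b c) : φ (vH o t) b c = κ * ψ (vH o t) b c :=
  vH_ext2 (φ.flip b) (ψ.flip b) t c h

section
variable {o : Cd} (ho : wt o.1 = 8) {t : W} (ht : t ∈ ev o) {o' : Cd} (ho' : wt o'.1 = 8) {t' : W} (ht' : t' ∈ ev o')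
include ho ht ho' ht'

theorem pTT {a a' : B} {κ : F} (hκ : κ ≠ 0) (c : CY a' a)
    (h : tY a (xv (xT o t)) (xv (xT o' t')) = κ * fm a (xv (xT o t)) (xv (xT o' t')))
    (h' : ∀ n ∈ ev o, ∀ n' ∈ ev o', tY a' (xv (xT o n)) (xv (xT o' n')) = κ * fm a' (xv (xT o n)) (xv (xT o' n'))) :
    fm a' (vH o t) (vH o' t') = fm a (xv (xT o t)) (xv (xT o' t')) := by
  refine mul_left_cancel₀ hκ ?_
  rw [← h, ← tY_conj c (pTYY ho ht) (pTYY ho' ht')]
  exact (vH_ext2 (tY a') (fm a') t _ fun n hn => vH_ext _ _ t' fun n' hn' => h' n hn n' hn').symm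

theorem pDTT (l : Pt) : fm (vD l) (vH o t) (vH o' t') = fm (vD l) (xv (xT o t)) (xv (xT o' t')) := by
  have : ∀ n ∈ ev o, ∀ c, fm (vD l) (xv (xT o n)) c = 2⁻¹ * io (o.1 l) * io (o.1 l) * be (xv (xT o n)) c := fun n hn c => by
    rw [vD, fm_AX _ _ (short_xT ho hn), trace_single_mul, R_xT ho hn, be_xv (short_xT ho hn)]; simp
  rw [this t ht, ← qTT ho ht ho' ht']
  exact vH_ext2 (fm (vD l)) be t _ fun n hn => this n hn _

theorem pTTT {o'' : Cd} (ho'' : wt o''.1 = 8) {t'' : W} (ht'' : t'' ∈ ev o'') :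
    fm (vH o'' t'') (vH o t) (vH o' t') = fm (xv (xT o'' t'')) (xv (xT o t)) (xv (xT o' t')) :=
  pTT ho ht ho' ht' (by decide) (pTYY ho'' ht'') (tY_TTT ho ht ho' ht' ho'' ht'') fun n hn n' hn' =>
    vH_ext3 tY fm t'' _ _ fun _ h => tY_TTT ho hn ho' hn' ho'' h
end

/-- the rank of a type -/
def rk : I → ℕ
  | .D _ => 0
  | .Jx _ _ _ => 1
  | .Jy _ _ _ => 2
  | .Jz _ _ _ => 3
  | .T _ _ _ _ => 4
  | .X _ _ => 5
  | .Y _ _ => 6
  | .Z _ _ => 7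

theorem eig_small {q : Q} (h : ∀ i j, cm q (xJ i j) = 0 ∧ cm q (xP i j) = 0) {a : I} (ha : rk a ≤ 3) :
    Eig q 0 (v0 a) ∧ Eig q 0 (v1 a) := by
  have h1 := eig_J h
  cases a with
  | D i => exact ⟨(h1 i i).1, (h1 i i).1⟩
  | Jx i j => exact ⟨(h1 i j).2.1, (h1 i j).2.2.2⟩
  | Jy i j => exact ⟨(h1 i j).2.2.1, (h1 i j).2.2.1⟩
  | Jz i j => exact ⟨(h1 i j).2.2.2, (h1 i j).2.1⟩
  | _ => simp [rk] at ha

theorem fm_v1_le (a b c : I) (h1 : rk a ≤ rk b) (h2 : rk b ≤ rk c) : fm (v1 a) (v1 b) (v1 c) = fm (v0 a) (v0 b) (v0 c) := by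
  obtain ⟨a1, a2, a3, a4⟩ := eig_all a
  obtain ⟨b1, b2, b3, b4⟩ := eig_all b
  obtain ⟨c1, c2, c3, c4⟩ := eig_all c
  rcases kc (gz a + gz b + gz c) with ez | ez
  swap
  · rw [a1.fm b1 c1 ez, a4.fm b4 c4 ez]
  rcases kc (gO a + gO b + gO c) with eO | eO
  swap
  · rw [a2.fm b2 c2 eO, a3.fm b3 c3 eO]
  by_cases hT : rk b ≤ 3 ∧ rk c = 4
  · obtain ⟨o, t, ho, ht, rfl⟩ : ∃ o t ho ht, c = .T o t ho ht := by cases c <;> first | exact ⟨_, _, _, _, rfl⟩ | simp [rk] at hT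
    obtain ⟨q, e1, e2⟩ := exists_sep ho
    have ha := eig_small e1 (h1.trans hT.1)
    have hb := eig_small e1 hT.1
    exact (ha.2.fm hb.2 (eig_vH t fun n _ => e2 n) rfl).trans (ha.1.fm hb.1 (eig_xv (e2 t)) rfl).symm
  clear a1 a2 a3 a4 b1 b2 b3 b4 c1 c2 c3 c4
  cases a <;> cases b <;> cases c <;> dsimp only [rk, gz, gO, v0, v1] at h1 h2 hT ez eO ⊢ <;>
    first | (exfalso; omega) | exact absurd ez (by decide) | exact absurd eO (by decide) | skip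
  case D.D.Jx h => exact (fm_AAz _ _ _ _).trans (fm_DDx h _ _).symm
  case D.D.Jz h => exact (fm_DDx h _ _).trans (fm_AAz _ _ _ _).symm
  case D.Jx.Jx h _ _ h' => exact fm_Dzz h h' _
  case D.Jx.Jy h _ _ h' => exact ((fm_swap23 _ _ _).trans (fm_Dyz h' h _)).trans (fm_AAy _ _ _ _).symm
  case D.Jx.Jz => exact ((fm_swap23 _ _ _).trans (fm_AAz _ _ _ _)).trans (fm_AAz _ _ _ _).symm
  case D.Jy.Jz h _ _ h' => exact ((fm_swap23 _ _ _).trans (fm_AAy _ _ _ _)).trans (fm_Dyz h h' _).symm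
  case D.Jz.Jz h _ _ h' => exact (fm_Dzz h h' _).symm
  case D.T.T ho ht _ _ ho' ht' => exact pDTT ho ht ho' ht' _
  case D.X.X => exact pDXX _ _ _ _
  case D.Y.Y => exact pDYY _ _ _ _
  case D.Z.Z => exact pDZZ _ _ _ _
  case Jx.Jx.Jx h _ _ h' _ _ h'' => exact fm_zzz h h' h''
  case Jx.Jx.Jy h _ _ h' _ _ h'' =>
    exact ((fm_swap23 _ _ _).trans ((fm_swap12 _ _ _).trans (fm_yzz h'' h h'))).trans (fm_AAy _ _ _ _).symm
  case Jx.Jx.Jz h _ _ h' _ _ h'' =>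
    exact ((fm_swap23 _ _ _).trans ((fm_swap12 _ _ _).trans (fm_xzz h'' h h'))).trans (fm_AAz _ _ _ _).symm
  case Jx.Jy.Jy h _ _ h' _ _ h'' => exact ((fm_rot _ _ _).trans (fm_yyz h' h'' h)).trans (fm_xyy h h' h'').symm
  case Jx.Jy.Jz h _ _ h' _ _ h'' => rw [fm_rot, fm_swap12, fm_xyz h'' h' h, fm_xyz h h' h'', mul_right_comm]
  case Jx.Jz.Jz h _ _ h' _ _ h'' => exact ((fm_rot _ _ _).trans (fm_AAz _ _ _ _)).trans (fm_xzz h h' h'').symm
  case Jx.T.T h _ _ ho ht _ _ ho' ht' =>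
    exact pTT ho ht ho' ht' (by decide) (pJxYY h) (tY_xTT' ho ht ho' ht' h) fun _ hn _ hn' => tY_zTT ho hn ho' hn' h
  case Jx.X.X h _ _ _ _ => exact pJxXX h _ _ _ _
  case Jx.Y.Y h _ _ _ _ => exact pJxYY h _ _ _ _
  case Jx.Z.Z h _ _ _ _ => exact pJxZZ h _ _ _ _
  case Jy.Jy.Jz h _ _ h' _ _ h'' =>
    exact ((fm_swap23 _ _ _).trans ((fm_swap12 _ _ _).trans (fm_xyy h'' h h'))).trans (fm_yyz h h' h'').symm
  case Jy.Jz.Jz h _ _ h' _ _ h'' => exact ((fm_rot _ _ _).trans (fm_AAy _ _ _ _)).trans (fm_yzz h h' h'').symm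
  case Jy.T.T h _ _ ho ht _ _ ho' ht' =>
    exact pTT ho ht ho' ht' (by decide) (pJyYY h) (tY_yTT ho ht ho' ht' h) fun _ hn _ hn' => tY_yTT ho hn ho' hn' h
  case Jy.X.X h _ _ _ _ => exact pJyXX h _ _ _ _
  case Jy.Y.Y h _ _ _ _ => exact pJyYY h _ _ _ _
  case Jy.Z.Z h _ _ _ _ => exact pJyZZ h _ _ _ _
  case Jz.Jz.Jz h _ _ h' _ _ h'' => exact (fm_zzz h h' h'').symm
  case Jz.T.T h _ _ ho ht _ _ ho' ht' =>
    exact pTT ho ht ho' ht' (by decide) (pJzYY h) (tY_zTT ho ht ho' ht' h) fun _ hn _ hn' => tY_xTT' ho hn ho' hn' h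
  case Jz.X.X h _ _ _ _ => exact pJzXX h _ _ _ _
  case Jz.Y.Y h _ _ _ _ => exact pJzYY h _ _ _ _
  case Jz.Z.Z h _ _ _ _ => exact pJzZZ h _ _ _ _
  case T.T.T ho ht _ _ ho' ht' _ _ ho'' ht'' => exact pTTT ho' ht' ho'' ht'' ho ht
  case T.X.X ho ht _ _ _ _ => exact pTXX ho ht _ _ _ _
  case T.Y.Y ho ht _ _ _ _ => exact pTYY ho ht _ _ _ _
  case T.Z.Z ho ht _ _ _ _ => exact pTZZ ho ht _ _ _ _
  case X.Y.Z => exact pXYZ _ _ _ _ _ _

theorem fm_v1 (a b c : I) : fm (v1 a) (v1 b) (v1 c) = fm (v0 a) (v0 b) (v0 c) := by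
  wlog h1 : rk a ≤ rk b generalizing a b
  · rw [fm_swap12, fm_swap12 (v0 a), this b a (by omega)]
  by_cases h2 : rk b ≤ rk c
  · exact fm_v1_le a b c h1 h2
  rw [fm_swap23, fm_swap23 (v0 a)]
  by_cases h3 : rk a ≤ rk c
  · exact fm_v1_le a c b h3 (by omega)
  · rw [fm_swap12, fm_swap12 (v0 a), fm_v1_le c a b (by omega) h1]

theorem be_v1 (a b : I) : be (v1 a) (v1 b) = be (v0 a) (v0 b) := by
  wlog h1 : rk a ≤ rk b generalizing a b
  · rw [be_comm, be_comm (v0 a), this b a (by omega)]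
  obtain ⟨a1, a2, a3, a4⟩ := eig_all a
  obtain ⟨b1, b2, b3, b4⟩ := eig_all b
  rcases kc (gz a + gz b) with ez | ez
  swap
  · rw [a1.be b1 ez, a4.be b4 ez]
  rcases kc (gO a + gO b) with eO | eO
  swap
  · rw [a2.be b2 eO, a3.be b3 eO]
  by_cases hT : rk a ≤ 3 ∧ rk b = 4
  · obtain ⟨o, t, ho, ht, rfl⟩ : ∃ o t ho ht, b = .T o t ho ht := by cases b <;> first | exact ⟨_, _, _, _, rfl⟩ | simp [rk] at hT
    obtain ⟨q, e1, e2⟩ := exists_sep ho
    have ha := eig_small e1 hT.1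
    exact (ha.2.be (eig_vH t fun n _ => e2 n) rfl).trans (ha.1.be (eig_xv (e2 t)) rfl).symm
  clear a1 a2 a3 a4 b1 b2 b3 b4
  have hy : ∀ A hA i j, be (vA A hA) (vJy i j) = 0 := fun _ _ _ _ => by simp [be_vA]
  have hz : ∀ A hA i j, be (vA A hA) (vJz i j) = 0 := fun _ _ _ _ => by simp [be_vA]
  cases a <;> cases b <;> dsimp only [rk, gz, gO, v0, v1] at h1 hT ez eO ⊢ <;>
    first | (exfalso; omega) | exact absurd ez (by decide) | exact absurd eO (by decide) | skip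
  case D.Jx h => exact (hz _ _ _ _).trans (be_Dx h _).symm
  case D.Jz h => exact (be_Dx h _).trans (hz _ _ _ _).symm
  case Jx.Jx h _ _ h' => exact be_zz h h'
  case Jx.Jy h _ _ h' => exact (be_zy h h').trans (hy _ _ _ _).symm
  case Jx.Jz => exact ((be_comm _ _).trans (hz _ _ _ _)).trans (hz _ _ _ _).symm
  case Jy.Jz h _ _ h' => exact ((be_comm _ _).trans (hy _ _ _ _)).trans ((be_comm _ _).trans (be_zy h' h)).symm
  case Jz.Jz h _ _ h' => exact (be_zz h h').symm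
  case T.T ho ht _ _ ho' ht' => exact qTT ho ht ho' ht'
  case X.X => exact qXX _ _ _ _
  case Y.Y => exact qYY _ _ _ _
  case Z.Z => exact qZZ _ _ _ _

/-- a map of spanning families that preserves a nondegenerate form extends -/
theorem exists_ext {k V ι : Type*} [Field k] [AddCommGroup V] [Module k V] [FiniteDimensional k V] (β : V →ₗ[k] V →ₗ[k] k)
    (nd : ∀ a, (∀ b, β a b = 0) → a = 0) {v v' : ι → V} (sp : Submodule.span k (Set.range v) = ⊤)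
    (h : ∀ a b, β (v' a) (v' b) = β (v a) (v b)) : ∃ σ : V ≃ₗ[k] V, ∀ a, σ (v a) = v' a := by
  let π := Finsupp.linearCombination k v
  let π' := Finsupp.linearCombination k v'
  have e : β.compl₁₂ π' π' = β.compl₁₂ π π := by ext a b; simp [π, π', h]
  have e' : ∀ x y, β (π' x) (π' y) = β (π x) (π y) := fun x y => LinearMap.congr_fun₂ e x y
  obtain ⟨s, hs⟩ := π.exists_rightInverse_of_surjective (by rw [Finsupp.range_linearCombination, sp])
  have hs' : ∀ x, π (s x) = x := LinearMap.congr_fun hs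
  have inj : Function.Injective (π' ∘ₗ s) := (injective_iff_map_eq_zero _).2 fun x hx => nd x fun y => by
    rw [← hs' x, ← hs' y, ← e', show π' (s x) = 0 from hx, map_zero, LinearMap.zero_apply]
  have sur := LinearMap.injective_iff_surjective.1 inj
  refine ⟨LinearEquiv.ofBijective _ ⟨inj, sur⟩, fun a => sub_eq_zero.1 (nd _ fun y => ?_)⟩
  obtain ⟨y, rfl⟩ := sur y
  have := e' (s (v a) - Finsupp.single a 1) (s y)
  change β (π' (s (v a)) - v' a) (π' (s y)) = 0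
  simpa [π, π', hs'] using this

theorem exists_sigma : ∃ σ : G, σ * iota zq * σ⁻¹ = iota xO := by
  obtain ⟨σ, h⟩ := exists_ext be (fun _ => be_nondeg) span_v0 be_v1
  have ex : ∀ {N : Type} [AddCommGroup N] [Module F N] {f g : B →ₗ[F] N}, (∀ a, f (v0 a) = g (v0 a)) → f = g :=
    fun h => LinearMap.ext_on_range span_v0 h
  have h1 : be.compl₁₂ σ.toLinearMap σ.toLinearMap = be := ex fun a => ex fun b => by
    simp only [LinearMap.compl₁₂_apply, LinearEquiv.coe_coe, h, be_v1]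
  have h2 : (fm.compl₁₂ σ.toLinearMap σ.toLinearMap).compr₂ (LinearMap.lcomp F F σ.toLinearMap) = fm :=
    ex fun a => ex fun b => ex fun c => by
      simp only [LinearMap.compr₂_apply, LinearMap.compl₁₂_apply, LinearMap.lcomp_apply, LinearEquiv.coe_coe, h, fm_v1]
  refine ⟨⟨σ, fun a b => ?_, fun a b c => ?_⟩, mul_inv_eq_of_eq_mul (Subtype.ext (LinearEquiv.toLinearMap_injective
    (ex fun a => ?_)))⟩
  · conv_rhs => rw [← h1]
    simp only [LinearMap.compl₁₂_apply, LinearEquiv.coe_coe]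
  · conv_rhs => rw [← h2]
    simp only [LinearMap.compr₂_apply, LinearMap.compl₁₂_apply, LinearMap.lcomp_apply, LinearEquiv.coe_coe]
  · simp only [Subgroup.coe_mul, LinearEquiv.coe_coe, LinearEquiv.mul_apply]
    rw [(eig_all a).1, map_smul, h, (eig_all a).2.2.2]

end

end CA.Gr
theorem CA.Gr.realizeEqnsSig6 : True := by
  have := @CA.Gr.rk.eq_1
  have := @CA.Gr.rk.eq_2
  have := @CA.Gr.rk.eq_3
  have := @CA.Gr.rk.eq_4
  have := @CA.Gr.rk.eq_5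
  have := @CA.Gr.rk.eq_6
  have := @CA.Gr.rk.eq_7
  have := @CA.Gr.rk.eq_8
  have := @CA.Gr.rk.eq_def
  have := @CA.Gr.rk.congr_simp
  trivial
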