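import Cfsg.Agent.Gr.Tits1

/-! The centraliser of the involution: the kernel of the action on the lattice. -/

set_option autoImplicit false

namespace CA.Gr

open Cfsg CA.M24 Matrix
open scoped Kronecker

noncomputable section

local notation "Λ" => leechLattice

theorem trace_mul_Rv (D : Mat) (v : Vec) : (D * Rv v).trace = 8⁻¹ * (red v ⬝ᵥ D *ᵥ red v) := by
  rw [Rv, mul_smul_comm, trace_smul, mul_vecMulVec, trace_vecMulVec, dotProduct_comm, smul_eq_mul]

theorem red_vp (i j : Pt) : red (vp i j) = (4 : F) • (Pi.single i 1 + Pi.single j 1) := by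
  funext k; by_cases a : k = i <;> by_cases b : k = j <;> simp [red, vp, ind, Pi.single_apply, a, b]
theorem red_vm (i j : Pt) : red (vm i j) = (4 : F) • (Pi.single i 1 - Pi.single j 1) := by
  funext k; by_cases a : k = i <;> by_cases b : k = j <;> simp [red, vm, ind, Pi.single_apply, a, b]

theorem ar4 {a b c : F} (h1 : 8⁻¹ * (4 * (4 * (a + c + (c + b)))) = 0) (h2 : 8⁻¹ * (4 * (4 * (a - c - (c - b)))) = 0) :
    c = 0 ∧ a = -b := by grind
theorem ar5 {a b c : F} (h1 : a = -b) (h2 : b = -c) (h3 : c = -a) : a = 0 := by grind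

theorem eq_zero_of_Rv {D : Mat} (hD : Dᵀ = D) (h : ∀ v ∈ Λ, sqNorm v = 32 → (D * Rv v).trace = 0) : D = 0 := by
  have H : ∀ i j, i ≠ j → D i j = 0 ∧ D i i = -D j j := fun i j ij => by
    have h1 := h _ (vp_mem i j) (sqNorm_vp ij)
    have h2 := h _ (vm_mem i j) (sqNorm_vm ij)
    have e : D j i = D i j := congrFun (congrFun hD i) j
    simp only [trace_mul_Rv, red_vp, red_vm, mulVec_smul, smul_dotProduct, dotProduct_smul, mulVec_add, mulVec_sub,
      add_dotProduct, sub_dotProduct, mulVec_single_one, single_dotProduct, one_mul, Pi.add_apply,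
      Pi.sub_apply, col_apply, smul_eq_mul, e] at h1 h2
    exact ar4 h1 h2
  ext i j
  by_cases ij : i = j
  · subst ij
    obtain ⟨j, k, h1, h2, h3⟩ : ∃ j k, i ≠ j ∧ j ≠ k ∧ k ≠ i := by revert i; decide +kernel
    exact ar5 (H _ _ h1).2 (H _ _ h2).2 (H _ _ h3).2
  · exact (H i j ij).1

theorem fix_vA {g : G} (h : Commute g (iota zq)) (h' : ∀ v ∈ Λ, sqNorm v = 32 → g.1 (rv v) = rv v) (A : Mat) (hA) :
    g.1 (vA A hA) = vA A hA := by
  rw [pres_A h]
  refine B.ext (sub_eq_zero.1 (eq_zero_of_Rv (by simp [cA_symm, hA]) fun v hv nv => ?_)) rfl rfl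
  have := g.2.1 (vA A hA) (rv v)
  rw [h' v hv nv, pres_A h, be_vA, be_vA] at this
  rw [sub_mul, trace_sub, sub_eq_zero]
  exact this

/-- a matrix that commutes with the symmetric matrices on the first factor -/
theorem eq_kron0 {N : Matrix Ix Ix F} (h : ∀ S : Mat, Sᵀ = S → (S ⊗ₖ (1 : Matrix Cd Cd F)) * N = N * (S ⊗ₖ 1)) :
    ∃ M : Matrix Cd Cd F, N = (1 : Mat) ⊗ₖ M := by
  have e : ∀ (i j k l : Pt) (c c' : Cd), (((single i j 1 : Mat) ⊗ₖ (1 : Matrix Cd Cd F)) * N) (k, c) (l, c') =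
      if i = k then N (j, c) (l, c') else 0 := fun i j k l c c' => by
    simp [mul_apply, Fintype.sum_prod_type, single_apply, one_apply, ite_and]
  have e' : ∀ (i j k l : Pt) (c c' : Cd), (N * ((single i j 1 : Mat) ⊗ₖ (1 : Matrix Cd Cd F))) (k, c) (l, c') =
      if j = l then N (k, c) (i, c') else 0 := fun i j k l c c' => by
    simp [mul_apply, Fintype.sum_prod_type, single_apply, one_apply, ite_and]
  refine ⟨Matrix.of fun c c' => N (none, c) (none, c'), ?_⟩
  ext ⟨i, c⟩ ⟨j, c'⟩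
  rw [kroneckerMap_apply, of_apply]
  by_cases ij : i = j
  · subst ij
    rw [one_apply_eq, one_mul]
    by_cases k : i = none
    · rw [k]
    · have := congrFun (congrFun (h (single i none 1 + single none i 1) (by simp [add_comm])) (i, c)) (none, c')
      simp only [add_kronecker, add_mul, mul_add, Matrix.add_apply, e, e', if_true, if_neg k, if_neg (Ne.symm k), add_zero] at this
      exact this.symm
  · have := congrFun (congrFun (h (single i i 1) (by simp)) (i, c)) (j, c')
    rw [e, e', if_pos rfl, if_neg ij] at this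
    rw [this, one_apply_ne ij, zero_mul]

theorem kron_cancel {S : Mat} (hS : S.trace ≠ 0) {M M' : Matrix Cd Cd F} (h : S ⊗ₖ M = S ⊗ₖ M') : M = M' := by
  ext c c'
  refine mul_left_cancel₀ hS ?_
  simp only [trace, Finset.sum_mul, diag]
  exact Finset.sum_congr rfl fun i _ => congrFun (congrFun h (i, c)) (i, c')

theorem ar6 : (8 : F)⁻¹ * (24 - 2 * 4) ≠ 0 := by grind

theorem tits2 {g : G} (h : Commute g (iota zq)) (h' : ∀ v ∈ Λ, sqNorm v = 32 → g.1 (rv v) = rv v) :
    ∃ q, g = iota q := by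
  obtain ⟨M, hM⟩ := eq_kron0 (N := NW g) fun S hS => by
    have := NW_comm h (vA S hS)
    rw [fix_vA h h', Lm_vA, add_kronecker, smul_kronecker, one_kronecker_one, add_mul, mul_add, smul_mul_assoc,
      mul_smul_comm, one_mul, mul_one] at this
    exact add_right_cancel this
  have oM : Mᵀ * M = 1 := kron_cancel (S := 1) (by rw [trace_one_Pt]; decide) (by
    have := NW_orth h
    rwa [hM, ← kroneckerMap_transpose, ← mul_kronecker_mul, transpose_one, one_mul, ← one_kronecker_one] at this)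
  have hx : ∀ r, Short r → ∃ k, g.1 (xv r) = sg k • xv r ∧ M * rho r = sg k • (rho r * M) := fun r hr => by
    obtain ⟨s, hs, e1, e2⟩ := (tits0 h).2.2 r hr
    rw [h' _ hr.lam.1 hr.norm] at e2
    obtain ⟨k, rfl⟩ : ∃ k, s = zs k * r :=
      (R_inj hr hs (congrArg cA e2)).elim (fun e => ⟨0, by simp [e]⟩) fun e => ⟨1, e⟩
    rw [xv_zs] at e1
    refine ⟨k, e1, kron_cancel (S := (8 : F)⁻¹ • (1 - (2 : F) • R r)) ?_ ?_⟩
    · rw [trace_smul, trace_sub, trace_smul, trace_one_Pt, hr.trace_R]; exact ar6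
    · have := NW_comm h (xv r)
      rw [e1, map_smul, Lm_xv hr, hM, smul_mul_assoc, ← mul_kronecker_mul, ← mul_kronecker_mul, one_mul, mul_one] at this
      rw [← this, kronecker_smul]
  have mul : ∀ {a b : Q} {k l : K}, M * rho a = sg k • (rho a * M) → M * rho b = sg l • (rho b * M) →
      M * rho (a * b) = sg (k + l) • (rho (a * b) * M) := fun {a b k l} ha hb => by
    rw [rho_mul, ← mul_assoc, ha, smul_mul_assoc, mul_assoc, hb, mul_smul_comm, smul_smul, sg_add, mul_assoc]
  have hz : ∀ k, M * rho (zs k) = sg 0 • (rho (zs k) * M) := fun k => by simp [rho_zs]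
  have all : ∀ q, ∃ k, M * rho q = sg k • (rho q * M) := fun q => by
    obtain ⟨v, hv⟩ := exists_vec q
    refine short_induction (fun v => ∀ q, Lam q v → ∃ k, M * rho q = sg k • (rho q * M)) (fun q hq => ?_)
      (fun x hx y hy px py q hq => ?_) (fun x _ px q hq => px q (neg_neg x ▸ hq.neg))
      (fun x _ nx q hq => (hx q ⟨x, hq, nx⟩).imp fun _ e => e.2) hv.1 q hv
    · obtain ⟨k, rfl⟩ := hq.eq_zs lam_one
      exact ⟨0, by rw [mul_one]; exact hz k⟩
    · obtain ⟨a, ha⟩ := exists_lam hx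
      obtain ⟨b, hb⟩ := exists_lam hy
      obtain ⟨k, rfl⟩ := hq.eq_zs (ha.mul hb)
      obtain ⟨_, e1⟩ := px a ha
      obtain ⟨_, e2⟩ := py b hb
      exact ⟨_, mul (hz k) (mul e1 e2)⟩
  have uniq : ∀ {q : Q} {k l : K}, M * rho q = sg k • (rho q * M) → M * rho q = sg l • (rho q * M) → k = l :=
    fun {q k l} e1 e2 => by
      refine sg_inj (smul_left_injective F (fun e : rho q * M = 0 => ?_) (e1.symm.trans e2))
      have : Mᵀ * rho q⁻¹ * (rho q * M) = 1 := by
        rw [mul_assoc, ← mul_assoc (rho _), ← rho_mul, inv_mul_cancel, rho_one, one_mul, oM]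
      rw [e, mul_zero] at this
      exact zero_ne_one this
  choose f hf using all
  obtain ⟨q0, hq0⟩ := exists_cm f (fun a b => uniq (hf _) (mul (hf a) (hf b))) (uniq (hf _) (hz 1))
  have sc := schur (M := rho q0⁻¹ * M) fun a => by
    have : rho q0⁻¹ * rho a = sg (f a) • (rho a * rho q0⁻¹) := by
      rw [← rho_mul, mul_comm_cm, rho_mul, rho_zs, rho_mul, smul_mul_assoc, one_mul, ← hq0]; rfl
    rw [mul_assoc, hf, mul_smul_comm, ← mul_assoc, this, smul_mul_assoc, smul_smul, sg_mul_self, one_smul, mul_assoc]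
  generalize (rho q0⁻¹ * M) 0 0 = c at sc
  have eM : M = c • rho q0 := by
    rw [← mul_one (rho q0), ← mul_smul_comm, ← sc, ← mul_assoc, ← rho_mul, mul_inv_cancel, rho_one, one_mul]
  obtain ⟨k, rfl⟩ : ∃ k, c = sg k := by
    rw [eM, transpose_smul, smul_mul_assoc, mul_smul_comm, rho_transpose, ← rho_mul, inv_mul_cancel, rho_one] at oM
    have := congrFun (congrFun oM 0) 0
    simp only [Matrix.smul_apply, one_apply_eq, smul_eq_mul] at this
    exact (ar3 this).elim (fun e => ⟨0, e⟩) fun e => ⟨1, e⟩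
  refine ⟨zs k * q0, Subtype.ext (LinearEquiv.ext fun b => ?_)⟩
  rw [decomp b]
  simp only [map_add, map_sum, map_smul, fix_vA h h', iota_vA, g_vW h, iota_vW, hM, eM, rho_mul, rho_zs, smul_mul_assoc,
    one_mul, iota_xv]
  refine congrArg (_ + · + _) (Finset.sum_congr rfl fun r _ => ?_)
  by_cases hr : Short r
  · obtain ⟨l, e1, e2⟩ := hx r hr
    rw [e1, uniq e2 (hf r), ← hq0, cm_mul, show cm (zs k) r = 0 by simp [cm], zero_add]
  · simp [cX_zero b hr]

end

end CA.Gr
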