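import Cfsg.Agent.Gr.Gx

/-! The centraliser of the involution: it respects the three parts and permutes the lines of the short elements. -/

set_option autoImplicit false

namespace CA.Gr

open Cfsg CA.M24 Matrix
open scoped Kronecker

noncomputable section

local notation "Λ" => leechLattice

/-- the rank one element of a vector -/
def rv (v : Vec) : B := vA (Rv v) (Rv_symm v)

theorem G.be_inv (g : G) (a b : B) : be (g.1 a) b = be a (g⁻¹.1 b) := by
  rw [← g.2.1 a]; simp
theorem G.app_inv (g : G) (b : B) : g.1 (g⁻¹.1 b) = b := by simp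
theorem G.inv_app (g : G) (b : B) : g⁻¹.1 (g.1 b) = b := by simp

theorem eq_zero_of_neg {V : Type*} [AddCommGroup V] [Module F V] {x : V} (h : x = -x) : x = 0 := by
  have : (2 : F) • x = 0 := by rw [two_smul]; nth_rw 1 [h]; simp
  exact (smul_eq_zero.1 this).resolve_left (by decide)

theorem i2ne : (2 : F)⁻¹ ≠ 0 := inv_ne_zero (by decide)

theorem ar1 {x y : F} (h : 4 * x + 18 * y = 20 * x) : x = 5 * y := by grind
theorem ar2 {x : F} (h : x = 5 * (24 * x)) : x = 0 := by grind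
theorem ar3 {c : F} (h : c * (c * 1) = 1) : c = 1 ∨ c = -1 := by grind

theorem cX_z (b : B) : cX ((iota zq).1 b) = cX b := funext fun r => by simp [cX_iota, cm]

theorem pres_W {g : G} (h : Commute g (iota zq)) (w : Ix → F) : g.1 (vW w) = vW (cW (g.1 (vW w))) := by
  have e : (iota zq).1 (g.1 (vW w)) = -g.1 (vW w) := by
    have := congrArg (fun k : G => k.1 (vW w)) h.eq
    simp only [Subgroup.coe_mul, LinearEquiv.mul_apply] at this
    rw [← this, iota_vW, rho_zq, ← neg_one_smul F (1 : Matrix Cd Cd F), kronecker_smul, one_kronecker_one, smul_mulVec,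
      one_mulVec, map_smul, map_smul]
    exact neg_one_smul F (g.1 (vW w))
  refine B.ext (eq_zero_of_neg ?_) (eq_zero_of_neg ?_) rfl
  · rw [← map_neg, ← e, cA_iota]
  · rw [← map_neg, ← e, cX_z]

/-- the matrix of the action on tensors -/
def NW (g : G) : Matrix Ix Ix F := LinearMap.toMatrix' (cW ∘ₗ g.1.toLinearMap ∘ₗ vW)

theorem g_vW {g : G} (h : Commute g (iota zq)) (w : Ix → F) : g.1 (vW w) = vW (NW g *ᵥ w) := by
  rw [pres_W h, NW, LinearMap.toMatrix'_mulVec]; rfl

theorem mat_ext_dot0 {n : Type} [Fintype n] [DecidableEq n] {M M' : Matrix n n F}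
    (h : ∀ v w, v ⬝ᵥ M *ᵥ w = v ⬝ᵥ M' *ᵥ w) : M = M' := by
  ext i j
  simpa using h (Pi.single i 1) (Pi.single j 1)

theorem dot_conj {n : Type} [Fintype n] (N M : Matrix n n F) (v w : n → F) :
    v ⬝ᵥ (Nᵀ * M * N) *ᵥ w = (N *ᵥ v) ⬝ᵥ M *ᵥ (N *ᵥ w) := by
  rw [← mulVec_mulVec, ← mulVec_mulVec, dotProduct_mulVec, vecMul_transpose]

theorem NW_orth {g : G} (h : Commute g (iota zq)) : (NW g)ᵀ * NW g = 1 := mat_ext_dot0 fun v w => by
  have := g.2.1 (vW v) (vW w)
  rw [g_vW h, g_vW h, be_vW, be_vW, cW_vW, cW_vW] at this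
  rw [← mul_one (NW g)ᵀ, dot_conj, one_mulVec, one_mulVec]
  exact mul_left_cancel₀ i2ne this

theorem NW_conj {g : G} (h : Commute g (iota zq)) (a : B) : (NW g)ᵀ * Lm (g.1 a) * NW g = Lm a := mat_ext_dot0 fun v w => by
  have := g.2.2 a (vW v) (vW w)
  rw [g_vW h, g_vW h, fm_WW, fm_WW] at this
  rw [dot_conj]
  exact mul_left_cancel₀ i2ne this

theorem NW_comm {g : G} (h : Commute g (iota zq)) (a : B) : Lm (g.1 a) * NW g = NW g * Lm a := by
  rw [← NW_conj h a, ← mul_assoc, ← mul_assoc, mul_eq_one_comm.1 (NW_orth h), one_mul]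

theorem kap_inv {g : G} (h : Commute g (iota zq)) (a b : B) :
    (Lm (g.1 a) * Lm (g.1 b)).trace = (Lm a * Lm b).trace := by
  rw [← NW_conj h a, mul_assoc, mul_assoc, ← NW_comm h, trace_mul_comm (NW g)ᵀ, mul_assoc, mul_assoc,
    mul_eq_one_comm.1 (NW_orth h), mul_one]

theorem cX_mul_sig (b : B) (r : Q) : cX b r * sig r = 0 := by
  by_cases h : Short r
  · rw [sig_eq_zero h.ne.1 h.ne.2, mul_zero]
  · rw [cX_zero b h, zero_mul]

theorem trace_one_Cd : (1 : Matrix Cd Cd F).trace = 4096 := by rw [← rho_one, trace_rho, sig_one, mul_one]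
theorem trace_one_Pt : (1 : Mat).trace = 24 := by rw [trace_one, card_Pt]; rfl

theorem kap_vA (S : Mat) (hS) (b : B) :
    (Lm (vA S hS) * Lm b).trace = 4 * (S * cA b).trace + 18 * (S.trace * (cA b).trace) := by
  have : ∀ (T : Mat) (r : Q), ((16 : F)⁻¹ * cX b r) • (T.trace * (4096 * sig r)) = 0 := fun T r => by
    rw [smul_eq_mul]; linear_combination (16⁻¹ * T.trace * 4096) * cX_mul_sig b r
  rw [Lm_vA, Lm_apply, mul_add, Finset.mul_sum]
  simp only [mul_smul_comm, ← mul_kronecker_mul, trace_add, trace_sum, trace_smul,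
    trace_kronecker, one_mul, trace_rho, this, Finset.sum_const_zero, add_zero, trace_one_Cd]
  simp only [mul_add, add_mul, smul_mul_assoc, mul_smul_comm, trace_add, trace_smul, one_mul, mul_one, trace_one_Pt,
    smul_eq_mul]
  generalize (S * cA b).trace = x, S.trace = y, (cA b).trace = z
  grind

theorem Short.trace_R {r : Q} (h : Short r) : (R r).trace = 4 := by
  rw [R, trace_Rv, h.norm]; push_cast; grind
theorem Short.trace_RR {r : Q} (h : Short r) : (R r * R r).trace = 16 := by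
  rw [R, trace_Rv_mul, ← sqNorm_eq_dot, h.norm]; push_cast; grind

theorem kap_xv {r : Q} (h : Short r) (b : B) : (Lm (xv r) * Lm b).trace = 20 * cX b r := by
  have := sum_sig h (fun s => (16 : F)⁻¹ * cX b s * ((8 : F)⁻¹ * ((1 - (2 : F) • R r) * (1 - (2 : F) • R s)).trace * 4096))
    (by rw [cX_zq, ← zs_one, R_zs_mul]; ring)
  have e : ((1 - (2 : F) • R r) * (1 - (2 : F) • R r)).trace = 72 := by
    simp only [mul_sub, sub_mul, mul_one, one_mul, trace_sub, trace_smul, mul_smul_comm, smul_mul_assoc, h.trace_R,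
      h.trace_RR, trace_one_Pt, smul_eq_mul]
    grind
  rw [e] at this
  rw [Lm_xv h, Lm_apply]
  simp only [mul_add, Finset.mul_sum, mul_smul_comm, ← mul_kronecker_mul, trace_add, trace_sum,
    trace_smul, trace_kronecker, mul_one, ← rho_mul, trace_rho, sig_eq_zero h.ne.1 h.ne.2, mul_zero, zero_add,
    smul_mul_assoc, smul_eq_mul] at this ⊢
  rw [Finset.sum_congr rfl fun s _ => ?_, this]
  · generalize cX b r = x
    grind
  · ring

theorem pres_X {g : G} (h : Commute g (iota zq)) {r : Q} (hr : Short r) : cA (g.1 (xv r)) = 0 := by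
  have H : ∀ S : Mat, Sᵀ = S → (S * cA (g.1 (xv r))).trace = 5 * (S.trace * (cA (g.1 (xv r))).trace) := fun S hS => by
    have h1 := kap_inv h (xv r) (g⁻¹.1 (vA S hS))
    have h2 := G.be_inv g (xv r) (vA S hS)
    rw [G.app_inv, trace_mul_comm, kap_vA, kap_xv hr] at h1
    rw [be_comm (g.1 _), be_vA, be_xv hr] at h2
    rw [← h2] at h1
    exact ar1 h1
  have t : (cA (g.1 (xv r))).trace = 0 := by
    have := H 1 transpose_one
    rw [one_mul, trace_one_Pt] at this
    exact ar2 this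
  exact eq_zero_of_trace (cA_symm _) fun S hS => by rw [H S hS, t, mul_zero, mul_zero]

theorem pres_plus {g : G} (h : Commute g (iota zq)) {b : B} (hb : cW b = 0) : cW (g.1 b) = 0 := funext fun p => by
  have := G.be_inv g b (vW (Pi.single p 1))
  rw [g_vW h.inv_left, be_comm (g.1 b), be_comm b, be_vW, be_vW, hb, single_dotProduct, dotProduct_zero, one_mul] at this
  exact mul_left_cancel₀ i2ne this

theorem pres_A {g : G} (h : Commute g (iota zq)) (A : Mat) (hA) : g.1 (vA A hA) = vA (cA (g.1 (vA A hA))) (cA_symm _) := by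
  refine B.ext rfl (funext fun r => ?_) (pres_plus h rfl)
  by_cases hr : Short r
  · rw [← be_xv hr, be_comm, G.be_inv, be_vA, pres_X h.inv_left hr]; simp
  · exact cX_zero _ hr

theorem short_dot {v w : Vec} (hv : v ∈ Λ) (hw : w ∈ Λ) (nv : sqNorm v = 32) (nw : sqNorm w = 32) :
    ∃ k : ℤ, dotInt v w = 8 * k ∧ -4 ≤ k ∧ k ≤ 4 := by
  obtain ⟨k, hk⟩ := eight_dvd_dot hv hw
  have h1 := sqNorm_nonneg (v + w)
  have h2 := sqNorm_nonneg (v - w)
  rw [sqNorm_add] at h1
  rw [sqNorm_sub] at h2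
  exact ⟨k, hk, by omega, by omega⟩

theorem cast_inj31 {a b : ℤ} (h : (a : F) = b) : 31 ∣ b - a := (ZMod.intCast_eq_intCast_iff_dvd_sub a b 31).1 h

theorem Rv_inj {v w : Vec} (hv : v ∈ Λ) (hw : w ∈ Λ) (nv : sqNorm v = 32) (nw : sqNorm w = 32) (h : Rv v = Rv w) :
    w = v ∨ w = -v := by
  obtain ⟨k, hk, h1, h2⟩ := short_dot hv hw nv nw
  have e := trace_Rv_mul v w
  rw [← h, trace_Rv_mul, ← sqNorm_eq_dot, nv, hk] at e
  push_cast at e
  have : (k : F) = (4 : ℤ) ∨ (k : F) = (-4 : ℤ) := by push_cast; grind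
  refine this.imp (fun e => ?_) fun e => ?_
  · have := cast_inj31 e
    exact (sub_eq_zero.1 (eq_zero_of_sqNorm (by rw [sqNorm_sub]; omega))).symm
  · have := cast_inj31 e
    exact eq_neg_of_add_eq_zero_right (eq_zero_of_sqNorm (by rw [sqNorm_add]; omega))

theorem R_inj {r s : Q} (hr : Short r) (hs : Short s) (h : R r = R s) : s = r ∨ s = zq * r := by
  rcases Rv_inj hr.lam.1 hs.lam.1 hr.norm hs.norm h with e | e
  · exact hr.lam.uniq (e ▸ hs.lam)
  · exact hr.lam.neg.uniq (e ▸ hs.lam)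

theorem map_rv {g : G} (h : Commute g (iota zq)) {r s : Q} (hr : Short r) (hs : cX (g.1 (xv r)) s ≠ 0) :
    g.1 (rv (vec r)) = rv (vec s) := by
  have ss : Short s := by_contra fun k => hs (cX_zero _ k)
  rw [rv, pres_A h]
  refine B.ext (sub_eq_zero.1 (eq_zero_of_trace (by simp [cA_symm]) fun S hS => ?_)) rfl rfl
  have h1 := g.2.2 (g⁻¹.1 (vA S hS)) (g⁻¹.1 (xv s)) (xv r)
  rw [G.app_inv, G.app_inv, fm_AX _ _ ss, fm_swap23, pres_A h.inv_left, fm_AX _ _ hr, ← be_xv hr, ← G.be_inv, be_comm,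
    be_xv ss] at h1
  have h2 := G.be_inv g (vA _ (Rv_symm (vec r))) (vA S hS)
  rw [be_comm, be_vA, be_vA, trace_mul_comm (Rv _)] at h2
  rw [mul_sub, trace_sub, cA_vA, h2, sub_eq_zero]
  exact (mul_right_cancel₀ hs h1).symm

/-- an element that centralises the involution permutes the lines of the short elements -/
theorem tits0 {g : G} (h : Commute g (iota zq)) :
    (∀ A hA, ∃ A' hA', g.1 (vA A hA) = vA A' hA') ∧ (∀ w, ∃ w', g.1 (vW w) = vW w') ∧
    ∀ r, Short r → ∃ s, Short s ∧ g.1 (xv r) = xv s ∧ g.1 (rv (vec r)) = rv (vec s) := by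
  refine ⟨fun A hA => ⟨_, _, pres_A h A hA⟩, fun w => ⟨_, pres_W h w⟩, fun r hr => ?_⟩
  have n1 : be (g.1 (xv r)) (g.1 (xv r)) = 1 := by rw [g.2.1, be_xv hr, cX_xv hr, hr.sq, sig_one]
  obtain ⟨s, hs⟩ : ∃ s, cX (g.1 (xv r)) s ≠ 0 := by
    by_contra! k
    rw [B.ext (b := 0) (pres_X h hr) (funext k) (pres_plus h rfl)] at n1
    simp at n1
  have ss : Short s := by_contra fun k => hs (cX_zero _ k)
  have e : g.1 (xv r) = cX (g.1 (xv r)) s • xv s := by
    refine B.ext (by simp [pres_X h hr]) (funext fun q => ?_) (by simp [pres_plus h (cW_xv r)])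
    rw [map_smul, Pi.smul_apply, cX_xv ss, smul_eq_mul]
    by_cases k : cX (g.1 (xv r)) q = 0
    · by_cases a : s * q = 1
      · exact absurd (by rwa [eq_inv_of_mul_eq_one_right a, ss.inv] at k) hs
      by_cases b : s * q = zq
      · rw [eq_inv_mul_of_mul_eq b, ss.inv, zq_comm, cX_zq, neg_eq_zero] at k
        exact absurd k hs
      rw [k, sig_eq_zero a b, mul_zero]
    · have sq : Short q := by_contra fun k' => k (cX_zero _ k')
      rcases R_inj ss sq (congrArg cA ((map_rv h hr hs).symm.trans (map_rv h hr k))) with rfl | rfl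
      · rw [ss.sq, sig_one, mul_one]
      · rw [cX_zq, ← mul_assoc, zq_comm, mul_assoc, ss.sq, mul_one, sig_zq, mul_neg_one]
  have m := map_rv h hr hs
  generalize cX (g.1 (xv r)) s = c at e
  rw [e, map_smul, map_smul, LinearMap.smul_apply, be_xv ss, cX_xv ss, ss.sq, sig_one] at n1
  have : c = 1 ∨ c = -1 := ar3 n1
  rcases this with rfl | rfl
  · exact ⟨s, ss, by rw [e, one_smul], m⟩
  · exact ⟨zs 1 * s, (short_zs_mul 1).2 ss, by rw [e, xv_zs, sg_one], m.trans (B.ext (R_zs_mul s 1).symm rfl rfl)⟩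

end

theorem realizeEqns_GrTits0 : True := by
  have := @CA.Gr.rv.eq_1
  have := @CA.Gr.rv.eq_def
  have := @CA.Gr.rv.congr_simp
  have := @CA.Gr.NW.eq_1
  have := @CA.Gr.NW.eq_def
  have := @CA.Gr.NW.congr_simp
  trivial

end CA.Gr
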