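import Cfsg.Agent.Gr.Tits0

/-! The centraliser of the involution induces lattice automorphisms. -/

set_option autoImplicit false

namespace CA.Gr

open Cfsg CA.M24 Matrix

noncomputable section

local notation "Λ" => leechLattice

theorem short_induction (P : Vec → Prop) (h0 : P 0)
    (hadd : ∀ x ∈ Λ, ∀ y ∈ Λ, P x → P y → P (x + y)) (hneg : ∀ x ∈ Λ, P x → P (-x))
    (hs : ∀ x ∈ Λ, sqNorm x = 32 → P x) {x : Vec} (hx : x ∈ Λ) : P x := by
  refine leech_induction P h0 hadd hneg (hs _ (odd_mem none) (by decide +kernel))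
    (fun a ha => hs _ (two_ind_mem ?_) ?_) (fun p => ?_) hx
  · obtain ⟨t, ht, e⟩ := inC_basis a ha
    rw [← e, unmask_mask]; exact ht
  · revert a; decide +kernel
  · by_cases h : p = none
    · subst h
      have n : (none : Pt) ≠ some 0 := by simp
      have := hadd _ (vp_mem none (some 0)) _ (vm_mem none (some 0)) (hs _ (vp_mem _ _) (sqNorm_vp n))
        (hs _ (vm_mem _ _) (sqNorm_vm n))
      convert this using 1
      funext i; simp only [vp, vm, Pi.add_apply]; ring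
    · exact hs _ (vp_mem p none) (sqNorm_vp h)

/-- the symmetrised outer product -/
def so (x r : Pt → F) : Mat := vecMulVec x r + vecMulVec r x

theorem so_symm (x r : Pt → F) : (so x r)ᵀ = so x r := by simp [so, add_comm]
theorem so_sq (x : Pt → F) {r : Pt → F} (hr : r ⬝ᵥ r = 1) :
    so x r * so x r = (x ⬝ᵥ r) • so x r + vecMulVec x x + (x ⬝ᵥ x) • vecMulVec r r := by
  simp only [so, mul_add, add_mul, vecMulVec_mul_vecMulVec, hr, vecMulVec_smul, one_smul, dotProduct_comm r x, smul_add]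
  abel
theorem so_P (x : Pt → F) {r : Pt → F} (hr : r ⬝ᵥ r = 1) :
    vecMulVec r r * so x r + so x r * vecMulVec r r = so x r + (2 * (x ⬝ᵥ r)) • vecMulVec r r := by
  simp only [so, mul_add, add_mul, vecMulVec_mul_vecMulVec, hr, vecMulVec_smul, one_smul, dotProduct_comm r x, two_mul,
    add_smul]
  abel
theorem trace_so_P (x : Pt → F) {r : Pt → F} (hr : r ⬝ᵥ r = 1) : (so x r * vecMulVec r r).trace = 2 * (x ⬝ᵥ r) := by
  simp only [so, add_mul, vecMulVec_mul_vecMulVec, hr, trace_add, trace_vecMulVec, one_smul, dotProduct_smul, smul_eq_mul]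
  ring
theorem trace_so_so (x y : Pt → F) {r : Pt → F} (hr : r ⬝ᵥ r = 1) :
    (so x r * so y r).trace = 2 * ((x ⬝ᵥ r) * (y ⬝ᵥ r) + x ⬝ᵥ y) := by
  simp only [so, add_mul, mul_add, vecMulVec_mul_vecMulVec, hr, trace_add, trace_vecMulVec, one_smul, dotProduct_smul,
    smul_dotProduct, smul_eq_mul, dotProduct_comm r]
  ring

theorem two_ne : (2 : F) ≠ 0 := by decide

/-- an automorphism of the Jordan algebra of symmetric matrices comes from an orthogonal map -/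
theorem jordan (φ : Mat →ₗ[F] Mat) (hs : ∀ A, (φ A)ᵀ = φ A)
    (h2 : ∀ A A' : Mat, Aᵀ = A → A'ᵀ = A' → (φ A * φ A').trace = (A * A').trace)
    (h3 : ∀ A A' A'' : Mat, Aᵀ = A → A'ᵀ = A' → A''ᵀ = A'' → (φ A * φ A' * φ A'').trace = (A * A' * A'').trace)
    (hsurj : ∀ S : Mat, Sᵀ = S → ∃ A, Aᵀ = A ∧ φ A = S)
    {r r' : Pt → F} (hr : r ⬝ᵥ r = 1) (hr' : r' ⬝ᵥ r' = 1) (hP : φ (vecMulVec r r) = vecMulVec r' r') :
    ∃ Γ : (Pt → F) →ₗ[F] (Pt → F), (∀ x y, Γ x ⬝ᵥ Γ y = x ⬝ᵥ y) ∧ ∀ x, φ (vecMulVec x x) = vecMulVec (Γ x) (Γ x) := by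
  have J : ∀ A A' : Mat, Aᵀ = A → A'ᵀ = A' → φ (A * A' + A' * A) = φ A * φ A' + φ A' * φ A := fun A A' hA hA' => by
    refine sub_eq_zero.1 (eq_zero_of_trace (by simp [hs, add_comm]) fun S hS => ?_)
    obtain ⟨C, hC, rfl⟩ := hsurj S hS
    rw [mul_sub, trace_sub, h2 _ _ hC (by simp [hA, hA', add_comm]), mul_add, mul_add, trace_add, trace_add, ← mul_assoc,
      ← mul_assoc, ← mul_assoc, ← mul_assoc, h3 _ _ _ hC hA hA', h3 _ _ _ hC hA' hA, sub_self]
  let Γ : (Pt → F) →ₗ[F] (Pt → F) := ⟨⟨fun x => φ (so x r) *ᵥ r' - (x ⬝ᵥ r) • r', fun x y => by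
    rw [show so (x + y) r = so x r + so y r by simp only [so, add_vecMulVec, vecMulVec_add]; abel, map_add, add_mulVec,
      add_dotProduct, add_smul]; abel⟩, fun c x => by
    simp only [show so (c • x) r = c • so x r by simp only [so, smul_vecMulVec, vecMulVec_smul, smul_add], map_smul,
      smul_mulVec, smul_dotProduct, RingHom.id_apply, smul_sub, smul_assoc]⟩
  have hP' : (vecMulVec r r)ᵀ = vecMulVec r r := transpose_vecMulVec _ _
  have T : ∀ x, φ (so x r) = so (Γ x) r' := fun x => by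
    have := J _ _ hP' (so_symm x r)
    have e : φ (so x r) *ᵥ r' = Γ x + (x ⬝ᵥ r) • r' := (sub_add_cancel _ _).symm
    rw [so_P x hr, map_add, map_smul, hP, vecMulVec_mul, mul_vecMulVec, ← mulVec_transpose, hs, e, vecMulVec_add,
      add_vecMulVec, vecMulVec_smul, smul_vecMulVec, two_mul, add_smul] at this
    rw [← add_left_inj, this, so]; abel
  have t : ∀ x, Γ x ⬝ᵥ r' = x ⬝ᵥ r := fun x => by
    have := h2 _ _ (so_symm x r) hP'
    rw [T, hP, trace_so_P _ hr, trace_so_P _ hr'] at this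
    exact mul_left_cancel₀ two_ne this
  have o : ∀ x y, Γ x ⬝ᵥ Γ y = x ⬝ᵥ y := fun x y => by
    have := h2 _ _ (so_symm x r) (so_symm y r)
    rw [T, T, trace_so_so _ _ hr, trace_so_so _ _ hr', t, t] at this
    exact add_left_cancel (mul_left_cancel₀ two_ne this)
  refine ⟨Γ, o, fun x => ?_⟩
  have := J _ _ (so_symm x r) (so_symm x r)
  rw [← two_smul F, ← two_smul F, map_smul, smul_right_inj two_ne, T, so_sq _ hr, so_sq _ hr', map_add, map_add, map_smul,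
    map_smul, T, hP, t, o] at this
  exact add_left_cancel (add_right_cancel this)

theorem exists_co (Γ : (Pt → F) →ₗ[F] (Pt → F)) (hΓ : ∀ x y, Γ x ⬝ᵥ Γ y = x ⬝ᵥ y)
    (h : ∀ v ∈ Λ, sqNorm v = 32 → ∃ w ∈ Λ, sqNorm w = 32 ∧ Γ (red v) = red w) :
    ∃ γ : Co0, ∀ v ∈ Λ, sqNorm v = 32 → red (act γ v) = Γ (red v) := by
  choose! f f1 f2 f3 using h
  have gram : ∀ v ∈ Λ, sqNorm v = 32 → ∀ w ∈ Λ, sqNorm w = 32 → dotInt (f v) (f w) = dotInt v w := fun v hv nv w hw nw => by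
    obtain ⟨k, hk, _, _⟩ := short_dot hv hw nv nw
    obtain ⟨l, hl, _, _⟩ := short_dot (f1 v hv nv) (f1 w hw nw) (f2 v hv nv) (f2 w hw nw)
    have := hΓ (red v) (red w)
    rw [f3 v hv nv, f3 w hw nw, red_dot, red_dot] at this
    have := cast_inj31 this
    omega
  choose nx hnx using fun i : Pt => exists_ne i
  let u : Pt → Vec := fun j => f (vp j (nx j)) + f (vm j (nx j))
  let U : Matrix Pt Pt ℤ := (Matrix.of u)ᵀ
  have d1 : ∀ v ∈ Λ, sqNorm v = 32 → ∀ j, dotInt (f v) (u j) = 8 * v j := fun v hv nv j => by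
    rw [dot_add_right, gram v hv nv _ (vp_mem _ _) (sqNorm_vp (hnx j).symm), gram v hv nv _ (vm_mem _ _)
      (sqNorm_vm (hnx j).symm), ← dot_add_right, vp_add_vm, dot_e8]
  have d2 : Uᵀ * U = (64 : ℤ) • (1 : Matrix Pt Pt ℤ) := by
    ext i j
    have : dotInt (u i) (u j) = 8 * e8 i j := by
      rw [dot_add_left, d1 _ (vp_mem _ _) (sqNorm_vp (hnx i).symm), d1 _ (vm_mem _ _) (sqNorm_vm (hnx i).symm),
        ← vp_add_vm i (nx i), Pi.add_apply, mul_add]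
    refine this.trans ?_
    by_cases e : i = j
    · subst e; simp [e8_self]
    · simp [e, e8_ne (Ne.symm e)]
  have d3 : ∀ x, sqNorm (U *ᵥ x) = 64 * sqNorm x := fun x => by
    rw [sqNorm_eq_dot, sqNorm_eq_dot]
    change (U *ᵥ x) ⬝ᵥ (U *ᵥ x) = 64 * (x ⬝ᵥ x)
    rw [dotProduct_mulVec, vecMul_mulVec, d2, vecMul_smul, vecMul_one, smul_dotProduct, smul_eq_mul]
  have n8 : ∀ x : Vec, sqNorm ((8 : ℤ) • x) = 64 * sqNorm x := fun x => by
    simp only [sqNorm, Pi.smul_apply, smul_eq_mul, mul_pow, Finset.mul_sum]; rfl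
  have d5 : ∀ v ∈ Λ, sqNorm v = 32 → U *ᵥ v = (8 : ℤ) • f v := fun v hv nv => by
    refine sub_eq_zero.1 (eq_zero_of_sqNorm ?_)
    have : dotInt (U *ᵥ v) ((8 : ℤ) • f v) = 64 * sqNorm v := by
      have e : f v ᵥ* U = (8 : ℤ) • v := funext (d1 v hv nv)
      rw [sqNorm_eq_dot, dot_comm]
      change ((8 : ℤ) • f v) ⬝ᵥ (U *ᵥ v) = 64 * (v ⬝ᵥ v)
      rw [smul_dotProduct, dotProduct_mulVec, e, smul_dotProduct, smul_eq_mul, smul_eq_mul]; ring
    rw [sqNorm_sub, this, d3, n8, f2 v hv nv, nv]; rfl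
  have d6 : ∀ x ∈ Λ, ∃ y ∈ Λ, U *ᵥ x = (8 : ℤ) • y := fun x hx => by
    refine short_induction (fun x => ∃ y ∈ Λ, U *ᵥ x = (8 : ℤ) • y) ⟨0, zero_mem _, by simp⟩ ?_ ?_
      (fun v hv nv => ⟨_, f1 v hv nv, d5 v hv nv⟩) hx
    · rintro x - y - ⟨x', hx, ex⟩ ⟨y', hy, ey⟩
      exact ⟨_, add_mem hx hy, by rw [mulVec_add, ex, ey, smul_add]⟩
    · rintro x - ⟨x', hx, ex⟩
      exact ⟨_, neg_mem hx, by rw [mulVec_neg, ex, smul_neg]⟩
  choose! L L1 L2 using d6
  have c8 : ∀ {x y : Vec}, (8 : ℤ) • x = (8 : ℤ) • y → x = y := fun e => smul_right_injective _ (by norm_num) e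
  have La : ∀ x ∈ Λ, ∀ y ∈ Λ, L (x + y) = L x + L y := fun x hx y hy => c8 (by
    rw [smul_add, ← L2 _ hx, ← L2 _ hy, ← L2 _ (add_mem hx hy), mulVec_add])
  have Ln : ∀ x ∈ Λ, sqNorm (L x) = sqNorm x := fun x hx => by
    have := d3 x
    rw [L2 x hx, n8] at this
    omega
  have Li : ∀ x ∈ Λ, ∀ y ∈ Λ, L x = L y → x = y := fun x hx y hy e => by
    have := d3 (x - y)
    rw [mulVec_sub, L2 x hx, L2 y hy, e, sub_self, sqNorm_zero] at this
    exact sub_eq_zero.1 (eq_zero_of_sqNorm (by omega))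
  have Ls : ∀ y ∈ Λ, ∃ x ∈ Λ, L x = y := fun y hy => by
    refine short_induction (fun y => ∃ x ∈ Λ, L x = y) ⟨0, zero_mem _, c8 (by rw [← L2 _ (zero_mem _)]; simp)⟩ ?_ ?_
      (fun v hv nv => ?_) hy
    · rintro _ - _ - ⟨x, hx, rfl⟩ ⟨y, hy, rfl⟩
      exact ⟨_, add_mem hx hy, La x hx y hy⟩
    · rintro _ - ⟨x, hx, rfl⟩
      exact ⟨_, neg_mem hx, c8 (by rw [smul_neg, ← L2 _ hx, ← L2 _ (neg_mem hx), mulVec_neg])⟩
    · have fin : {v : Vec | v ∈ Λ ∧ sqNorm v = 32}.Finite := (finite_short 32).subset fun v h => h.2.le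
      obtain ⟨x, hx, e⟩ := ((fin.injOn_iff_bijOn_of_mapsTo (f := L) fun x hx => ⟨L1 x hx.1, (Ln x hx.1).trans hx.2⟩).1
        fun x hx y hy => Li x hx.1 y hy.1).2.2 ⟨hv, nv⟩
      exact ⟨x, hx.1, e⟩
  choose! L' L3 L4 using Ls
  refine ⟨mkCo L L' L1 L3 (fun x hx => Li _ (L3 _ (L1 x hx)) _ hx (L4 _ (L1 x hx))) L4 La Ln, fun v hv nv => ?_⟩
  rw [act_mkCo hv, f3 v hv nv, c8 ((L2 v hv).symm.trans (d5 v hv nv))]

/-- the symmetric part of a matrix as an element -/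
def sA : Mat →ₗ[F] B where
  toFun A := vA ((2 : F)⁻¹ • (A + Aᵀ)) (by simp [add_comm])
  map_add' _ _ := B.ext (by simp only [map_add, cA_vA, transpose_add, smul_add]; abel) (by simp) (by simp)
  map_smul' _ _ := B.ext (by simp only [map_smul, cA_vA, transpose_smul, ← smul_add, RingHom.id_apply]; rw [smul_comm])
    (by simp) (by simp)

theorem sA_eq {A : Mat} (h : Aᵀ = A) : sA A = vA A h :=
  B.ext (by change (2 : F)⁻¹ • (A + Aᵀ) = A; rw [h, ← two_smul F A, inv_smul_smul₀ two_ne]) rfl rfl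

theorem red_sq {v : Vec} (h : sqNorm v = 32) : red v ⬝ᵥ red v = 1 := by rw [red_dot, ← sqNorm_eq_dot, h]; rfl

theorem map_rv_short {g : G} (h : Commute g (iota zq)) {v : Vec} (hv : v ∈ Λ) (nv : sqNorm v = 32) :
    ∃ w ∈ Λ, sqNorm w = 32 ∧ g.1 (rv v) = rv w := by
  obtain ⟨q, hq⟩ := exists_lam hv
  obtain ⟨s, hs, -, e⟩ := (tits0 h).2.2 q ⟨v, hq, nv⟩
  exact ⟨_, hs.lam.1, hs.norm, by rw [← e, show rv (vec q) = rv v from B.ext (hq.R_eq nv) rfl rfl]⟩

theorem tits1 {g : G} (h : Commute g (iota zq)) :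
    ∃ γ : Co0, ∀ v ∈ Λ, sqNorm v = 32 → g.1 (rv v) = rv (act γ v) := by
  let φ : Mat →ₗ[F] Mat := cA ∘ₗ g.1.toLinearMap ∘ₗ sA
  have e : ∀ (A : Mat) (hA : Aᵀ = A), g.1 (vA A hA) = vA (φ A) (cA_symm _) := fun A hA => by
    rw [pres_A h]; exact B.ext (congrArg (fun b => cA (g.1 b)) (sA_eq hA).symm) rfl rfl
  have e8 : ∀ v : Vec, vecMulVec (red v) (red v) = (8 : F) • Rv v := fun v => (smul_inv_smul₀ (by decide) _).symm
  have P : ∀ v ∈ Λ, sqNorm v = 32 → ∃ w ∈ Λ, sqNorm w = 32 ∧ φ (vecMulVec (red v) (red v)) = vecMulVec (red w) (red w) :=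
    fun v hv nv => by
      obtain ⟨w, hw, nw, k⟩ := map_rv_short h hv nv
      rw [rv, e] at k
      exact ⟨w, hw, nw, by rw [e8, e8, map_smul]; exact congrArg _ (congrArg cA k)⟩
  have n0 : sqNorm (l1 none) = 32 := by decide +kernel
  obtain ⟨w0, -, nw0, k0⟩ := P _ (l1_mem none) n0
  obtain ⟨Γ, o, hΓ⟩ := jordan φ (fun _ => cA_symm _) (fun A A' hA hA' => by
      have := g.2.1 (vA A hA) (vA A' hA')
      rwa [e, e, be_vA, be_vA] at this) (fun A A' A'' hA hA' hA'' => by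
      have := g.2.2 (vA A hA) (vA A' hA') (vA A'' hA'')
      rw [e, e, e, fm_AA, fm_AA] at this
      exact mul_left_cancel₀ (by decide) this) (fun S hS => ⟨_, cA_symm (g⁻¹.1 (vA S hS)), by
      have := G.app_inv g (vA S hS)
      rw [pres_A h.inv_left, e] at this
      exact congrArg cA this⟩) (red_sq n0) (red_sq nw0) k0
  obtain ⟨γ, hγ⟩ := exists_co Γ o fun v hv nv => by
    obtain ⟨w, hw, nw, k⟩ := P v hv nv
    have k1 := congrArg (· *ᵥ red w) k
    simp only [hΓ, vecMulVec_mulVec, red_sq nw, one_smul, op_smul_eq_smul] at k1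
    have k2 : (Γ (red v) ⬝ᵥ red w) * ((Γ (red v) ⬝ᵥ red w) * 1) = 1 := by
      have := congrArg (· ⬝ᵥ red w) k1
      simpa only [smul_dotProduct, red_sq nw, smul_eq_mul, mul_one] using this
    rcases ar3 k2 with a | a <;> rw [a] at k1
    · exact ⟨w, hw, nw, by rw [← k1, one_smul]⟩
    · exact ⟨-w, neg_mem hw, by rw [sqNorm_neg, nw], by
        rw [show red (-w) = -red w by funext i; simp [red], ← k1]; simp⟩
  refine ⟨γ, fun v hv nv => ?_⟩
  rw [rv, e]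
  exact B.ext (by rw [cA_vA, Rv, map_smul, hΓ, ← hγ v hv nv]; rfl) rfl rfl

end

theorem realizeEqns_GrTits1 : True := by
  have := @CA.Gr.sA.eq_1
  have := @CA.Gr.sA.eq_def
  have := @CA.Gr.sA.congr_simp
  have := @CA.Gr.so.eq_1
  have := @CA.Gr.so.eq_def
  have := @CA.Gr.so.congr_simp
  trivial

end CA.Gr
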